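import Mathlib
import Cfsg.Prelude.Def_Sporadic_a
import Cfsg.Agent.Lib.Leech.Fuse
import Cfsg.Agent.Lib.Leech.Monomial
import Cfsg.Agent.Lib.Leech.Sums
import Cfsg.Agent.Lib.Leech.Tri.Data

/-!
The stabiliser of two minimal vectors with inner product `-16` on minimal vectors.
-/

set_option autoImplicit false
set_option linter.unusedSimpArgs false

namespace Cfsg.Lib.Leech.Tri

open Cfsg Cfsg.Lib.Golay Cfsg.Lib.Leech
open scoped Pointwise

local notation "CC" => supports (golayCode : Set (GolayPt → ZMod 2))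

/-- The third special point. -/
def ptC : GolayPt := some 1

/-- The three special points. -/
def triSet : Finset GolayPt := {none, some 0, some 1}

/-- The second base vector `4 e_c - 4 e_b`. -/
def cVec : leechLattice := minusVec ptC ptB

/-- Permutations fixing the three special points. -/
def triStab : Subgroup (Equiv.Perm GolayPt) := pairStab ⊓ MulAction.stabilizer _ ptC

theorem mem_triStab {σ : Equiv.Perm GolayPt} : σ ∈ triStab ↔ σ ∈ M24 ∧ ∀ k ∈ triSet, σ k = k := by
  simp only [triStab, Subgroup.mem_inf, mem_pairStab, MulAction.mem_stabilizer_iff, Equiv.Perm.smul_def, pairSet,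
    triSet, Finset.mem_insert, Finset.mem_singleton, forall_eq_or_imp, forall_eq, ptC, and_assoc]

theorem triGens_mem : ∀ g ∈ triGens, permOf g ∈ triStab := by
  have h : ∀ g ∈ triGens, keepsCode g = true ∧ g.getD 23 0 = 23 ∧ g.getD 0 0 = 0 ∧ g.getD 1 0 = 1 := by
    decide +kernel
  intro g hg
  obtain ⟨h1, h2, h3, h4⟩ := h g hg
  have hp : isPermList g = true := by simp only [keepsCode, Bool.and_eq_true] at h1; exact h1.1
  refine mem_triStab.2 ⟨permOf_mem_M24 h1, fun k hk => ?_⟩
  simp only [triSet, Finset.mem_insert, Finset.mem_singleton] at hk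
  rcases hk with rfl | rfl | rfl
  · rw [permOf_apply hp]; show pt (g.getD 23 0) = _; rw [h2]; rfl
  · rw [permOf_apply hp]; show pt (g.getD 0 0) = _; rw [h3]; rfl
  · rw [permOf_apply hp]; show pt (g.getD 1 0) = _; rw [h4]; rfl

/-- The octads reached from one of the two starts. -/
def triReach (k : ℕ) : List ℕ :=
  replay imgMask triGens (triOctCerts.getD k (0, [])).1 [(triOctCerts.getD k (0, [])).1]
    (triOctCerts.getD k (0, [])).2

/-- The patterns of membership of the special points. -/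
def triPat (k : ℕ) (o : ℕ) : Bool :=
  if k = 0 then o.testBit 23 && !o.testBit 0 && o.testBit 1 else !o.testBit 23 && o.testBit 0 && !o.testBit 1

/-- The requirements on one search. -/
def triReachOK (k : ℕ) : Bool :=
  (let B := keySet ((triReach k).map codeKey)
   (octMasks.filter (triPat k)).all fun o => B.testBit (codeKey o)) &&
  (triReach k).all (fun n => decide (n < 16777216)) &&
  certOK triGens (triOctCerts.getD k (0, [])).2 && inCode (triOctCerts.getD k (0, [])).1

set_option maxRecDepth 100000 in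
theorem triReach_check : triReachOK 0 = true ∧ triReachOK 1 = true := by decide +kernel

theorem octad_from_start {k : ℕ} (hk : triReachOK k = true) {o : Finset GolayPt} (ho : o ∈ octads)
    (hp : triPat k (setNat o) = true) :
    ∃ σ ∈ triStab, σ • toSet (triOctCerts.getD k (0, [])).1 = o := by
  simp only [triReachOK, Bool.and_eq_true] at hk
  obtain ⟨⟨⟨hcov, hlt⟩, hok⟩, hbase⟩ := hk
  have ho' := (mem_octads_iff o).1 ho
  have hm := mem_of_testBit_keySet _ _ (List.all_eq_true.1 hcov _ (List.mem_filter.2 ⟨ho', hp⟩))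
  rw [List.mem_map] at hm
  obtain ⟨s, hs, hse⟩ := hm
  obtain ⟨σ, hσ, he⟩ := replay_mem_orbit imgMask toSet (fun l hl s => toSet_imgMask hl s) triStab triGens
    triGens_mem _ _ hok s hs
  have hsc := replay_inCode (inf_le_left.trans (inf_le_left.trans inf_le_left)) hbase
    (of_decide_eq_true (List.all_eq_true.1 hlt s hs)) ⟨σ, hσ, he⟩
  have := codeKey_inj hsc (inCode_of_mem_octMasks ho').1 hse
  exact ⟨σ, hσ, by rw [he, this, toSet_setNat]⟩

theorem octad_tri_transitive {O O' : Finset GolayPt} (hO : O ∈ octads) (hO' : O' ∈ octads)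
    (h : ∀ k ∈ triSet, (k ∈ O ↔ k ∈ O'))
    (hpat : (ptA ∈ O ∧ ptB ∉ O ∧ ptC ∈ O) ∨ (ptA ∉ O ∧ ptB ∈ O ∧ ptC ∉ O)) :
    ∃ σ ∈ M24, (∀ k ∈ triSet, σ k = k) ∧ σ • O = O' := by
  obtain ⟨k, hk, h1, h2⟩ : ∃ k, triReachOK k = true ∧ triPat k (setNat O) = true ∧
      triPat k (setNat O') = true := by
    have hb : ∀ Q : Finset GolayPt, ((setNat Q).testBit 23 = decide (ptA ∈ Q)) ∧
        ((setNat Q).testBit 0 = decide (ptB ∈ Q)) ∧ ((setNat Q).testBit 1 = decide (ptC ∈ Q)) := fun Q => by
      simp only [testBit_setNat _ (by norm_num : (23 : ℕ) < 24), testBit_setNat _ (by norm_num : (0 : ℕ) < 24),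
        testBit_setNat _ (by norm_num : (1 : ℕ) < 24), show pt 23 = ptA from rfl, show pt 0 = ptB from rfl,
        show pt 1 = ptC from rfl, and_self]
    have ea := h ptA (by simp [triSet, ptA])
    have eb := h ptB (by simp [triSet, ptB])
    have ec := h ptC (by simp [triSet, ptC])
    rcases hpat with ⟨p, q, r⟩ | ⟨p, q, r⟩
    · exact ⟨0, triReach_check.1, by simp [triPat, (hb O).1, (hb O).2.1, (hb O).2.2, p, q, r],
        by simp [triPat, (hb O').1, (hb O').2.1, (hb O').2.2, ← ea, ← eb, ← ec, p, q, r]⟩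
    · exact ⟨1, triReach_check.2, by simp [triPat, (hb O).1, (hb O).2.1, (hb O).2.2, p, q, r],
        by simp [triPat, (hb O').1, (hb O').2.1, (hb O').2.2, ← ea, ← eb, ← ec, p, q, r]⟩
  obtain ⟨a, ha', hao⟩ := octad_from_start hk hO h1
  obtain ⟨b, hb', hbo⟩ := octad_from_start hk hO' h2
  obtain ⟨g1, g2⟩ := mem_triStab.1 (triStab.mul_mem hb' (triStab.inv_mem ha'))
  exact ⟨b * a⁻¹, g1, g2, by rw [mul_smul, ← hao, inv_smul_smul, hbo]⟩

theorem monoElt_fix3 {p : M24 × CC}
    (h : ∀ k ∈ triSet, (p.1 : Equiv.Perm GolayPt) k = k ∧ k ∉ (p.2 : Finset GolayPt)) :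
    monoElt p • baseVec = baseVec ∧ monoElt p • cVec = cVec := by
  refine ⟨monoElt_fix fun k hk => h k ?_, Subtype.ext (funext fun i => ?_)⟩
  · simp only [pairSet, triSet, Finset.mem_insert, Finset.mem_singleton] at hk ⊢
    tauto
  rw [monoElt_apply]
  obtain ⟨hb, hb'⟩ := h (some 0) (by simp [triSet])
  obtain ⟨hc, hc'⟩ := h (some 1) (by simp [triSet])
  have e1 : (p.1 : Equiv.Perm GolayPt).symm i = some 1 ↔ i = some 1 := by rw [Equiv.symm_apply_eq, hc]
  have e2 : (p.1 : Equiv.Perm GolayPt).symm i = some 0 ↔ i = some 0 := by rw [Equiv.symm_apply_eq, hb]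
  simp only [signedPerm, cVec, minusVec, ptC, ptB, e1, e2]
  by_cases hi : i ∈ (p.2 : Finset GolayPt)
  · have h1 : i ≠ some 1 := fun e => hc' (e ▸ hi)
    have h2 : i ≠ some 0 := fun e => hb' (e ▸ hi)
    simp [hi, h1, h2]
  · by_cases h1 : i = some 1 <;> by_cases h2 : i = some 0 <;> subst_vars <;> simp_all

/-- The orbit invariant relative to the two base vectors. -/
def key3 (x : GolayPt → ℤ) : Bool × ℤ × ℤ × ℤ := (decide (twoSet x = ∅), x ptA, x ptB, x ptC)

/-- The keys that occur. -/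
def keysX : List (Bool × ℤ × ℤ × ℤ) := [(false, -2, 0, 2), (false, 0, -2, 0), (true, -1, -1, 1), (true, 1, -3, -1)]
/-- The keys that occur. -/
def keysY : List (Bool × ℤ × ℤ × ℤ) := [(false, -2, 0, -2), (true, -1, -1, -3), (true, -3, 1, -1)]

theorem key3_mem {x : leechLattice} (hx : sqNorm (x : GolayPt → ℤ) = 32)
    (h1 : (x : GolayPt → ℤ) ptA + (x : GolayPt → ℤ) ptB = -2) :
    ((x : GolayPt → ℤ) ptC - (x : GolayPt → ℤ) ptB = 2 → key3 (x : GolayPt → ℤ) ∈ keysX) ∧
    ((x : GolayPt → ℤ) ptC - (x : GolayPt → ℤ) ptB = -2 → key3 (x : GolayPt → ℤ) ∈ keysY) := by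
  simp only [key3, keysX, keysY, List.mem_cons, Prod.mk.injEq, List.not_mem_nil, or_false,
    decide_eq_true_eq, decide_eq_false_iff_not]
  set a := (x : GolayPt → ℤ) ptA with ea
  set b := (x : GolayPt → ℤ) ptB with eb
  set c := (x : GolayPt → ℤ) ptC with ec
  rcases shape32 x.2 hx with ⟨O, hO, sx⟩ | ⟨A, hA, sx⟩ | ⟨p, sx⟩
  · have hne : twoSet (x : GolayPt → ℤ) ≠ ∅ := by
      rw [twoSet_eq sx]; intro h; rw [h] at hO; simpa using card_octad hO
    have v : ∀ i, (x : GolayPt → ℤ) i = 0 ∨ (x : GolayPt → ℤ) i = 2 ∨ (x : GolayPt → ℤ) i = -2 := fun i => by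
      have h := sx i
      rcases abs_cases ((x : GolayPt → ℤ) i) with ⟨e, -⟩ | ⟨e, -⟩ <;> rw [e] at h <;> split at h <;> omega
    have va := v ptA
    have vb := v ptB
    have vc := v ptC
    rw [← ea] at va; rw [← eb] at vb; rw [← ec] at vc
    simp only [hne, not_false_eq_true, true_and, false_and, or_false]
    omega
  · have v : ∀ i, (x : GolayPt → ℤ) i = 0 ∨ (x : GolayPt → ℤ) i = 4 ∨ (x : GolayPt → ℤ) i = -4 := fun i => by
      have h := sx i
      rcases abs_cases ((x : GolayPt → ℤ) i) with ⟨e, -⟩ | ⟨e, -⟩ <;> rw [e] at h <;> split at h <;> omega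
    have va := v ptA
    have vb := v ptB
    rw [← ea] at va; rw [← eb] at vb
    omega
  · have he : twoSet (x : GolayPt → ℤ) = ∅ := twoSet_empty sx (by norm_num) (by norm_num)
    have v : ∀ i, ((x : GolayPt → ℤ) i = 1 ∨ (x : GolayPt → ℤ) i = -1) ∨
        (i = p ∧ ((x : GolayPt → ℤ) i = 3 ∨ (x : GolayPt → ℤ) i = -3)) := fun i => by
      have h := sx i
      by_cases hi : i = p
      · rw [if_pos (Finset.mem_singleton.2 hi)] at h
        rcases abs_cases ((x : GolayPt → ℤ) i) with ⟨e, -⟩ | ⟨e, -⟩ <;> rw [e] at h <;>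
          exact Or.inr ⟨hi, by omega⟩
      · rw [if_neg (fun h' => hi (Finset.mem_singleton.1 h'))] at h
        rcases abs_cases ((x : GolayPt → ℤ) i) with ⟨e, -⟩ | ⟨e, -⟩ <;> rw [e] at h <;> left <;> omega
    have va := v ptA
    have vb := v ptB
    have vc := v ptC
    rw [← ea] at va; rw [← eb] at vb; rw [← ec] at vc
    simp only [he, not_true_eq_false, true_and, false_and, false_or]
    rcases va with va | ⟨pa, va⟩ <;> rcases vb with vb | ⟨pb, vb⟩ <;> rcases vc with vc | ⟨pc, vc⟩ <;>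
      first
      | omega
      | exact absurd (pa.trans pb.symm) (by decide)
      | exact absurd (pa.trans pc.symm) (by decide)
      | exact absurd (pb.trans pc.symm) (by decide)

/-- Equal keys give a monomial relation fixing the base vectors. -/
theorem rel_of_key3 {x y : leechLattice} (hx : sqNorm (x : GolayPt → ℤ) = 32)
    (hy : sqNorm (y : GolayPt → ℤ) = 32) {k : Bool × ℤ × ℤ × ℤ} (hk : k ∈ keysX ++ keysY)
    (ex : key3 (x : GolayPt → ℤ) = k) (ey : key3 (y : GolayPt → ℤ) = k) :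
    ∃ g : Co0, g • baseVec = baseVec ∧ g • cVec = cVec ∧ g • x = y := by
  have hK : ∀ i ∈ triSet, (x : GolayPt → ℤ) i = (y : GolayPt → ℤ) i := by
    have h := ex.trans ey.symm
    simp only [key3, Prod.mk.injEq, ptA, ptB, ptC] at h
    simp [triSet, h.2.1, h.2.2.1, h.2.2.2]
  suffices ∃ p : M24 × CC, (∀ i ∈ triSet, (p.1 : Equiv.Perm GolayPt) i = i ∧ i ∉ (p.2 : Finset GolayPt)) ∧
      monoElt p • x = y by
    obtain ⟨p, hp, he⟩ := this
    exact ⟨monoElt p, (monoElt_fix3 hp).1, (monoElt_fix3 hp).2, he⟩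
  have hcard : triSet.card ≤ 3 := Finset.card_le_three
  have hoct : ∀ (z : leechLattice), key3 (z : GolayPt → ℤ) = k → k.1 = false →
      sqNorm (z : GolayPt → ℤ) = 32 → ∃ O ∈ octads, AbsShape (z : GolayPt → ℤ) O 2 0 := by
    intro z ez hf hz
    rcases shape32 z.2 hz with h | ⟨A, hA, sx⟩ | ⟨p, sx⟩
    · exact h
    all_goals
      have := congrArg Prod.fst ez
      simp [key3, twoSet_empty sx (by norm_num) (by norm_num), hf] at this
  have hodd : ∀ (z : leechLattice), key3 (z : GolayPt → ℤ) = k → k.1 = true →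
      sqNorm (z : GolayPt → ℤ) = 32 → ∃ p, AbsShape (z : GolayPt → ℤ) {p} 3 1 := by
    intro z ez hf hz
    rcases shape32 z.2 hz with ⟨O, hO, sx⟩ | ⟨A, hA, sx⟩ | h
    · exfalso
      have := congrArg Prod.fst ez
      simp [key3, hf, twoSet_eq sx] at this
      rw [this] at hO
      simpa using card_octad hO
    · exfalso
      have hodd : k.2.1 % 2 = 1 := by
        simp only [keysX, keysY, List.cons_append, List.nil_append, List.mem_cons, List.not_mem_nil, or_false] at hk
        rcases hk with rfl | rfl | rfl | rfl | rfl | rfl | rfl <;> simp at hf ⊢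
      have e : (z : GolayPt → ℤ) ptA = k.2.1 := congrArg (fun q : Bool × ℤ × ℤ × ℤ => q.2.1) ez
      have h := sx ptA
      rw [← e] at hodd
      rcases abs_cases ((z : GolayPt → ℤ) ptA) with ⟨q, -⟩ | ⟨q, -⟩ <;> rw [q] at h <;> split at h <;> omega
    · exact h
  cases hb : k.1 with
  | false =>
    obtain ⟨O, hO, sx⟩ := hoct x ex hb hx
    obtain ⟨O', hO', sy⟩ := hoct y ey hb hy
    have hmem : ∀ i ∈ triSet, (i ∈ O ↔ i ∈ O') := fun i hi => by
      have h1 := sx i; rw [hK i hi, sy i] at h1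
      by_cases a : i ∈ O <;> by_cases b : i ∈ O' <;> simp [a, b] at h1 ⊢
    have hpat : (ptA ∈ O ∧ ptB ∉ O ∧ ptC ∈ O) ∨ (ptA ∉ O ∧ ptB ∈ O ∧ ptC ∉ O) := by
      have e := ex
      simp only [key3] at e
      have ha := sx ptA
      have hb' := sx ptB
      have hc := sx ptC
      simp only [keysX, keysY, List.cons_append, List.nil_append, List.mem_cons, List.not_mem_nil, or_false] at hk
      rcases hk with rfl | rfl | rfl | rfl | rfl | rfl | rfl <;> simp at hb <;>
        simp only [Prod.mk.injEq] at e <;> rw [e.2.1] at ha <;> rw [e.2.2.1] at hb' <;> rw [e.2.2.2] at hc <;>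
        by_cases A1 : ptA ∈ O <;> by_cases B1 : ptB ∈ O <;> by_cases C1 : ptC ∈ O <;>
        simp [A1, B1, C1] at ha hb' hc ⊢
    obtain ⟨σ, hσ, hfix, hOO⟩ := octad_tri_transitive hO hO' hmem hpat
    refine exists_monomial triSet σ hσ hfix (abs_of_smul sx sy hOO) hK fun _ => ⟨fun i => ?_, ?_, ?_⟩
    · rw [sy i]; split <;> simp
    · rw [twoSet_eq sy]; exact hO'.1
    · rw [twoSet_eq sy]
      have := Finset.card_union_le (Finset.univ.filter fun i => (y : GolayPt → ℤ) i ≠ 0) (triSet \ O')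
      have h1 := Finset.card_le_card (support_subset sy)
      have h2 : (triSet \ O').card ≤ triSet.card := Finset.card_le_card Finset.sdiff_subset
      have h3 := card_octad hO'
      omega
  | true =>
    obtain ⟨p, sx⟩ := hodd x ex hb hx
    obtain ⟨p', sy⟩ := hodd y ey hb hy
    have hy2 : ¬ (y : GolayPt → ℤ) none % 2 = 0 := fun h => by
      have h' := sy none
      rcases abs_cases ((y : GolayPt → ℤ) none) with ⟨q, -⟩ | ⟨q, -⟩ <;> rw [q] at h' <;> split at h' <;> omega
    by_cases hpK : p ∈ triSet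
    · have hpp : p = p' := by
        have h1 := sx p; rw [hK p hpK, sy p] at h1
        simpa using h1
      exact exists_monomial triSet 1 M24.one_mem (fun k _ => rfl)
        (fun i => by rw [sx i, sy ((1 : Equiv.Perm GolayPt) i), hpp]; rfl) hK (fun h => absurd h hy2)
    · have hpK' : p' ∉ triSet := by
        intro h
        have h1 := sx p'; rw [hK p' h, sy p'] at h1
        simp at h1
        exact hpK (h1 ▸ h)
      obtain ⟨σ, hσ, hfix, hs⟩ := exists_perm_sets triSet {p} {p'} (by simpa using hpK) (by simpa using hpK') rfl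
        (by simp; omega)
      exact exists_monomial triSet σ hσ hfix (abs_of_smul sx sy hs) hK (fun h => absurd h hy2)

theorem lists_check : keepsCode triRho = true ∧ keepsCode triPi = true ∧
    (∀ i : GolayPt, mapFun triRho (mapFun triRhoInv i) = i) ∧
    (∀ i : GolayPt, mapFun triPi (mapFun triPiInv i) = i) := by decide +kernel

/-- The coordinate formula for `triElt`. -/
def triFun (x : GolayPt → ℤ) : GolayPt → ℤ :=
  fun i => xiFun (fun j => x (mapFun triRhoInv j)) (mapFun triPiInv i)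

/-- An automorphism fixing both base vectors outside the monomial group. -/
noncomputable def triElt : Co0 :=
  permElt (permOf triPi) (permOf_mem_M24 lists_check.2.1) * xiElt *
    permElt (permOf triRho) (permOf_mem_M24 lists_check.1)

theorem triElt_apply (x : leechLattice) :
    ((triElt • x : leechLattice) : GolayPt → ℤ) = triFun (x : GolayPt → ℤ) := by
  funext i
  simp only [triElt, mul_smul, permElt_apply, xiElt_apply, triFun, perm_inv_eq lists_check.2.1 lists_check.2.2.2]
  congr 1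
  funext j
  rw [permElt_apply, perm_inv_eq lists_check.1 lists_check.2.2.1]

theorem tri_base_check :
    triFun (fun i => (if i = none then (4 : ℤ) else 0) + (if i = some 0 then 4 else 0)) =
      (fun i => (if i = none then (4 : ℤ) else 0) + (if i = some 0 then 4 else 0)) ∧
    triFun (fun i => (if i = some 1 then (4 : ℤ) else 0) - (if i = some 0 then 4 else 0)) =
      (fun i => (if i = some 1 then (4 : ℤ) else 0) - (if i = some 0 then 4 else 0)) := by decide +kernel

theorem triElt_fix : triElt • baseVec = baseVec ∧ triElt • cVec = cVec :=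
  ⟨Subtype.ext (by rw [triElt_apply]; exact tri_base_check.1),
    Subtype.ext (by rw [triElt_apply]; exact tri_base_check.2)⟩

/-- All vectors with key `k` are in the orbit of `hub`. -/
def Linked (hub : leechLattice) (k : Bool × ℤ × ℤ × ℤ) : Prop :=
  k ∈ keysX ++ keysY ∧ ∀ x : leechLattice, sqNorm (x : GolayPt → ℤ) = 32 → key3 (x : GolayPt → ℤ) = k →
    ∃ g : Co0, g • baseVec = baseVec ∧ g • cVec = cVec ∧ g • x = hub

theorem linked_self {hub : leechLattice} (h : sqNorm (hub : GolayPt → ℤ) = 32)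
    (hk : key3 (hub : GolayPt → ℤ) ∈ keysX ++ keysY) : Linked hub (key3 (hub : GolayPt → ℤ)) :=
  ⟨hk, fun _ hx e => rel_of_key3 hx h hk e rfl⟩

theorem linked_step {hub : leechLattice} {l : List ℤ} (hl : CheckVec (ofList l) ∧ sqNorm (ofList l) = 32)
    (hk : key3 (triFun (ofList l)) ∈ keysX ++ keysY) (h : Linked hub (key3 (ofList l))) :
    Linked hub (key3 (triFun (ofList l))) := by
  refine ⟨hk, fun x hx e => ?_⟩
  let w : leechLattice := ⟨ofList l, mem_of_check hl.1⟩
  obtain ⟨g1, f1, c1, e1⟩ := rel_of_key3 (y := triElt • w) hx (by rw [co0_norm]; exact hl.2) hk e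
    (by rw [triElt_apply])
  obtain ⟨g2, f2, c2, e2⟩ := h.2 w hl.2 rfl
  refine ⟨g2 * triElt⁻¹ * g1, ?_, ?_, ?_⟩
  · rw [mul_smul, mul_smul, f1, inv_smul_eq_iff.2 triElt_fix.1.symm, f2]
  · rw [mul_smul, mul_smul, c1, inv_smul_eq_iff.2 triElt_fix.2.symm, c2]
  · rw [mul_smul, mul_smul, e1, inv_smul_smul, e2]

/-- The keys linked along a chain of witnesses. -/
def reach : List (List ℤ) → List (Bool × ℤ × ℤ × ℤ) → List (Bool × ℤ × ℤ × ℤ)
  | [], acc => acc
  | l :: ls, acc =>
    reach ls (if acc.contains (key3 (ofList l)) then key3 (triFun (ofList l)) :: acc else acc)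

theorem linked_reach {hub : leechLattice} : ∀ (W : List (List ℤ)),
    (∀ l ∈ W, (CheckVec (ofList l) ∧ sqNorm (ofList l) = 32) ∧ key3 (triFun (ofList l)) ∈ keysX ++ keysY) →
    ∀ acc, (∀ k ∈ acc, Linked hub k) → ∀ k ∈ reach W acc, Linked hub k := by
  intro W
  induction W with
  | nil => intro _ acc h k hk; exact h k hk
  | cons l ls ih =>
    intro hW acc h k hk
    refine ih (fun l' hl' => hW l' (List.mem_cons_of_mem _ hl')) _ ?_ k hk
    intro q hq
    split at hq
    · rename_i hc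
      rcases List.mem_cons.1 hq with rfl | hq
      · exact linked_step (hW l List.mem_cons_self).1 (hW l List.mem_cons_self).2
          (h _ (List.contains_iff_mem.1 hc))
      · exact h q hq
    · exact h q hq

theorem wit3_check : ∀ l ∈ wit20736 ++ wit2816, (CheckVec (ofList l) ∧ sqNorm (ofList l) = 32) ∧
    key3 (triFun (ofList l)) ∈ keysX ++ keysY := by decide +kernel

theorem reach_check :
    (∀ k ∈ keysX, k ∈ reach wit20736 [key3 (ofList (wit20736.getD 0 []))]) ∧
    (∀ k ∈ keysY, k ∈ reach wit2816 [key3 (ofList (wit2816.getD 0 []))]) ∧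
    key3 (ofList (wit20736.getD 0 [])) ∈ keysX ++ keysY ∧
    key3 (ofList (wit2816.getD 0 [])) ∈ keysX ++ keysY := by decide +kernel

theorem dot_cVec (x : GolayPt → ℤ) :
    dotInt ((cVec : leechLattice) : GolayPt → ℤ) x = 4 * x ptC - 4 * x ptB := by
  simp [dotInt, cVec, minusVec, ptC, ptB, sub_mul, Finset.sum_sub_distrib, ite_mul, zero_mul]

theorem cVec_norm : sqNorm ((cVec : leechLattice) : GolayPt → ℤ) = 32 := minusVec_norm _ _ (by decide)

theorem base_dot_cVec : dotInt ((baseVec : leechLattice) : GolayPt → ℤ) cVec = -16 := by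
  rw [dot_base]
  have h : ((cVec : leechLattice) : GolayPt → ℤ) ptA = 0 ∧ ((cVec : leechLattice) : GolayPt → ℤ) ptB = -4 := by decide
  rw [h.1, h.2]; norm_num

/-- Fusion of the keys with given inner products. -/
theorem trans_base {x y : leechLattice} (hx : sqNorm (x : GolayPt → ℤ) = 32)
    (hy : sqNorm (y : GolayPt → ℤ) = 32) {d : ℤ} (hd : d = 8 ∨ d = -8)
    (hax : dotInt ((baseVec : leechLattice) : GolayPt → ℤ) x = -8)
    (hay : dotInt ((baseVec : leechLattice) : GolayPt → ℤ) y = -8)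
    (hcx : dotInt ((cVec : leechLattice) : GolayPt → ℤ) x = d)
    (hcy : dotInt ((cVec : leechLattice) : GolayPt → ℤ) y = d) :
    ∃ g : Co0, g • baseVec = baseVec ∧ g • cVec = cVec ∧ g • x = y := by
  rw [dot_base] at hax hay
  rw [dot_cVec] at hcx hcy
  obtain ⟨W, K, hW, hK, h0, h1, h2⟩ : ∃ (W : List (List ℤ)) (K : List (Bool × ℤ × ℤ × ℤ)),
      (∀ l ∈ W, (CheckVec (ofList l) ∧ sqNorm (ofList l) = 32) ∧ key3 (triFun (ofList l)) ∈ keysX ++ keysY) ∧
      (∀ k ∈ K, k ∈ reach W [key3 (ofList (W.getD 0 []))]) ∧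
      (W.getD 0 [] ∈ W ∧ key3 (ofList (W.getD 0 [])) ∈ keysX ++ keysY) ∧
      key3 (x : GolayPt → ℤ) ∈ K ∧ key3 (y : GolayPt → ℤ) ∈ K := by
    rcases hd with rfl | rfl
    · exact ⟨wit20736, keysX, fun l hl => wit3_check l (List.mem_append_left _ hl), reach_check.1,
        ⟨by decide, reach_check.2.2.1⟩, (key3_mem hx (by omega)).1 (by omega), (key3_mem hy (by omega)).1 (by omega)⟩
    · exact ⟨wit2816, keysY, fun l hl => wit3_check l (List.mem_append_right _ hl), reach_check.2.1,
        ⟨by decide, reach_check.2.2.2⟩, (key3_mem hx (by omega)).2 (by omega), (key3_mem hy (by omega)).2 (by omega)⟩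
  let hub : leechLattice := ⟨ofList (W.getD 0 []), mem_of_check (hW _ h0.1).1.1⟩
  have hl : ∀ k ∈ reach W [key3 (ofList (W.getD 0 []))], Linked hub k :=
    linked_reach W hW _ fun k hk => by
      rw [List.mem_singleton] at hk
      exact hk ▸ linked_self (hub := hub) (hW _ h0.1).1.2 h0.2
  obtain ⟨g1, a1, c1, e1⟩ := (hl _ (hK _ h1)).2 x hx rfl
  obtain ⟨g2, a2, c2, e2⟩ := (hl _ (hK _ h2)).2 y hy rfl
  refine ⟨g2⁻¹ * g1, ?_, ?_, ?_⟩
  · rw [mul_smul, a1, inv_smul_eq_iff.2 a2.symm]
  · rw [mul_smul, c1, inv_smul_eq_iff.2 c2.symm]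
  · rw [mul_smul, e1, ← e2, inv_smul_smul]

/-- Any pair of minimal vectors with inner product `-16` moves to the base pair. -/
theorem to_base_pair {a c : leechLattice} (ha : sqNorm (a : GolayPt → ℤ) = 32)
    (hc : sqNorm (c : GolayPt → ℤ) = 32) (h : dotInt (a : GolayPt → ℤ) c = -16) :
    ∃ g : Co0, g • a = baseVec ∧ g • c = cVec :=
  trans_pair ha hc baseVec_norm cVec_norm (Or.inl rfl) h base_dot_cVec

/-- Transitivity on triangles with a further minimal vector. -/
theorem trans_tri {a c b a' c' b' : leechLattice} (ha : sqNorm (a : GolayPt → ℤ) = 32)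
    (hc : sqNorm (c : GolayPt → ℤ) = 32) (hb : sqNorm (b : GolayPt → ℤ) = 32)
    (ha' : sqNorm (a' : GolayPt → ℤ) = 32) (hc' : sqNorm (c' : GolayPt → ℤ) = 32)
    (hb' : sqNorm (b' : GolayPt → ℤ) = 32) {d : ℤ} (hd : d = 8 ∨ d = -8)
    (hac : dotInt (a : GolayPt → ℤ) c = -16) (hac' : dotInt (a' : GolayPt → ℤ) c' = -16)
    (hab : dotInt (a : GolayPt → ℤ) b = -8) (hab' : dotInt (a' : GolayPt → ℤ) b' = -8)
    (hcb : dotInt (c : GolayPt → ℤ) b = d) (hcb' : dotInt (c' : GolayPt → ℤ) b' = d) :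
    ∃ g : Co0, g • a = a' ∧ g • c = c' ∧ g • b = b' := by
  obtain ⟨g, ga, gc⟩ := to_base_pair ha hc hac
  obtain ⟨h, ea, ec⟩ := to_base_pair ha' hc' hac'
  obtain ⟨k, ka, kc, kb⟩ := trans_base (x := g • b) (y := h • b') (by rw [co0_norm, hb]) (by rw [co0_norm, hb']) hd
    (by rw [← ga, co0_dot, hab]) (by rw [← ea, co0_dot, hab']) (by rw [← gc, co0_dot, hcb])
    (by rw [← ec, co0_dot, hcb'])
  refine ⟨h⁻¹ * (k * g), ?_, ?_, ?_⟩
  · rw [mul_smul, mul_smul, ga, ka, ← ea, inv_smul_smul]
  · rw [mul_smul, mul_smul, gc, kc, ← ec, inv_smul_smul]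
  · rw [mul_smul, mul_smul, kb, inv_smul_smul]

end Cfsg.Lib.Leech.Tri
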