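import Mathlib
import Cfsg.Prelude.Def_Sporadic_a
import Cfsg.Agent.Lib.Leech.CountBase
import Cfsg.Agent.Lib.Leech.Counts
import Cfsg.Agent.Lib.Leech.PairCounts

/-!
Numbers of minimal vectors with prescribed linear conditions at three special coordinates.
-/

set_option autoImplicit false
set_option linter.unusedSimpArgs false
set_option Elab.async false

namespace Cfsg.Lib.Leech.Tri

open Cfsg Cfsg.Lib.Golay Cfsg.Lib.Leech

/-- Code words by weight and by membership of the three special points. -/
def triTable : List ((ℕ × Bool × Bool × Bool) × ℕ) := [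
  ((0, false, false, false), 1), ((8, false, false, false), 210), ((8, false, false, true), 120),
  ((8, false, true, false), 120), ((8, false, true, true), 56), ((8, true, false, false), 120),
  ((8, true, false, true), 56), ((8, true, true, false), 56), ((8, true, true, true), 21),
  ((12, false, false, false), 280), ((12, false, false, true), 336), ((12, false, true, false), 336),
  ((12, false, true, true), 336), ((12, true, false, false), 336), ((12, true, false, true), 336),
  ((12, true, true, false), 336), ((12, true, true, true), 280), ((16, false, false, false), 21),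
  ((16, false, false, true), 56), ((16, false, true, false), 56), ((16, false, true, true), 120),
  ((16, true, false, false), 56), ((16, true, false, true), 120), ((16, true, true, false), 120),
  ((16, true, true, true), 210), ((24, true, true, true), 1)]

/-- The signature of a mask. -/
def triSig (n : ℕ) : ℕ × Bool × Bool × Bool := (pop n, n.testBit 23, n.testBit 0, n.testBit 1)

/-- The count test for a part of the table. -/
def cntOK (L : List ((ℕ × Bool × Bool × Bool) × ℕ)) : Bool :=
  L.all fun q => ((spanL codeGens).countP fun n => triSig n == q.1) == q.2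

set_option maxRecDepth 100000 in
theorem cnt0 : cntOK ((triTable.drop 0).take 4) = true := by decide +kernel

set_option maxRecDepth 100000 in
theorem cnt1 : cntOK ((triTable.drop 4).take 4) = true := by decide +kernel

set_option maxRecDepth 100000 in
theorem cnt2 : cntOK ((triTable.drop 8).take 4) = true := by decide +kernel

set_option maxRecDepth 100000 in
theorem cnt3 : cntOK ((triTable.drop 12).take 4) = true := by decide +kernel

set_option maxRecDepth 100000 in
theorem cnt4 : cntOK ((triTable.drop 16).take 4) = true := by decide +kernel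

set_option maxRecDepth 100000 in
theorem cnt5 : cntOK ((triTable.drop 20).take 4) = true := by decide +kernel

set_option maxRecDepth 100000 in
theorem cnt6 : cntOK ((triTable.drop 24).take 4) = true := by decide +kernel

set_option maxRecDepth 100000 in
theorem sig_all : ((spanL codeGens).all fun n => (triTable.map Prod.fst).contains (triSig n)) = true := by
  decide +kernel

theorem triTable_check :
    (triTable.all fun q => ((spanL codeGens).countP fun n => triSig n == q.1) == q.2) = true ∧
      ((spanL codeGens).all fun n => (triTable.map Prod.fst).contains (triSig n)) = true ∧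
      (triTable.map Prod.fst).Nodup := by
  refine ⟨?_, sig_all, by decide⟩
  rw [show triTable = (triTable.drop 0).take 4 ++ (triTable.drop 4).take 4 ++ (triTable.drop 8).take 4 ++ (triTable.drop 12).take 4 ++ (triTable.drop 16).take 4 ++ (triTable.drop 20).take 4 ++ (triTable.drop 24).take 4 by decide]
  simp only [List.all_append, Bool.and_eq_true]
  exact ⟨⟨⟨⟨⟨⟨cnt0, cnt1⟩, cnt2⟩, cnt3⟩, cnt4⟩, cnt5⟩, cnt6⟩

theorem sum_by_sig (g : ℕ × Bool × Bool × Bool → ℕ) :
    ((spanL codeGens).map fun n => g (triSig n)).sum = (triTable.map fun q => q.2 * g q.1).sum := by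
  obtain ⟨hcnt, hall, hnd⟩ := triTable_check
  have h : ∀ L : List ℕ, (∀ n ∈ L, triSig n ∈ triTable.map Prod.fst) →
      (L.map fun n => g (triSig n)).sum =
        (triTable.map fun q => (L.countP fun n => triSig n == q.1) * g q.1).sum := by
    intro L hL
    induction L with
    | nil => simp
    | cons a l ih =>
      rw [List.map_cons, List.sum_cons, ih fun n hn => hL n (List.mem_cons_of_mem _ hn)]
      have hone : (triTable.map fun q => if triSig a == q.1 then g q.1 else 0).sum = g (triSig a) := by
        have ha := hL a List.mem_cons_self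
        have e : (triTable.map fun q => if triSig a == q.1 then g q.1 else 0) =
            (triTable.map Prod.fst).map fun k => if k = triSig a then g k else 0 := by
          rw [List.map_map]
          refine List.map_congr_left fun q _ => ?_
          simp only [Function.comp]
          by_cases h : q.1 = triSig a
          · simp [h]
          · simp [h, Ne.symm h]
        rw [e, ← List.sum_toFinset _ hnd, Finset.sum_ite_eq' , if_pos (List.mem_toFinset.2 ha)]
      rw [← hone, ← List.sum_map_add]
      refine congrArg List.sum (List.map_congr_left fun q _ => ?_)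
      rw [List.countP_cons]
      split <;> ring
  rw [h _ fun n hn => by simpa [List.contains_iff_mem] using List.all_eq_true.1 hall n hn]
  refine congrArg List.sum (List.map_congr_left fun q hq => ?_)
  have := List.all_eq_true.1 hcnt q hq
  rw [beq_iff_eq] at this
  rw [this]

/-- The count for one signature. -/
def triVal (Pa Pb Pc P : ℤ → Bool) (N : ℕ) (m : Bool) (σ : ℕ × Bool × Bool × Bool) : ℕ :=
  let j := σ.1 - (if σ.2.1 then 1 else 0) - (if σ.2.2.1 then 1 else 0) - (if σ.2.2.2 then 1 else 0)
  extract m N
    (gPlus Pa (resVal m σ.2.1) * gPlus Pb (resVal m σ.2.2.1) * gPlus Pc (resVal m σ.2.2.2) *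
      (gPlus P (resVal m true) ^ j * gPlus P (resVal m false) ^ (21 - j)))
    (gMinus Pa (resVal m σ.2.1) * gMinus Pb (resVal m σ.2.2.1) * gMinus Pc (resVal m σ.2.2.2) *
      (gMinus P (resVal m true) ^ j * gMinus P (resVal m false) ^ (21 - j)))

/-- Allowed values varying at the three special points. -/
def triP (Pa Pb Pc P : ℤ → Bool) (i : GolayPt) : ℤ → Bool :=
  if i = none then Pa else if i = some 0 then Pb else if i = some 1 then Pc else P

theorem prod_tri {M : Type*} [CommMonoid M] (G : (ℤ → Bool) → Bool → M) (Pa Pb Pc P : ℤ → Bool)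
    (S : Finset GolayPt) :
    ∏ i, G (triP Pa Pb Pc P i) (decide (i ∈ S)) =
      let j := S.card - (if decide (none ∈ S) then 1 else 0) - (if decide (some 0 ∈ S) then 1 else 0) -
        (if decide (some 1 ∈ S) then 1 else 0)
      G Pa (decide (none ∈ S)) * G Pb (decide (some 0 ∈ S)) * G Pc (decide (some 1 ∈ S)) *
        (G P true ^ j * G P false ^ (21 - j)) := by
  dsimp only
  generalize hjdef : (S.card - (if decide ((none : GolayPt) ∈ S) then 1 else 0) -
    (if decide (some (0 : ZMod 23) ∈ S) then 1 else 0) - (if decide (some (1 : ZMod 23) ∈ S) then 1 else 0)) = j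
  set R : Finset GolayPt := ((Finset.univ.erase none).erase (some 0)).erase (some 1) with hR
  have h10 : (some (1 : ZMod 23) : GolayPt) ≠ some 0 := by decide
  have h0 : some (0 : ZMod 23) ∈ (Finset.univ : Finset GolayPt).erase none := by simp
  have h1 : some (1 : ZMod 23) ∈ ((Finset.univ : Finset GolayPt).erase none).erase (some 0) :=
    Finset.mem_erase.2 ⟨h10, by simp⟩
  rw [← Finset.mul_prod_erase Finset.univ _ (Finset.mem_univ (none : GolayPt)),
    ← Finset.mul_prod_erase _ _ h0, ← Finset.mul_prod_erase _ _ h1, ← hR]
  have e1 : triP Pa Pb Pc P none = Pa := if_pos rfl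
  have e2 : triP Pa Pb Pc P (some 0) = Pb := by rw [triP, if_neg (by simp), if_pos rfl]
  have e4 : triP Pa Pb Pc P (some 1) = Pc := by rw [triP, if_neg (by simp), if_neg h10, if_pos rfl]
  have e3 : ∀ i ∈ R, triP Pa Pb Pc P i = P := fun i hi => by
    simp only [hR, Finset.mem_erase] at hi
    rw [triP, if_neg hi.2.2.1, if_neg hi.2.1, if_neg hi.1]
  rw [e1, e2, e4, Finset.prod_congr rfl fun i hi => by rw [e3 i hi], ← mul_assoc, ← mul_assoc]
  congr 1
  rw [← Finset.prod_filter_mul_prod_filter_not R (fun i => i ∈ S)]
  have hc : R.card = 21 := by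
    rw [hR, Finset.card_erase_of_mem h1, Finset.card_erase_of_mem h0,
      Finset.card_erase_of_mem (Finset.mem_univ _), Finset.card_univ, card_golayPt]
  have hj : (R.filter fun i => i ∈ S).card = j := by
    have e : (R.filter fun i => i ∈ S) = ((S.erase none).erase (some 0)).erase (some 1) := by
      ext i; simp [hR]; tauto
    rw [e]
    simp only [← hjdef, decide_eq_true_eq]
    rw [Finset.card_erase_eq_ite, Finset.card_erase_eq_ite, Finset.card_erase_eq_ite]
    simp only [Finset.mem_erase, ne_eq, reduceCtorEq, not_false_eq_true, true_and, h10]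
    split <;> split <;> split <;> rfl
  have hn : (R.filter fun i => ¬ i ∈ S).card = 21 - j := by
    have := Finset.card_filter_add_card_filter_not (s := R) (fun i => i ∈ S)
    omega
  rw [Finset.prod_congr rfl fun i hi => by rw [decide_eq_true (Finset.mem_filter.1 hi).2],
    Finset.prod_congr rfl (s₁ := R.filter fun i => ¬ i ∈ S) fun i hi => by
      rw [decide_eq_false (Finset.mem_filter.1 hi).2],
    Finset.prod_const, Finset.prod_const, hj, hn]

/-- Total over the signatures. -/
def triTotal (Pa Pb Pc P : ℤ → Bool) (N : ℕ) : ℕ :=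
  (triTable.map fun q => q.2 * (triVal Pa Pb Pc P N false q.1 + triVal Pa Pb Pc P N true q.1)).sum

theorem ncard_tri (Pa Pb Pc P : ℤ → Bool) (N : ℕ) (hN : N ≤ 64) :
    {x : GolayPt → ℤ | x ∈ leechLattice ∧ sqNorm x = N ∧ ∀ i, triP Pa Pb Pc P i (x i) = true}.ncard =
      triTotal Pa Pb Pc P N := by
  rw [ncard_norm_set (triP Pa Pb Pc P) N hN]
  have hcls : ∀ (m : Bool) (n : ℕ),
      (classSet (triP Pa Pb Pc P) N m (toSet n)).card = triVal Pa Pb Pc P N m (triSig n) := fun m n => by
    rw [classSet_card, prod_tri (fun Q b => gPlus Q (resVal m b)) Pa Pb Pc P,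
      prod_tri (fun Q b => gMinus Q (resVal m b)) Pa Pb Pc P]
    have h23 : decide ((none : GolayPt) ∈ toSet n) = n.testBit 23 := by
      rw [Bool.eq_iff_iff, decide_eq_true_eq, mem_toSet]; rfl
    have h00 : decide (some (0 : ZMod 23) ∈ toSet n) = n.testBit 0 := by
      rw [Bool.eq_iff_iff, decide_eq_true_eq, mem_toSet]; rfl
    have h11 : decide (some (1 : ZMod 23) ∈ toSet n) = n.testBit 1 := by
      rw [Bool.eq_iff_iff, decide_eq_true_eq, mem_toSet]; rfl
    simp only [h23, h00, h11, card_toSet]
    rfl
  rw [Finset.sum_product, Fintype.sum_bool, sum_codeFinset, sum_codeFinset]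
  simp only [hcls]
  rw [add_comm, ← List.sum_map_add]
  exact sum_by_sig fun σ => triVal Pa Pb Pc P N false σ + triVal Pa Pb Pc P N true σ

/-- The total for given values of the two linear forms. -/
def linTotal (s t : ℤ) : ℕ :=
  ((List.range 11).map fun k : ℕ =>
    triTotal (fun v => v == s - ((k : ℤ) - 5)) (fun v => v == (k : ℤ) - 5) (fun v => v == t + ((k : ℤ) - 5))
      (fun _ => true) 32).sum

theorem ncard_lin (s t : ℤ) :
    {x : GolayPt → ℤ | x ∈ leechLattice ∧ sqNorm x = 32 ∧ x none + x (some 0) = s ∧
      x (some 1) - x (some 0) = t}.ncard = linTotal s t := by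
  classical
  let F : ℕ → Finset (GolayPt → ℤ) := fun k =>
    ((finite_norm 32 (by norm_num)).subset (s := {x | x ∈ leechLattice ∧ sqNorm x = ((32 : ℕ) : ℤ)})
      (t := {x | x ∈ leechLattice ∧ sqNorm x = ((32 : ℕ) : ℤ) ∧ ∀ i, triP (fun v => v == s - ((k : ℤ) - 5))
        (fun v => v == (k : ℤ) - 5) (fun v => v == t + ((k : ℤ) - 5)) (fun _ => true) i (x i) = true})
      fun x hx => ⟨hx.1, hx.2.1⟩).toFinset
  have hF : ∀ k x, x ∈ F k ↔ x ∈ leechLattice ∧ sqNorm x = 32 ∧ x none = s - ((k : ℤ) - 5) ∧
      x (some 0) = (k : ℤ) - 5 ∧ x (some 1) = t + ((k : ℤ) - 5) := by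
    intro k x
    simp only [F, Set.Finite.mem_toFinset, Set.mem_ofPred_eq, Nat.cast_ofNat]
    refine and_congr_right fun _ => and_congr_right fun _ => ⟨fun h => ?_, fun h i => ?_⟩
    · have h1 := h none; have h2 := h (some 0); have h3 := h (some 1)
      have h10 : (some (1 : ZMod 23) : GolayPt) ≠ some 0 := by decide
      simp [triP, h10] at h1 h2 h3
      exact ⟨h1, h2, h3⟩
    · by_cases hi : i = none
      · subst hi; simp [triP, h.1]
      · by_cases hi' : i = some 0
        · subst hi'; simp [triP, h.2.1]
        · by_cases hi'' : i = some 1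
          · subst hi''; simp [triP, hi', h.2.2]
          · simp [triP, hi, hi', hi'']
  have hset : {x : GolayPt → ℤ | x ∈ leechLattice ∧ sqNorm x = 32 ∧ x none + x (some 0) = s ∧
      x (some 1) - x (some 0) = t} = ↑((Finset.range 11).biUnion F) := by
    ext x
    simp only [Set.mem_ofPred_eq, Finset.coe_biUnion, Set.mem_iUnion, Finset.mem_coe, Finset.mem_range,
      exists_prop, hF]
    constructor
    · rintro ⟨h1, h2, h3, h4⟩
      have h5 : x (some 0) ^ 2 ≤ sqNorm x :=
        Finset.single_le_sum (f := fun i => x i ^ 2) (fun i _ => sq_nonneg (x i)) (Finset.mem_univ _)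
      rw [h2] at h5
      have h6 : x (some 0) ≤ 5 ∧ -5 ≤ x (some 0) := ⟨by nlinarith, by nlinarith⟩
      exact ⟨(x (some 0) + 5).toNat, by omega, h1, h2, by omega, by omega, by omega⟩
    · rintro ⟨k, -, h1, h2, h3, h4, h5⟩
      exact ⟨h1, h2, by omega, by omega⟩
  rw [hset, Set.ncard_coe_finset, Finset.card_biUnion, linTotal, ← List.sum_toFinset _ List.nodup_range,
    List.toFinset_range]
  · refine Finset.sum_congr rfl fun k _ => ?_
    rw [← ncard_tri _ _ _ _ _ (by norm_num : 32 ≤ 64)]
    exact (Set.ncard_eq_toFinset_card _ _).symm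
  · intro a _ b _ hab
    rw [Function.onFun, Finset.disjoint_left]
    intro x h1 h2
    have := ((hF a x).1 h1).2.2.2.1
    have := ((hF b x).1 h2).2.2.2.1
    omega

set_option maxRecDepth 100000 in
theorem linTotal_eq : linTotal (-2) 2 = 20736 ∧ linTotal (-2) (-2) = 2816 := by decide +kernel

end Cfsg.Lib.Leech.Tri
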