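import Mathlib
import Cfsg.Prelude.Def_Sporadic_a
import Cfsg.Agent.Lib.Leech.Tri.Orbit
import Cfsg.Agent.Lib.Leech.Tri.Counts

/-!
Triangles in the lattice of type `222`, `233`, and the transitivity of their stabilisers.
-/

set_option autoImplicit false
set_option linter.unusedSimpArgs false

namespace Cfsg.Lib.Leech.Tri

open Cfsg Cfsg.Lib.Golay Cfsg.Lib.Leech
open scoped Pointwise

local notation "CC" => supports (golayCode : Set (GolayPt → ZMod 2))

/-- The norm. -/
abbrev nm (x : leechLattice) : ℤ := sqNorm (x : GolayPt → ℤ)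
/-- The inner product. -/
abbrev dt (x y : leechLattice) : ℤ := dotInt (x : GolayPt → ℤ) (y : GolayPt → ℤ)

theorem dt_comm (x y : leechLattice) : dt x y = dt y x := by
  simp [dt, dotInt, mul_comm]

theorem dt_sub (x y z : leechLattice) : dt x (y - z) = dt x y - dt x z := by
  simp [dt, dotInt, mul_sub, Finset.sum_sub_distrib]

theorem dt_add (x y z : leechLattice) : dt x (y + z) = dt x y + dt x z := by
  simp [dt, dotInt, mul_add, Finset.sum_add_distrib]

theorem dt_neg (x y : leechLattice) : dt x (-y) = -dt x y := by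
  simp [dt, dotInt]

theorem dt_self (x : leechLattice) : dt x x = nm x := by
  simp [dt, nm, dotInt, sqNorm, sq]

theorem nm_neg (x : leechLattice) : nm (-x) = nm x := by
  simp [nm, sqNorm]

theorem nm_sub (x y : leechLattice) : nm (x - y) = nm x - 2 * dt x y + nm y := by
  rw [← dt_self, dt_sub, dt_comm (x - y) x, dt_comm (x - y) y, dt_sub, dt_sub, dt_self, dt_self, dt_comm y x]
  ring

theorem nm_add (x y : leechLattice) : nm (x + y) = nm x + 2 * dt x y + nm y := norm_sum x y

theorem ncard_val (P : (GolayPt → ℤ) → Prop) :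
    {b : leechLattice | P (b : GolayPt → ℤ)}.ncard = {w : GolayPt → ℤ | w ∈ leechLattice ∧ P w}.ncard := by
  rw [← Set.ncard_image_of_injective _ Subtype.val_injective]
  congr 1
  ext w
  simp only [Set.mem_image, Set.mem_ofPred_eq, Subtype.exists, exists_and_right, exists_eq_right]
  exact ⟨fun ⟨h, p⟩ => ⟨h, p⟩, fun ⟨h, p⟩ => ⟨h, p⟩⟩

theorem ncard_smul (g : Co0) (P Q : leechLattice → Prop) (h : ∀ x, P x ↔ Q (g • x)) :
    {x | P x}.ncard = {x | Q x}.ncard := by
  refine Set.ncard_congr (fun x _ => g • x) (fun x hx => (h x).1 hx) (fun x y _ _ e => smul_left_cancel g e)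
    fun y hy => ⟨g⁻¹ • y, ?_, smul_inv_smul g y⟩
  show P (g⁻¹ • y)
  rw [h, smul_inv_smul]; exact hy

/-- The number of completions of a pair to a triangle. -/
theorem count_b {a c : leechLattice} (ha : nm a = 32) (hc : nm c = 32) (hac : dt a c = -16) :
    {b : leechLattice | nm b = 32 ∧ dt a b = -8 ∧ dt c b = 8}.ncard = 20736 ∧
      {b : leechLattice | nm b = 32 ∧ dt a b = -8 ∧ dt c b = -8}.ncard = 2816 := by
  obtain ⟨g, ga, gc⟩ := to_base_pair ha hc hac
  have key : ∀ d t : ℤ, d = 4 * t → {b : leechLattice | nm b = 32 ∧ dt a b = -8 ∧ dt c b = d}.ncard =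
      linTotal (-2) t := by
    intro d t hdt
    rw [ncard_smul g _ (fun b => nm b = 32 ∧ dt baseVec b = -8 ∧ dt cVec b = d) fun x => by
      simp only [nm, dt]; rw [co0_norm, ← ga, ← gc, co0_dot, co0_dot],
      ← ncard_lin (-2) t, ← ncard_val (fun w => sqNorm w = 32 ∧ w none + w (some 0) = -2 ∧
        w (some 1) - w (some 0) = t)]
    congr 1
    ext b
    simp only [Set.mem_ofPred_eq, nm, dt, dot_base, dot_cVec, ptA, ptB, ptC]
    omega
  exact ⟨(key 8 2 (by norm_num)).trans linTotal_eq.1, (key (-8) (-2) (by norm_num)).trans linTotal_eq.2⟩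

/-- Double counting for third vertices. -/
theorem count_c {a b : leechLattice} (ha : nm a = 32) (hb : nm b = 32) (hab : dt a b = -8) :
    {c : leechLattice | nm c = 32 ∧ dt a c = -16 ∧ dt b c = 8}.ncard = 2025 ∧
      {c : leechLattice | nm c = 32 ∧ dt a c = -16 ∧ dt b c = -8}.ncard = 275 := by
  classical
  set sC := (shell 32 (by omega)).filter fun c => dt a c = -16 with hsC
  set sB := (shell 32 (by omega)).filter fun c => dt a c = -8 with hsB
  have mC : ∀ {c}, c ∈ sC ↔ nm c = 32 ∧ dt a c = -16 := fun {c} => by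
    rw [hsC, Finset.mem_filter, mem_shell]; norm_num
  have mB : ∀ {c}, c ∈ sB ↔ nm c = 32 ∧ dt a c = -8 := fun {c} => by
    rw [hsB, Finset.mem_filter, mem_shell]; norm_num
  have cC : sC.card = 4600 := by
    rw [← Set.ncard_coe_finset, ← (dot_counts a ha).1,
      ← ncard_val (fun w => sqNorm w = 32 ∧ dotInt (a : GolayPt → ℤ) w = -16)]
    congr 1; ext c; rw [Finset.mem_coe, mC]; rfl
  have cB : sB.card = 47104 := by
    rw [← Set.ncard_coe_finset, ← (dot_counts a ha).2.1,
      ← ncard_val (fun w => sqNorm w = 32 ∧ dotInt (a : GolayPt → ℤ) w = -8)]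
    congr 1; ext c; rw [Finset.mem_coe, mB]; rfl
  have main : ∀ (d : ℤ) (T : ℕ), (∀ c, nm c = 32 → dt a c = -16 →
      {x : leechLattice | nm x = 32 ∧ dt a x = -8 ∧ dt c x = d}.ncard = T) →
      {c : leechLattice | nm c = 32 ∧ dt a c = -16 ∧ dt b c = d}.ncard * 47104 = 4600 * T := by
    intro d T hT
    let r : leechLattice → leechLattice → Prop := fun c x => dt x c = d
    have habove : ∀ c ∈ sC, (sB.bipartiteAbove r c).card = T := by
      intro c hc
      rw [mC] at hc
      rw [← hT c hc.1 hc.2, ← Set.ncard_coe_finset]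
      congr 1
      ext x
      simp only [Finset.coe_filter, Finset.bipartiteAbove, mB, r, Set.mem_ofPred_eq, dt_comm x c]
      tauto
    have hconst : ∀ x ∈ sB, (sC.bipartiteBelow r x).card = (sC.bipartiteBelow r b).card := by
      intro x hx
      rw [mB] at hx
      obtain ⟨g, ga, gx⟩ := trans_dot ha hx.1 hb (Or.inr (Or.inl rfl)) hx.2 hab
      refine Finset.card_bij (fun c _ => g • c) (fun c hc => ?_) (fun u _ v _ e => smul_left_cancel g e)
        fun c hc => ⟨g⁻¹ • c, ?_, smul_inv_smul g c⟩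
      · simp only [Finset.mem_bipartiteBelow, mC, r, nm, dt] at hc ⊢
        rw [co0_norm, ← gx, co0_dot]
        refine ⟨⟨hc.1.1, ?_⟩, hc.2⟩
        rw [← hc.1.2, ← co0_dot g a c, ga]
      · simp only [Finset.mem_bipartiteBelow, mC, r, nm, dt] at hc ⊢
        rw [co0_norm, ← co0_dot g a, ← co0_dot g x, ga, gx, smul_inv_smul]
        exact hc
    have hsum := Finset.sum_card_bipartiteAbove_eq_sum_card_bipartiteBelow (s := sC) (t := sB) r
    rw [Finset.sum_congr rfl habove, Finset.sum_congr rfl hconst, Finset.sum_const, Finset.sum_const,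
      smul_eq_mul, smul_eq_mul, cC, cB, ← Set.ncard_coe_finset, mul_comm 47104] at hsum
    rw [hsum]
    congr 2
    ext c
    simp only [Finset.coe_filter, Finset.bipartiteBelow, mC, r, Set.mem_ofPred_eq]
    tauto
  have h1 := main 8 20736 fun c hc hac => (count_b ha hc hac).1
  have h2 := main (-8) 2816 fun c hc hac => (count_b ha hc hac).2
  omega

theorem count_opposite {v : leechLattice} (hv : nm v = 48) :
    {x : leechLattice | nm x = 32 ∧ dt v x = -16}.ncard = 11178 := by
  classical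
  set s2 := shell 32 (by omega) with hs2
  set s3 := shell 48 (by omega) with hs3
  have m2 : ∀ {t}, t ∈ s2 ↔ nm t = 32 := fun {t} => by rw [hs2, mem_shell]; norm_num
  have m3 : ∀ {t}, t ∈ s3 ↔ nm t = 48 := fun {t} => by rw [hs3, mem_shell]; norm_num
  let r : leechLattice → leechLattice → Prop := fun a w => dt w a = -16
  have habove : ∀ a ∈ s2, (s3.bipartiteAbove r a).card = 953856 := by
    intro a ha
    rw [m2] at ha
    have h := ncard_dot a ha 48 (by omega) (-4)
    rw [sumTotal48] at h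
    rw [← h, ← Set.ncard_coe_finset,
      ← ncard_val (fun w => sqNorm w = ((48 : ℕ) : ℤ) ∧ dotInt (a : GolayPt → ℤ) w = 4 * (-4))]
    congr 1
    ext w
    simp only [Finset.coe_filter, Finset.bipartiteAbove, m3, r, Set.mem_ofPred_eq, dt_comm w a]
    norm_num [nm, dt]
  have hconst : ∀ w ∈ s3, (s2.bipartiteBelow r w).card = (s2.bipartiteBelow r v).card := by
    intro w hw
    rw [m3] at hw
    obtain ⟨g, hg⟩ := trans48 hw hv
    refine Finset.card_bij (fun a _ => g • a) (fun a ha => ?_) (fun a _ b _ e => smul_left_cancel g e)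
      fun b hb => ⟨g⁻¹ • b, ?_, smul_inv_smul g b⟩
    · simp only [Finset.mem_bipartiteBelow, m2, r, nm, dt] at ha ⊢
      rw [← hg, co0_norm, co0_dot]; exact ha
    · simp only [Finset.mem_bipartiteBelow, m2, r, nm, dt] at hb ⊢
      rw [← co0_dot g w, hg, co0_norm, smul_inv_smul]; exact hb
  have hsum := Finset.sum_card_bipartiteAbove_eq_sum_card_bipartiteBelow (s := s2) (t := s3) r
  rw [Finset.sum_congr rfl habove, Finset.sum_congr rfl hconst, Finset.sum_const, Finset.sum_const,
    smul_eq_mul, smul_eq_mul] at hsum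
  have c2 : s2.card = 196560 := by rw [hs2, card_shell]; exact_mod_cast ncard32
  have c3 : s3.card = 16773120 := by rw [hs3, card_shell]; exact_mod_cast ncard48
  rw [c2, c3] at hsum
  have : (s2.bipartiteBelow r v).card = 11178 := by omega
  rw [← this, ← Set.ncard_coe_finset]
  congr 1
  ext a
  simp only [Finset.coe_filter, Finset.bipartiteBelow, m2, r, Set.mem_ofPred_eq]

theorem count_near {v : leechLattice} (hv : nm v = 48) :
    {u : leechLattice | nm u = 32 ∧ dt v u = 16}.ncard = 11178 := by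
  rw [← count_opposite hv]
  refine Set.ncard_congr (fun u _ => -u) ?_ (fun a b _ _ e => neg_injective e) fun x hx => ⟨-x, ?_, neg_neg x⟩
  · rintro u ⟨h1, h2⟩
    exact ⟨by rw [nm_neg, h1], by rw [dt_neg, h2]⟩
  · exact ⟨by rw [nm_neg, hx.1], by rw [dt_neg, hx.2]; norm_num⟩

theorem dot_plus_minus (k j : GolayPt) (v : GolayPt → ℤ) :
    dotInt ((plusVec k j : leechLattice) : GolayPt → ℤ) v = 4 * v k + 4 * v j ∧
    dotInt ((minusVec k j : leechLattice) : GolayPt → ℤ) v = 4 * v k - 4 * v j := by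
  constructor
  · simp [dotInt, plusVec, add_mul, Finset.sum_add_distrib, ite_mul, zero_mul]
  · simp [dotInt, minusVec, sub_mul, Finset.sum_sub_distrib, ite_mul, zero_mul]

/-- A split from two coordinates. -/
theorem exists_split_of_four {v : leechLattice} {k j : GolayPt} (hk : k = ptA ∨ k = ptB) (hjA : j ≠ ptA)
    (hjB : j ≠ ptB) (h : (v : GolayPt → ℤ) k + |(v : GolayPt → ℤ) j| = 6) :
    ∃ a : leechLattice, nm a = 32 ∧ dt baseVec a = 16 ∧ dt a v = 24 := by
  have hkj : k ≠ j := by rcases hk with rfl | rfl <;> [exact hjA.symm; exact hjB.symm]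
  have hAB : (ptA : GolayPt) ≠ ptB := by decide
  by_cases hs : 0 ≤ (v : GolayPt → ℤ) j
  · rw [abs_of_nonneg hs] at h
    refine ⟨plusVec k j, plusVec_norm k j hkj, ?_, by rw [dt, (dot_plus_minus k j _).1]; omega⟩
    rw [dt, dot_base]
    rcases hk with rfl | rfl <;> simp [plusVec, hjA.symm, hjB.symm, hAB, hAB.symm]
  · rw [abs_of_neg (lt_of_not_ge hs)] at h
    refine ⟨minusVec k j, minusVec_norm k j hkj, ?_, by rw [dt, (dot_plus_minus k j _).2]; omega⟩
    rw [dt, dot_base]
    rcases hk with rfl | rfl <;> simp [minusVec, hjA.symm, hjB.symm, hAB, hAB.symm]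

/-- A split in the dodecad shape. -/
theorem exists_split_dodecad {v : leechLattice} {D : Finset GolayPt} (hD : D ∈ dodecads)
    (sv : AbsShape (v : GolayPt → ℤ) D 2 0) (hA : (v : GolayPt → ℤ) ptA = 2) (hB : (v : GolayPt → ℤ) ptB = 2) :
    ∃ a : leechLattice, nm a = 32 ∧ dt baseVec a = 16 ∧ dt a v = 24 := by
  classical
  have mA : ptA ∈ D := by have := sv ptA; rw [hA] at this; by_contra h; simp [h] at this
  have mB : ptB ∈ D := by have := sv ptB; rw [hB] at this; by_contra h; simp [h] at this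
  have hpair : ({ptA, ptB} : Finset GolayPt) ⊆ D := by
    intro i hi; simp only [Finset.mem_insert, Finset.mem_singleton] at hi; rcases hi with rfl | rfl <;> assumption
  have h2 : ({ptA, ptB} : Finset GolayPt).card = 2 := Finset.card_pair (by decide)
  obtain ⟨s, hs1, hs2, hs⟩ := Finset.exists_subsuperset_card_eq hpair (n := 5) (by omega)
    (by rw [card_dodecad hD]; norm_num)
  obtain ⟨O, hO, hsO⟩ := exists_octad hs
  have h5 : 5 ≤ (O ∩ D).card := hs ▸ Finset.card_le_card (Finset.subset_inter hsO hs2)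
  have h6 : (O ∩ D).card = 6 := by
    have h1 := card_symmDiff_add O D
    rw [card_octad hO, card_dodecad hD] at h1
    have h3 := weight_cases (symmDiff_mem_supports hO.1 hD.1)
    have h4 : (O ∩ D).card ≤ O.card := Finset.card_le_card Finset.inter_subset_left
    rw [card_octad hO] at h4
    omega
  have hPc : (O \ D).card = 2 := by
    have := Finset.card_sdiff_add_card_inter O D
    rw [card_octad hO, h6] at this
    omega
  obtain ⟨p, q, hpq, hP⟩ := Finset.card_eq_two.1 hPc
  set S := ∑ i ∈ O ∩ D, (v : GolayPt → ℤ) i with hS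
  set e : ℤ := if (S + 2) % 8 = 2 then -2 else 2 with he
  let f : GolayPt → ℤ := fun i => if i ∈ O ∩ D then (v : GolayPt → ℤ) i else if i = p then 2 else if i = q then e else 0
  have hpO : p ∈ O ∧ p ∉ D := Finset.mem_sdiff.1 (by rw [hP]; simp)
  have hqO : q ∈ O ∧ q ∉ D := Finset.mem_sdiff.1 (by rw [hP]; simp)
  have hval : ∀ i, (i ∈ O → f i = 2 ∨ f i = -2) ∧ (i ∉ O → f i = 0) := by
    intro i
    refine ⟨fun hi => ?_, fun hi => ?_⟩
    · by_cases hd : i ∈ D
      · have := sv i
        rw [if_pos hd] at this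
        simp only [f, if_pos (Finset.mem_inter.2 ⟨hi, hd⟩)]
        exact (abs_eq (by norm_num)).1 this
      · have : i ∈ O \ D := Finset.mem_sdiff.2 ⟨hi, hd⟩
        rw [hP, Finset.mem_insert, Finset.mem_singleton] at this
        rcases this with rfl | rfl
        · simp [f, hd]
        · simp only [f, Finset.mem_inter, hd, and_false, if_false, if_neg hpq.symm, if_true, he]
          split <;> simp
    · have : i ≠ p ∧ i ≠ q := ⟨fun h => hi (h ▸ hpO.1), fun h => hi (h ▸ hqO.1)⟩
      simp [f, hi, this.1, this.2]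
  have hsumO : ∀ g : GolayPt → ℤ, (∀ i ∉ O, g i = 0) → ∑ i, g i = (∑ i ∈ O ∩ D, g i) + (g p + g q) := by
    intro g hg
    rw [← Finset.sum_subset (Finset.subset_univ O) fun i _ hi => hg i hi,
      ← Finset.sum_inter_add_sum_sdiff O D, hP, Finset.sum_pair hpq]
  have fD : ∀ i ∈ O ∩ D, f i = (v : GolayPt → ℤ) i := fun i hi => by simp only [f, if_pos hi]
  have fp : f p = 2 := by simp [f, hpO.2]
  have fq : f q = e := by simp [f, hqO.2, hpq.symm]
  have hmem : f ∈ leechLattice := by
    refine mem_lattice_iff.2 ⟨fun i => ?_, fun c hc => ?_, ?_⟩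
    · have h1 := hval i; have h2 := hval none
      have e1 : f i % 2 = 0 := by
        by_cases hi : i ∈ O
        · rcases h1.1 hi with h | h <;> rw [h] <;> norm_num
        · rw [h1.2 hi]; norm_num
      have e2 : f none % 2 = 0 := by
        by_cases hi : (none : GolayPt) ∈ O
        · rcases h2.1 hi with h | h <;> rw [h] <;> norm_num
        · rw [h2.2 hi]; norm_num
      rw [e1, e2]
    · have e1 : ∀ i, f i % 4 = (2 * (if i ∈ O then 1 else 0) : ℤ) % 4 := fun i => by
        by_cases hi : i ∈ O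
        · rcases (hval i).1 hi with h | h <;> rw [h, if_pos hi] <;> norm_num
        · rw [(hval i).2 hi, if_neg hi]; norm_num
      rw [Finset.sum_int_mod, Finset.sum_congr rfl fun i _ => e1 i, ← Finset.sum_int_mod, ← Finset.mul_sum,
        Finset.sum_boole]
      have := inter_even hc hO.1
      rw [show (c.filter fun i => i ∈ O) = c ∩ O from Finset.filter_mem_eq_inter]
      omega
    · have hev : f none % 2 = 0 := by
        by_cases hi : (none : GolayPt) ∈ O
        · rcases (hval none).1 hi with h | h <;> rw [h] <;> norm_num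
        · rw [(hval none).2 hi]; norm_num
      rw [hsumO f fun i hi => (hval i).2 hi, Finset.sum_congr rfl fD, fp, fq, ← hS, he]
      have hS4 : S % 4 = 0 := by
        rw [hS, Finset.sum_int_mod, Finset.sum_congr rfl fun i hi => (show (v : GolayPt → ℤ) i % 4 = 2 by
          have := sv i
          rw [if_pos (Finset.mem_inter.1 hi).2] at this
          rcases (abs_eq (by norm_num)).1 this with h | h <;> rw [h] <;> norm_num), Finset.sum_const, h6]
        norm_num
      split <;> omega
  refine ⟨⟨f, hmem⟩, ?_, ?_, ?_⟩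
  · have e1 : ∀ i, f i ^ 2 = 4 * (if i ∈ O then 1 else 0) := fun i => by
      by_cases hi : i ∈ O
      · rcases (hval i).1 hi with h | h <;> rw [h, if_pos hi] <;> norm_num
      · rw [(hval i).2 hi, if_neg hi]; norm_num
    show ∑ i, f i ^ 2 = 32
    rw [Finset.sum_congr rfl fun i _ => e1 i, ← Finset.mul_sum, Finset.sum_boole,
      show (Finset.univ.filter fun i => i ∈ O) = O from by ext; simp, card_octad hO]
    norm_num
  · rw [dt, dot_base]
    show 4 * f ptA + 4 * f ptB = 16
    rw [fD ptA (Finset.mem_inter.2 ⟨hsO (hs1 (by simp)), mA⟩),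
      fD ptB (Finset.mem_inter.2 ⟨hsO (hs1 (by simp)), mB⟩), hA, hB]
    norm_num
  · show ∑ i, f i * (v : GolayPt → ℤ) i = 24
    have hz : ∀ i, i ∉ D → (v : GolayPt → ℤ) i = 0 := fun i hi => abs_eq_zero.1 ((sv i).trans (if_neg hi))
    rw [hsumO (fun i => f i * (v : GolayPt → ℤ) i) fun i hi => by simp [(hval i).2 hi], hz p hpO.2, hz q hqO.2,
      Finset.sum_congr rfl fun i hi => (show f i * (v : GolayPt → ℤ) i = 4 by
        rw [fD i hi]
        have := sv i
        rw [if_pos (Finset.mem_inter.1 hi).2] at this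
        rcases (abs_eq (by norm_num)).1 this with h | h <;> rw [h] <;> norm_num), Finset.sum_const, h6]
    norm_num

/-- Every pair of type `23` with inner product `16` splits. -/
theorem exists_split {v u : leechLattice} (hv : nm v = 48) (hu : nm u = 32) (hvu : dt v u = 16) :
    ∃ x : leechLattice, nm x = 32 ∧ dt v x = 24 ∧ dt u x = 0 := by
  classical
  obtain ⟨g, hg⟩ := exists_to_base32 hu
  suffices ∃ a : leechLattice, nm a = 32 ∧ dt baseVec a = 16 ∧ dt a (g • v) = 24 by
    obtain ⟨a, ha, hua, hva⟩ := this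
    have e1 : nm (g⁻¹ • a) = 32 := by simp only [nm]; rw [co0_norm]; exact ha
    have e2 : dt u (g⁻¹ • a) = 16 := by simp only [dt]; rw [← co0_dot g, hg, smul_inv_smul]; exact hua
    have e3 : dt v (g⁻¹ • a) = 24 := by
      simp only [dt]; rw [← co0_dot g, smul_inv_smul]; exact (dt_comm _ _).trans hva
    exact ⟨v - g⁻¹ • a, by rw [nm_sub, hv, e3, e1]; norm_num, by rw [dt_sub, dt_self, hv, e3]; norm_num,
      by rw [dt_sub, dt_comm u v, hvu, e2]; norm_num⟩
  have hn : sqNorm ((g • v : leechLattice) : GolayPt → ℤ) = 48 := by rw [co0_norm]; exact hv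
  have hs : 4 * ((g • v : leechLattice) : GolayPt → ℤ) ptA + 4 * ((g • v : leechLattice) : GolayPt → ℤ) ptB = 16 := by
    rw [← dot_base, ← hg, co0_dot]; exact (dt_comm _ _).trans hvu
  generalize g • v = w at hn hs ⊢
  have other : ∀ {S : Finset GolayPt} {A B : GolayPt}, 3 ≤ S.card → ∃ j ∈ S, j ≠ A ∧ j ≠ B := by
    intro S A B hS
    have hne : ((S.erase A).erase B).Nonempty := by
      rw [← Finset.card_pos]
      have := Finset.pred_card_le_card_erase (a := B) (s := S.erase A)
      have := Finset.pred_card_le_card_erase (a := A) (s := S)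
      omega
    obtain ⟨j, hj⟩ := hne
    simp only [Finset.mem_erase] at hj
    exact ⟨j, hj.2.2, hj.2.1, hj.1⟩
  rcases shape48 w.2 hn with ⟨D, hD, sv⟩ | ⟨O, hO, q, hq, sv⟩ | ⟨T, hT, sv⟩ | ⟨p, sv⟩
  · have v2 : ∀ i, (w : GolayPt → ℤ) i ≤ 2 := fun i => le_trans (le_abs_self _) (by rw [sv i]; split <;> norm_num)
    have := v2 ptA; have := v2 ptB
    exact exists_split_dodecad hD sv (by omega) (by omega)
  · have va := sv ptA
    have vb := sv ptB
    obtain ⟨j, hj, hjA, hjB⟩ := other (S := O) (A := ptA) (B := ptB) (by rw [card_octad hO]; norm_num)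
    have vj : |(w : GolayPt → ℤ) j| = 2 := (sv j).trans (if_pos hj)
    have vq : |(w : GolayPt → ℤ) q| = 4 := (sv q).trans (by rw [if_neg hq, if_pos rfl])
    by_cases qa : q = ptA
    · subst qa
      rcases (abs_eq (by norm_num)).1 vq with h | h
      · exact exists_split_of_four (Or.inl rfl) hjA hjB (by rw [vj, h]; norm_num)
      · exfalso; rcases abs_cases ((w : GolayPt → ℤ) ptB) with ⟨e, -⟩ | ⟨e, -⟩ <;> rw [e] at vb <;>
          split at vb <;> (try split at vb) <;> omega
    · by_cases qb : q = ptB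
      · subst qb
        rcases (abs_eq (by norm_num)).1 vq with h | h
        · exact exists_split_of_four (Or.inr rfl) hjA hjB (by rw [vj, h]; norm_num)
        · exfalso; rcases abs_cases ((w : GolayPt → ℤ) ptA) with ⟨e, -⟩ | ⟨e, -⟩ <;> rw [e] at va <;>
            split at va <;> (try split at va) <;> omega
      · refine exists_split_of_four (Or.inl rfl) qa qb ?_
        rw [if_neg (Ne.symm qa)] at va
        rw [if_neg (Ne.symm qb)] at vb
        rcases abs_cases ((w : GolayPt → ℤ) ptA) with ⟨e, -⟩ | ⟨e, -⟩ <;> rw [e] at va <;>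
          rcases abs_cases ((w : GolayPt → ℤ) ptB) with ⟨e', -⟩ | ⟨e', -⟩ <;> rw [e'] at vb <;>
          rw [vq] <;> split at va <;> split at vb <;> omega
  · have v3 : ∀ i, (w : GolayPt → ℤ) i ≤ 3 := fun i => le_trans (le_abs_self _) (by rw [sv i]; split <;> norm_num)
    obtain ⟨j, hj, hjA, hjB⟩ := other (S := T) (A := ptA) (B := ptB) (by rw [hT])
    have vj : |(w : GolayPt → ℤ) j| = 3 := (sv j).trans (if_pos hj)
    have := v3 ptA; have := v3 ptB
    have va := sv ptA
    have hcase : (w : GolayPt → ℤ) ptA = 3 ∨ (w : GolayPt → ℤ) ptB = 3 := by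
      rcases abs_cases ((w : GolayPt → ℤ) ptA) with ⟨e, -⟩ | ⟨e, -⟩ <;> rw [e] at va <;> split at va <;> omega
    rcases hcase with h | h
    · exact exists_split_of_four (Or.inl rfl) hjA hjB (by rw [vj, h]; norm_num)
    · exact exists_split_of_four (Or.inr rfl) hjA hjB (by rw [vj, h]; norm_num)
  · obtain ⟨j, hj, hjA, hjB⟩ := other (S := ({p} : Finset GolayPt)ᶜ) (A := ptA) (B := ptB)
      (by rw [Finset.card_compl, Finset.card_singleton, card_golayPt]; norm_num)
    have vj : |(w : GolayPt → ℤ) j| = 1 := (sv j).trans (if_neg (Finset.mem_compl.1 hj))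
    have va := sv ptA
    have vb := sv ptB
    have hcase : (w : GolayPt → ℤ) ptA = 5 ∨ (w : GolayPt → ℤ) ptB = 5 := by
      rcases abs_cases ((w : GolayPt → ℤ) ptA) with ⟨e, -⟩ | ⟨e, -⟩ <;> rw [e] at va <;>
        rcases abs_cases ((w : GolayPt → ℤ) ptB) with ⟨e', -⟩ | ⟨e', -⟩ <;> rw [e'] at vb <;>
        split at va <;> split at vb <;> omega
    rcases hcase with h | h
    · exact exists_split_of_four (Or.inl rfl) hjA hjB (by rw [vj, h]; norm_num)
    · exact exists_split_of_four (Or.inr rfl) hjA hjB (by rw [vj, h]; norm_num)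

/-- Transitivity on the splits of the pairs of type `23`. -/
theorem trans_split {v u x v' u' x' : leechLattice} (hv : nm v = 48) (hu : nm u = 32) (hvu : dt v u = 16)
    (hx : nm x = 32 ∧ dt v x = 24 ∧ dt u x = 0) (hv' : nm v' = 48) (hu' : nm u' = 32) (hvu' : dt v' u' = 16)
    (hx' : nm x' = 32 ∧ dt v' x' = 24 ∧ dt u' x' = 0) :
    ∃ g : Co0, g • v = v' ∧ g • u = u' ∧ g • x = x' := by
  have key : ∀ {v u x : leechLattice}, nm v = 48 → nm u = 32 → dt v u = 16 →
      nm x = 32 ∧ dt v x = 24 ∧ dt u x = 0 → nm (v - x) = 32 ∧ nm (u - (v - x)) = 32 ∧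
      dt (v - x) (u - (v - x)) = -16 ∧ dt (v - x) x = -8 ∧ dt (u - (v - x)) x = 8 := by
    intro v u x hv hu hvu ⟨h1, h2, h3⟩
    have e1 : nm (v - x) = 32 := by rw [nm_sub, hv, h1, h2]; norm_num
    have e2 : dt (v - x) u = 16 := by rw [dt_comm, dt_sub, dt_comm u v, hvu, h3]; norm_num
    have e3 : dt (v - x) x = -8 := by rw [dt_comm, dt_sub, dt_comm x v, h2, dt_self, h1]; norm_num
    refine ⟨e1, by rw [nm_sub, hu, e1, dt_comm u, e2]; norm_num, by rw [dt_sub, e2, dt_self, e1]; norm_num, e3, ?_⟩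
    rw [dt_comm, dt_sub, dt_comm x u, h3, dt_comm x, e3]; norm_num
  obtain ⟨a1, a2, a3, a4, a5⟩ := key hv hu hvu hx
  obtain ⟨b1, b2, b3, b4, b5⟩ := key hv' hu' hvu' hx'
  obtain ⟨g, ga, gc, gx⟩ := trans_tri a1 a2 hx.1 b1 b2 hx'.1 (Or.inl rfl) a3 b3 a4 b4 a5 b5
  refine ⟨g, ?_, ?_, gx⟩
  · rw [← sub_add_cancel v x, co0_add, ga, gx, sub_add_cancel]
  · rw [← add_sub_cancel (v - x) u, co0_add, ga, gc, add_sub_cancel]

/-- Transitivity on pairs of type `23` with inner product `16`. -/
theorem trans_vu {v u v' u' : leechLattice} (hv : nm v = 48) (hu : nm u = 32) (hvu : dt v u = 16)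
    (hv' : nm v' = 48) (hu' : nm u' = 32) (hvu' : dt v' u' = 16) : ∃ g : Co0, g • v = v' ∧ g • u = u' := by
  obtain ⟨x, hx⟩ := exists_split hv hu hvu
  obtain ⟨x', hx'⟩ := exists_split hv' hu' hvu'
  obtain ⟨g, h1, h2, -⟩ := trans_split hv hu hvu hx hv' hu' hvu' hx'
  exact ⟨g, h1, h2⟩

theorem count_split {v u : leechLattice} (hv : nm v = 48) (hu : nm u = 32) (hvu : dt v u = 16) :
    {x : leechLattice | nm x = 32 ∧ dt v x = 24 ∧ dt u x = 0}.ncard = 100 := by
  classical
  set sU := (shell 32 (by omega)).filter fun t => dt v t = 16 with hsU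
  set sX := (shell 32 (by omega)).filter fun t => dt v t = 24 with hsX
  have mU : ∀ {t}, t ∈ sU ↔ nm t = 32 ∧ dt v t = 16 := fun {t} => by
    rw [hsU, Finset.mem_filter, mem_shell]; norm_num
  have mX : ∀ {t}, t ∈ sX ↔ nm t = 32 ∧ dt v t = 24 := fun {t} => by
    rw [hsX, Finset.mem_filter, mem_shell]; norm_num
  have cU : sU.card = 11178 := by
    rw [← Set.ncard_coe_finset, ← count_near hv]
    congr 1; ext t; rw [Finset.mem_coe, mU]; rfl
  have cX : sX.card = 552 := by
    rw [← Set.ncard_coe_finset, ← count48 v hv]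
    congr 1; ext t; rw [Finset.mem_coe, mX]
    simp only [Set.mem_ofPred_eq]
    have h := nm_sub v t
    constructor
    · rintro ⟨h1, h2⟩; exact ⟨h1, by show nm (v - t) = 32; omega⟩
    · rintro ⟨h1, h2⟩
      have h2' : nm (v - t) = 32 := h2
      have h1' : nm t = 32 := h1
      exact ⟨h1', by omega⟩
  let r : leechLattice → leechLattice → Prop := fun t x => dt t x = 0
  have habove : ∀ t ∈ sU, (sX.bipartiteAbove r t).card = (sX.bipartiteAbove r u).card := by
    intro t ht
    rw [mU] at ht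
    obtain ⟨g, gv, gt⟩ := trans_vu hv ht.1 ht.2 hv hu hvu
    refine Finset.card_bij (fun a _ => g • a) (fun a ha => ?_) (fun a _ b _ e => smul_left_cancel g e)
      fun b hb => ⟨g⁻¹ • b, ?_, smul_inv_smul g b⟩
    · simp only [Finset.mem_bipartiteAbove, mX, r, nm, dt] at ha ⊢
      rw [co0_norm, ← gt, co0_dot]
      refine ⟨⟨ha.1.1, ?_⟩, ha.2⟩
      rw [← ha.1.2, ← co0_dot g v a, gv]
    · simp only [Finset.mem_bipartiteAbove, mX, r, nm, dt] at hb ⊢
      rw [co0_norm, ← co0_dot g v, ← co0_dot g t, gv, gt, smul_inv_smul]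
      exact hb
  have hbelow : ∀ x ∈ sX, (sU.bipartiteBelow r x).card = 2025 := by
    intro x hx
    rw [mX] at hx
    have e1 : nm (v - x) = 32 := by rw [nm_sub, hv, hx.1, hx.2]; norm_num
    have e3 : dt (v - x) x = -8 := by rw [dt_comm, dt_sub, dt_comm x v, hx.2, dt_self, hx.1]; norm_num
    rw [← (count_c e1 hx.1 e3).1, ← Set.ncard_coe_finset]
    refine Set.ncard_congr (fun t _ => t - (v - x)) ?_ (fun p q _ _ e => sub_left_injective e) ?_
    · intro t ht
      simp only [Finset.coe_filter, Finset.bipartiteBelow, mU, r, Set.mem_ofPred_eq] at ht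
      have e2 : dt (v - x) t = 16 := by
        rw [dt_comm, dt_sub, dt_comm t v, ht.1.2, ht.2]; norm_num
      refine ⟨by rw [nm_sub, ht.1.1, e1, dt_comm t, e2]; norm_num, by rw [dt_sub, e2, dt_self, e1]; norm_num, ?_⟩
      rw [dt_sub, dt_comm x t, ht.2, dt_comm x, e3]; norm_num
    · rintro c ⟨h1, h2, h3⟩
      refine ⟨c + (v - x), ?_, add_sub_cancel_right _ _⟩
      simp only [Finset.coe_filter, Finset.bipartiteBelow, mU, r, Set.mem_ofPred_eq]
      have e4 : dt x (c + (v - x)) = 0 := by rw [dt_add, h3, dt_comm x (v - x), e3]; norm_num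
      have e5 : dt (v - x) (c + (v - x)) = 16 := by rw [dt_add, h2, dt_self, e1]; norm_num
      have e6 : dt v (c + (v - x)) = dt (v - x) (c + (v - x)) + dt x (c + (v - x)) := by
        rw [dt_comm v, dt_comm (v - x) (c + (v - x)), dt_comm x (c + (v - x)), ← dt_add, sub_add_cancel]
      refine ⟨⟨by rw [nm_add, h1, e1, dt_comm c, h2]; norm_num, by omega⟩, by rw [dt_comm]; exact e4⟩
  have hsum := Finset.sum_card_bipartiteAbove_eq_sum_card_bipartiteBelow (s := sU) (t := sX) r
  rw [Finset.sum_congr rfl habove, Finset.sum_congr rfl hbelow, Finset.sum_const, Finset.sum_const,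
    smul_eq_mul, smul_eq_mul, cU, cX] at hsum
  have : (sX.bipartiteAbove r u).card = 100 := by omega
  rw [← this, ← Set.ncard_coe_finset]
  congr 1
  ext x
  simp only [Finset.coe_filter, Finset.bipartiteAbove, mX, r, Set.mem_ofPred_eq]
  tauto

/-- The vector of twos on a chosen dodecad. -/
theorem dod_check :
    CheckVec (ofList [2, 0, 2, 2, 2, 0, 0, 0, 0, 0, 0, 0, 0, 2, 2, 2, 0, 2, 2, 0, 0, 2, 2, 2]) ∧
      sqNorm (ofList [2, 0, 2, 2, 2, 0, 0, 0, 0, 0, 0, 0, 0, 2, 2, 2, 0, 2, 2, 0, 0, 2, 2, 2]) = 48 ∧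
      inCode 1646562 = true ∧ (toSet 1646562).card = 12 ∧
      (∀ i : GolayPt, i ∈ toSet 1646562 ↔
        ofList [2, 0, 2, 2, 2, 0, 0, 0, 0, 0, 0, 0, 0, 2, 2, 2, 0, 2, 2, 0, 0, 2, 2, 2] i = 0) ∧
      (∀ i : GolayPt, |ofList [2, 0, 2, 2, 2, 0, 0, 0, 0, 0, 0, 0, 0, 2, 2, 2, 0, 2, 2, 0, 0, 2, 2, 2] i| ≤ 2) ∧
      ofList [2, 0, 2, 2, 2, 0, 0, 0, 0, 0, 0, 0, 0, 2, 2, 2, 0, 2, 2, 0, 0, 2, 2, 2] ptA = 2 ∧
      ofList [2, 0, 2, 2, 2, 0, 0, 0, 0, 0, 0, 0, 0, 2, 2, 2, 0, 2, 2, 0, 0, 2, 2, 2] ptB = 2 := by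
  decide +kernel

/-- An involution fixing a pair of type `23` and no split of it. -/
theorem exists_free_involution {v u : leechLattice} (hv : nm v = 48) (hu : nm u = 32) (hvu : dt v u = 16) :
    ∃ g : Co0, g • v = v ∧ g • u = u ∧ orderOf g = 2 ∧
      ∀ x : leechLattice, nm x = 32 → dt v x = 24 → dt u x = 0 → g • x ≠ x := by
  obtain ⟨hc, hn, hcode, hcard, hzero, hle, hA, hB⟩ := dod_check
  generalize hL : ofList [2, 0, 2, 2, 2, 0, 0, 0, 0, 0, 0, 0, 0, 2, 2, 2, 0, 2, 2, 0, 0, 2, 2, 2] = f at *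
  let v0 : leechLattice := ⟨f, mem_of_check hc⟩
  set C := toSet 1646562 with hCdef
  have hC : C ∈ CC := toSet_mem_CC hcode
  set h := flipElt C hC with hh
  have hfix : ∀ t : leechLattice, (∀ i ∈ C, (t : GolayPt → ℤ) i = 0) → h • t = t := fun t ht =>
    Subtype.ext (funext fun i => by
      rw [hh, flipElt_apply]
      split
      · rw [ht i ‹_›]; rfl
      · rfl)
  have hAC : ptA ∉ C ∧ ptB ∉ C := ⟨fun e => by have := (hzero _).1 e; omega, fun e => by have := (hzero _).1 e; omega⟩
  have fv : h • v0 = v0 := hfix v0 fun i hi => (hzero i).1 hi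
  have fb : h • baseVec = baseVec := hfix baseVec fun i hi => by
    have h1 : i ≠ ptA := fun e => hAC.1 (e ▸ hi)
    have h2 : i ≠ ptB := fun e => hAC.2 (e ▸ hi)
    simp [baseVec, plusVec, h1, h2]
  have hsq : h * h = 1 := co0_ext fun t => by
    rw [mul_smul, one_smul]
    funext i
    rw [hh, flipElt_apply, flipElt_apply]
    split <;> simp
  have hfree : ∀ x : leechLattice, nm x = 32 → dt v0 x = 24 → dt baseVec x = 0 → h • x ≠ x := by
    intro x hx h24 h0 e
    have hz : ∀ i ∈ C, (x : GolayPt → ℤ) i = 0 := fun i hi => by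
      have := congrArg (fun t : leechLattice => (t : GolayPt → ℤ) i) e
      simp only [hh, flipElt_apply, if_pos hi] at this
      omega
    rcases shape32 x.2 hx with ⟨O, hO, sx⟩ | ⟨A, hA', sx⟩ | ⟨p, sx⟩
    · have hdis : (O ∩ C).card = 0 := by
        rw [Finset.card_eq_zero, Finset.eq_empty_iff_forall_notMem]
        intro i hi
        have := sx i
        rw [hz i (Finset.mem_inter.1 hi).2, if_pos (Finset.mem_inter.1 hi).1] at this
        norm_num at this
      have h1 := card_symmDiff_add O C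
      rw [card_octad hO, hcard, hdis] at h1
      have h3 := weight_cases (symmDiff_mem_supports hO.1 hC)
      omega
    · have hb : ∀ i, f i * (x : GolayPt → ℤ) i ≤ if i ∈ A then 8 else 0 := fun i => by
        refine le_trans (le_abs_self _) ?_
        rw [abs_mul, sx i]
        split
        · have := hle i; omega
        · norm_num
      have : dt v0 x ≤ 16 := by
        refine le_trans (Finset.sum_le_sum fun i _ => hb i) ?_
        rw [← Finset.sum_filter, show (Finset.univ.filter fun i => i ∈ A) = A from by ext; simp, Finset.sum_const,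
          hA']
        norm_num
      omega
    · obtain ⟨i, hi⟩ : C.Nonempty := Finset.card_pos.1 (by omega)
      have := sx i
      rw [hz i hi] at this
      split at this <;> simp at this
  have hne : h ≠ 1 := fun e => by
    obtain ⟨i, hi⟩ : C.Nonempty := Finset.card_pos.1 (by omega)
    have h1 : h • eight i = eight i := by rw [e, one_smul]
    have := congrArg (fun t : leechLattice => (t : GolayPt → ℤ) i) h1
    simp only [hh, flipElt_apply, eight_apply, if_pos hi, if_true] at this
    omega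
  obtain ⟨g, gv, gu⟩ := trans_vu (v := v0) (u := baseVec) hn baseVec_norm
    (by rw [dt_comm]; show dotInt _ f = 16; rw [dot_base, hA, hB]; norm_num) hv hu hvu
  refine ⟨g * h * g⁻¹, ?_, ?_, ?_, ?_⟩
  · rw [← gv, mul_smul, mul_smul, inv_smul_smul, fv]
  · rw [← gu, mul_smul, mul_smul, inv_smul_smul, fb]
  · rw [orderOf_eq_prime_iff]
    refine ⟨?_, fun e => hne ?_⟩
    · rw [sq, show g * h * g⁻¹ * (g * h * g⁻¹) = g * (h * h) * g⁻¹ by group, hsq, mul_one, mul_inv_cancel]
    · calc h = g⁻¹ * (g * h * g⁻¹) * g := by group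
        _ = 1 := by rw [e]; group
  · intro x h1 h2 h3 e
    have e2 : h • g⁻¹ • x = g⁻¹ • x := by
      conv_rhs => rw [← e]
      rw [mul_smul, mul_smul, inv_smul_smul]
    exact hfree (g⁻¹ • x) (by simp only [nm]; rw [co0_norm]; exact h1)
      (by simp only [dt]; rw [← co0_dot g, gv, smul_inv_smul]; exact h2)
      (by simp only [dt]; rw [← co0_dot g, gu, smul_inv_smul]; exact h3) e2

end Cfsg.Lib.Leech.Tri
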