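import Mathlib
import Cfsg.Prelude.Def_Sporadic_a
import Cfsg.Agent.Lib.Leech.Tri.Triangles

/-!
The hundred splits of a pair of type `23`, seen from one of them: `1 + 22 + 77`.
-/

set_option autoImplicit false
set_option linter.unusedSimpArgs false

namespace Cfsg.Lib.Leech.Tri

open Cfsg Cfsg.Lib.Golay Cfsg.Lib.Leech
open scoped Pointwise

local notation "CC" => supports (golayCode : Set (GolayPt → ZMod 2))

/-- Five at one point, one elsewhere. -/
def fiveFun (i : GolayPt) : ℤ := if i = none then 5 else 1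

theorem five_check : CheckVec fiveFun ∧ sqNorm fiveFun = 48 := by decide +kernel

/-- The vector with five at one point and one elsewhere. -/
def fiveVec : leechLattice := ⟨fiveFun, mem_of_check five_check.1⟩

/-- The vector `4 e_a - 4 e_b`. -/
def diffVec : leechLattice := minusVec ptA ptB

theorem dt_five (y : leechLattice) :
    dt fiveVec y = 4 * (y : GolayPt → ℤ) ptA + ∑ i, (y : GolayPt → ℤ) i := by
  show ∑ i, fiveFun i * (y : GolayPt → ℤ) i = _
  rw [Finset.sum_congr rfl (g := fun i => (if i = none then 4 * (y : GolayPt → ℤ) i else 0) +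
    (y : GolayPt → ℤ) i) fun i _ => by simp only [fiveFun]; split <;> ring]
  rw [Finset.sum_add_distrib, Finset.sum_ite_eq' Finset.univ (none : GolayPt)]
  simp [ptA]

theorem dt_diff (y : leechLattice) : dt diffVec y = 4 * (y : GolayPt → ℤ) ptA - 4 * (y : GolayPt → ℤ) ptB :=
  (dot_plus_minus ptA ptB _).2

theorem dt_base (y : leechLattice) : dt baseVec y = 4 * (y : GolayPt → ℤ) ptA + 4 * (y : GolayPt → ℤ) ptB :=
  dot_base _

theorem five_diff : dt fiveVec diffVec = 16 := by
  rw [dt_comm, dt_diff]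
  show 4 * fiveFun ptA - 4 * fiveFun ptB = 16
  decide

theorem base_is_split : nm baseVec = 32 ∧ dt fiveVec baseVec = 24 ∧ dt diffVec baseVec = 0 := by
  refine ⟨baseVec_norm, ?_, ?_⟩
  · rw [dt_comm, dt_base]; show 4 * fiveFun ptA + 4 * fiveFun ptB = 24; decide
  · rw [dt_diff]; simp [baseVec, plusVec, ptA, ptB]

/-- The shapes of the splits. -/
def OddShape (y : GolayPt → ℤ) (p : GolayPt) : Prop := ∀ i, y i = if i = p then -3 else 1
/-- The shapes of the splits. -/
def TwoShape (y : GolayPt → ℤ) (O : Finset GolayPt) : Prop := ∀ i, y i = if i ∈ O then 2 else 0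

theorem split_cases {y : leechLattice} (hy : nm y = 32) (h5 : dt fiveVec y = 24) (h0 : dt diffVec y = 0) :
    y = baseVec ∨ (∃ p, p ≠ ptA ∧ p ≠ ptB ∧ OddShape (y : GolayPt → ℤ) p) ∨
      (∃ O ∈ octads, ptA ∈ O ∧ ptB ∈ O ∧ TwoShape (y : GolayPt → ℤ) O) := by
  rw [dt_five] at h5
  rw [dt_diff] at h0
  have hAB : (ptA : GolayPt) ≠ ptB := by decide
  rcases shape32 y.2 hy with ⟨O, hO, sy⟩ | ⟨A, hA, sy⟩ | ⟨p, sy⟩
  · refine Or.inr (Or.inr ⟨O, hO, ?_⟩)
    have b : ∀ i, (y : GolayPt → ℤ) i ≤ if i ∈ O then 2 else 0 := fun i => by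
      rw [← sy i]; exact le_abs_self _
    have hsum : ∑ i : GolayPt, (if i ∈ O then (2 : ℤ) else 0) = 16 := by
      rw [← Finset.sum_filter, show (Finset.univ.filter fun i => i ∈ O) = O from by ext; simp, Finset.sum_const,
        card_octad hO]; rfl
    have hle := Finset.sum_le_sum (s := Finset.univ) fun i _ => b i
    rw [hsum] at hle
    have hA2 : (y : GolayPt → ℤ) ptA ≤ 2 := le_trans (b ptA) (by split <;> norm_num)
    have hall : ∀ i, (y : GolayPt → ℤ) i = if i ∈ O then 2 else 0 := fun i =>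
      (Finset.sum_eq_sum_iff_of_le fun i _ => b i).1 (by rw [hsum]; omega) i (Finset.mem_univ i)
    have ea : (y : GolayPt → ℤ) ptA = 2 := by omega
    have eb : (y : GolayPt → ℤ) ptB = 2 := by omega
    refine ⟨?_, ?_, hall⟩
    · by_contra h; rw [hall, if_neg h] at ea; norm_num at ea
    · by_contra h; rw [hall, if_neg h] at eb; norm_num at eb
  · left
    have b : ∀ i, (y : GolayPt → ℤ) i ≤ if i ∈ A then 4 else 0 := fun i => by
      rw [← sy i]; exact le_abs_self _
    have hsum : ∑ i : GolayPt, (if i ∈ A then (4 : ℤ) else 0) = 8 := by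
      rw [← Finset.sum_filter, show (Finset.univ.filter fun i => i ∈ A) = A from by ext; simp, Finset.sum_const,
        hA]; rfl
    have hle := Finset.sum_le_sum (s := Finset.univ) fun i _ => b i
    rw [hsum] at hle
    have hA4 : (y : GolayPt → ℤ) ptA ≤ 4 := le_trans (b ptA) (by split <;> norm_num)
    have hall : ∀ i, (y : GolayPt → ℤ) i = if i ∈ A then 4 else 0 := fun i =>
      (Finset.sum_eq_sum_iff_of_le fun i _ => b i).1 (by rw [hsum]; omega) i (Finset.mem_univ i)
    have ea : (y : GolayPt → ℤ) ptA = 4 := by omega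
    have eb : (y : GolayPt → ℤ) ptB = 4 := by omega
    have ma : ptA ∈ A := by by_contra h; rw [hall, if_neg h] at ea; norm_num at ea
    have mb : ptB ∈ A := by by_contra h; rw [hall, if_neg h] at eb; norm_num at eb
    have hset : ({ptA, ptB} : Finset GolayPt) = A :=
      Finset.eq_of_subset_of_card_le (by
        intro i hi; simp only [Finset.mem_insert, Finset.mem_singleton] at hi
        rcases hi with rfl | rfl <;> assumption)
        (by rw [hA, Finset.card_pair hAB])
    refine Subtype.ext (funext fun i => ?_)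
    rw [hall i, ← hset]
    by_cases h1 : i = ptA
    · subst h1; simp [baseVec, plusVec, hAB]
    · by_cases h2 : i = ptB
      · subst h2; simp [baseVec, plusVec, hAB.symm]
      · simp [baseVec, plusVec, h1, h2]
  · refine Or.inr (Or.inl ⟨p, ?_⟩)
    have v : ∀ i, if i = p then ((y : GolayPt → ℤ) i = 3 ∨ (y : GolayPt → ℤ) i = -3) else
        ((y : GolayPt → ℤ) i = 1 ∨ (y : GolayPt → ℤ) i = -1) := fun i => by
      by_cases h : i = p
      · rw [if_pos h]
        exact (abs_eq (by norm_num)).1 ((sy i).trans (if_pos (Finset.mem_singleton.2 h)))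
      · rw [if_neg h]
        exact (abs_eq (by norm_num)).1 ((sy i).trans (if_neg fun h' => h (Finset.mem_singleton.1 h')))
    have hno3 : (p ≠ ptA) ∧ (p ≠ ptB) := by
      constructor <;> intro e <;> subst e
      · have v1 := v ptA; have v2 := v ptB
        rw [if_pos rfl] at v1; rw [if_neg hAB.symm] at v2
        omega
      · have v1 := v ptA; have v2 := v ptB
        rw [if_neg hAB] at v1; rw [if_pos rfl] at v2
        omega
    refine ⟨hno3.1, hno3.2, ?_⟩
    have vA := v ptA
    rw [if_neg (Ne.symm hno3.1)] at vA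
    have b : ∀ i, (y : GolayPt → ℤ) i ≤ if i = p then (y : GolayPt → ℤ) p else 1 := fun i => by
      have := v i
      by_cases h : i = p
      · subst h; simp
      · rw [if_neg h] at this ⊢; omega
    have hsum : ∑ i : GolayPt, (if i = p then (y : GolayPt → ℤ) p else 1) = 23 + (y : GolayPt → ℤ) p := by
      rw [Finset.sum_congr rfl (g := fun i => (1 : ℤ) + if i = p then (y : GolayPt → ℤ) p - 1 else 0)
        fun i _ => by split <;> ring, Finset.sum_add_distrib, Finset.sum_ite_eq', if_pos (Finset.mem_univ p),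
        Finset.sum_const, Finset.card_univ, card_golayPt, nsmul_eq_mul]
      push_cast; ring
    have hle := Finset.sum_le_sum (s := Finset.univ) fun i _ => b i
    rw [hsum] at hle
    have vp := v p
    rw [if_pos rfl] at vp
    have ea : (y : GolayPt → ℤ) ptA = 1 := by omega
    -- the congruences exclude `+3`
    have hp : (y : GolayPt → ℤ) p = -3 := by
      refine vp.resolve_left fun h3 => ?_
      set N := oddSet (y : GolayPt → ℤ) with hN
      have en : (y : GolayPt → ℤ) none = 1 := ea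
      have e : ∀ i, (y : GolayPt → ℤ) i =
          (1 : ℤ) - 2 * (if i ∈ N then 1 else 0) + (if i = p then 4 else 0) := fun i => by
        have := v i
        rw [hN]
        by_cases h : i = p
        · subst h
          have hm : i ∈ oddSet (y : GolayPt → ℤ) := mem_oddSet.2 (by rw [h3, en]; norm_num)
          rw [if_pos hm, if_pos rfl, h3]; norm_num
        · rw [if_neg h] at this ⊢
          rcases this with e | e
          · have hm : i ∉ oddSet (y : GolayPt → ℤ) := fun hm => mem_oddSet.1 hm (by rw [e, en])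
            rw [if_neg hm, e]; norm_num
          · have hm : i ∈ oddSet (y : GolayPt → ℤ) := mem_oddSet.2 (by rw [e, en]; norm_num)
            rw [if_pos hm, e]; norm_num
      have hS : ∑ i, (y : GolayPt → ℤ) i = 28 - 2 * (N.card : ℤ) := by
        rw [Finset.sum_congr rfl fun i _ => e i, Finset.sum_add_distrib, Finset.sum_sub_distrib, ← Finset.mul_sum,
          Finset.sum_boole, Finset.sum_ite_eq', if_pos (Finset.mem_univ p), Finset.sum_const, Finset.card_univ,
          card_golayPt, nsmul_eq_mul, show (Finset.univ.filter fun i => i ∈ N) = N from by ext; simp]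
        push_cast; ring
      have := weight_cases (oddSet_mem (parity y.2) (invariants y.2).1)
      rw [← hN] at this
      omega
    intro i
    have hall := (Finset.sum_eq_sum_iff_of_le fun i _ => b i).1 (by rw [hsum, hp]; omega) i (Finset.mem_univ i)
    rw [hall, hp]

theorem perm_fix {σ : Equiv.Perm GolayPt} (hσ : σ ∈ M24) (hfix : ∀ k ∈ pairSet, σ k = k) :
    permElt σ hσ • fiveVec = fiveVec ∧ permElt σ hσ • diffVec = diffVec ∧ permElt σ hσ • baseVec = baseVec := by
  have hA : σ none = none := hfix none (by simp [pairSet])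
  have hB : σ (some 0) = some 0 := hfix (some 0) (by simp [pairSet])
  have e1 : ∀ i, σ⁻¹ i = none ↔ i = none := fun i => by rw [Equiv.Perm.inv_def, Equiv.symm_apply_eq, hA]
  have e2 : ∀ i, σ⁻¹ i = some 0 ↔ i = some 0 := fun i => by rw [Equiv.Perm.inv_def, Equiv.symm_apply_eq, hB]
  refine ⟨?_, ?_, ?_⟩ <;> refine Subtype.ext (funext fun i => ?_) <;> rw [permElt_apply]
  · simp only [fiveVec, fiveFun, e1]
  · simp only [Equiv.Perm.inv_def] at e1 e2
    by_cases h1 : i = none <;> by_cases h2 : i = some 0 <;>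
      simp [diffVec, minusVec, ptA, ptB, e1, e2, h1, h2]
  · simp only [Equiv.Perm.inv_def] at e1 e2
    by_cases h1 : i = none <;> by_cases h2 : i = some 0 <;>
      simp [baseVec, plusVec, ptA, ptB, e1, e2, h1, h2]

theorem odd_vec_check : ∀ p : GolayPt, CheckVec (fun i => if i = p then -3 else 1) ∧
    sqNorm (fun i : GolayPt => if i = p then (-3 : ℤ) else 1) = 32 := by decide +kernel

/-- The splits meeting the base one in `8`. -/
theorem split22_count :
    {y : leechLattice | (nm y = 32 ∧ dt fiveVec y = 24 ∧ dt diffVec y = 0) ∧ dt baseVec y = 8}.ncard = 22 := by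
  classical
  have hAB : (ptA : GolayPt) ≠ ptB := by decide
  let g : GolayPt → leechLattice := fun p => ⟨_, mem_of_check (odd_vec_check p).1⟩
  have hinj : Function.Injective g := fun p q e => by
    have := congrArg (fun t : leechLattice => (t : GolayPt → ℤ) p) e
    simp only [g, if_pos] at this
    by_contra h
    rw [if_neg h] at this
    norm_num at this
  have e : {y : leechLattice | (nm y = 32 ∧ dt fiveVec y = 24 ∧ dt diffVec y = 0) ∧ dt baseVec y = 8} =
      g '' ↑((Finset.univ.erase ptA).erase ptB) := by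
    ext y
    simp only [Set.mem_ofPred_eq, Set.mem_image, Finset.coe_erase, Set.mem_sdiff, Set.mem_singleton_iff,
      Finset.coe_univ, Set.mem_univ, true_and]
    constructor
    · rintro ⟨⟨h1, h2, h3⟩, h8⟩
      rw [dt_base] at h8
      rcases split_cases h1 h2 h3 with rfl | ⟨p, pa, pb, hp⟩ | ⟨O, hO, ha, hb, hp⟩
      · simp [baseVec, plusVec, hAB, hAB.symm] at h8
      · exact ⟨p, ⟨pa, pb⟩, Subtype.ext (funext fun i => (hp i).symm)⟩
      · rw [hp, hp, if_pos ha, if_pos hb] at h8; norm_num at h8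
    · rintro ⟨p, ⟨pa, pb⟩, rfl⟩
      have ga : (g p : GolayPt → ℤ) ptA = 1 := if_neg (Ne.symm pa)
      have gb : (g p : GolayPt → ℤ) ptB = 1 := if_neg (Ne.symm pb)
      refine ⟨⟨(odd_vec_check p).2, ?_, ?_⟩, ?_⟩
      · rw [dt_five, ga]
        show 4 * 1 + ∑ i, (if i = p then (-3 : ℤ) else 1) = 24
        rw [Finset.sum_congr rfl (g := fun i => (1 : ℤ) + if i = p then -4 else 0) fun i _ => by split <;> rfl,
          Finset.sum_add_distrib, Finset.sum_ite_eq', if_pos (Finset.mem_univ p), Finset.sum_const, Finset.card_univ,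
          card_golayPt]
        rfl
      · rw [dt_diff, ga, gb]; norm_num
      · rw [dt_base, ga, gb]; norm_num
  rw [e, Set.ncard_image_of_injective _ hinj, Set.ncard_coe_finset, Finset.card_erase_of_mem
    (Finset.mem_erase.2 ⟨hAB.symm, Finset.mem_univ _⟩), Finset.card_erase_of_mem (Finset.mem_univ _),
    Finset.card_univ, card_golayPt]

theorem split_orbits {y y' : leechLattice} (hy : nm y = 32 ∧ dt fiveVec y = 24 ∧ dt diffVec y = 0)
    (hy' : nm y' = 32 ∧ dt fiveVec y' = 24 ∧ dt diffVec y' = 0) (hn : y ≠ baseVec) (hn' : y' ≠ baseVec)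
    (h : dt baseVec y = 8 ↔ dt baseVec y' = 8) :
    ∃ g : Co0, g • fiveVec = fiveVec ∧ g • diffVec = diffVec ∧ g • baseVec = baseVec ∧ g • y = y' := by
  classical
  have odd8 : ∀ {z : leechLattice} {p}, p ≠ ptA → p ≠ ptB → OddShape (z : GolayPt → ℤ) p → dt baseVec z = 8 := by
    intro z p a b hz
    rw [dt_base, hz, hz, if_neg (Ne.symm a), if_neg (Ne.symm b)]; norm_num
  have two16 : ∀ {z : leechLattice} {O}, ptA ∈ O → ptB ∈ O → TwoShape (z : GolayPt → ℤ) O → dt baseVec z ≠ 8 := by
    intro z O a b hz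
    rw [dt_base, hz, hz, if_pos a, if_pos b]; norm_num
  rcases (split_cases hy.1 hy.2.1 hy.2.2).resolve_left hn with ⟨p, pa, pb, sy⟩ | ⟨O, hO, oa, ob, sy⟩ <;>
    rcases (split_cases hy'.1 hy'.2.1 hy'.2.2).resolve_left hn' with ⟨p', pa', pb', sy'⟩ | ⟨O', hO', oa', ob', sy'⟩
  · obtain ⟨σ, hσ, hfix, hs⟩ := exists_perm_sets pairSet {p} {p'}
      (by simp [pairSet]; exact ⟨pa, pb⟩) (by simp [pairSet]; exact ⟨pa', pb'⟩) rfl
      (by simp [pairSet])
    have hp' : σ p = p' := by
      have : σ p ∈ σ • ({p} : Finset GolayPt) := Finset.smul_mem_smul_finset (Finset.mem_singleton_self p)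
      rw [hs, Finset.mem_singleton] at this
      exact this
    obtain ⟨f1, f2, f3⟩ := perm_fix hσ hfix
    refine ⟨permElt σ hσ, f1, f2, f3, Subtype.ext (funext fun i => ?_)⟩
    rw [permElt_apply, sy, sy', Equiv.Perm.inv_def]
    by_cases hi : i = p'
    · subst hi; rw [if_pos (by rw [Equiv.symm_apply_eq, hp']), if_pos rfl]
    · rw [if_neg hi, if_neg (by rw [Equiv.symm_apply_eq, hp']; exact hi)]
  · exact absurd (h.1 (odd8 pa pb sy)) (two16 oa' ob' sy')
  · exact absurd (h.2 (odd8 pa' pb' sy')) (two16 oa ob sy)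
  · obtain ⟨σ, hσ, hfix, hs⟩ := octad_pair_transitive hO hO' (iff_of_true oa oa') (iff_of_true ob ob')
    obtain ⟨f1, f2, f3⟩ := perm_fix hσ hfix
    refine ⟨permElt σ hσ, f1, f2, f3, Subtype.ext (funext fun i => ?_)⟩
    rw [permElt_apply, sy, sy', ← hs]
    by_cases hi : σ⁻¹ i ∈ O
    · rw [if_pos hi, if_pos]
      have := Finset.smul_mem_smul_finset (a := σ) hi
      rwa [Equiv.Perm.smul_def, Equiv.Perm.inv_def, Equiv.apply_symm_apply] at this
    · rw [if_neg hi, if_neg]
      intro hmem
      obtain ⟨j, hj, rfl⟩ := Finset.mem_smul_finset.1 hmem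
      exact hi (by rw [Equiv.Perm.smul_def, Equiv.Perm.inv_def, Equiv.symm_apply_apply]; exact hj)

/-- The two suborbits on the splits. -/
theorem split_suborbits {v u x : leechLattice} (hv : nm v = 48) (hu : nm u = 32) (hvu : dt v u = 16)
    (hx : nm x = 32 ∧ dt v x = 24 ∧ dt u x = 0) :
    {y : leechLattice | (nm y = 32 ∧ dt v y = 24 ∧ dt u y = 0) ∧ dt x y = 8}.ncard = 22 ∧
    {y : leechLattice | (nm y = 32 ∧ dt v y = 24 ∧ dt u y = 0) ∧ y ≠ x ∧ dt x y ≠ 8}.ncard = 77 ∧
    ∀ y y' : leechLattice, (nm y = 32 ∧ dt v y = 24 ∧ dt u y = 0) → (nm y' = 32 ∧ dt v y' = 24 ∧ dt u y' = 0) →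
      y ≠ x → y' ≠ x → (dt x y = 8 ↔ dt x y' = 8) →
      ∃ g : Co0, g • v = v ∧ g • u = u ∧ g • x = x ∧ g • y = y' := by
  classical
  obtain ⟨g, gv, gu, gx⟩ := trans_split hv hu hvu hx five_check.2 (minusVec_norm _ _ (by decide)) five_diff
    base_is_split
  have tr : ∀ y, ((nm y = 32 ∧ dt v y = 24 ∧ dt u y = 0) ↔
      (nm (g • y) = 32 ∧ dt fiveVec (g • y) = 24 ∧ dt diffVec (g • y) = 0)) ∧ dt x y = dt baseVec (g • y) := by
    intro y
    have gu' : g • u = diffVec := gu
    simp only [nm, dt]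
    rw [co0_norm, ← gv, ← gu', ← gx, co0_dot, co0_dot, co0_dot]
    exact ⟨Iff.rfl, rfl⟩
  have h22 : {y : leechLattice | (nm y = 32 ∧ dt v y = 24 ∧ dt u y = 0) ∧ dt x y = 8}.ncard = 22 := by
    rw [ncard_smul g _ (fun z => (nm z = 32 ∧ dt fiveVec z = 24 ∧ dt diffVec z = 0) ∧ dt baseVec z = 8)
      fun y => and_congr (tr y).1 (by rw [(tr y).2])]
    exact split22_count
  refine ⟨h22, ?_, fun y y' hy hy' hn hn' h => ?_⟩
  · set X := {y : leechLattice | nm y = 32 ∧ dt v y = 24 ∧ dt u y = 0} with hX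
    set A := {y : leechLattice | (nm y = 32 ∧ dt v y = 24 ∧ dt u y = 0) ∧ dt x y = 8} with hA
    have hXf : X.Finite := Set.finite_of_ncard_ne_zero (by rw [hX, count_split hv hu hvu]; norm_num)
    have hxX : x ∈ X := hx
    have hxx : dt x x = 32 := (dt_self x).trans hx.1
    have hxA : x ∉ A := fun h => by have := h.2; omega
    have hAX : A ⊆ X := fun y hy => hy.1
    have e : {y : leechLattice | (nm y = 32 ∧ dt v y = 24 ∧ dt u y = 0) ∧ y ≠ x ∧ dt x y ≠ 8} = X \ insert x A := by
      ext y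
      simp only [hX, hA, Set.mem_sdiff, Set.mem_insert_iff, Set.mem_ofPred_eq]
      tauto
    rw [e, Set.ncard_sdiff (Set.insert_subset hxX hAX) ((hXf.subset hAX).insert x),
      Set.ncard_insert_of_notMem hxA (hXf.subset hAX), hX, count_split hv hu hvu, h22]
  · have eb : ∀ z, g • z = baseVec ↔ z = x := fun z => by
      rw [← gx]; exact ⟨fun e => smul_left_cancel g e, fun e => e ▸ rfl⟩
    obtain ⟨k, k1, k2, k3, k4⟩ := split_orbits ((tr y).1.1 hy) ((tr y').1.1 hy') (fun e => hn ((eb y).1 e))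
      (fun e => hn' ((eb y').1 e)) (by rw [← (tr y).2, ← (tr y').2]; exact h)
    refine ⟨g⁻¹ * k * g, ?_, ?_, ?_, ?_⟩
    · rw [mul_smul, mul_smul, gv]; exact inv_smul_eq_iff.2 (by rw [gv]; exact k1)
    · rw [mul_smul, mul_smul, gu]; exact inv_smul_eq_iff.2 (by rw [gu]; exact k2)
    · rw [mul_smul, mul_smul, gx]; exact inv_smul_eq_iff.2 (by rw [gx]; exact k3)
    · rw [mul_smul, mul_smul, k4, inv_smul_smul]

end Cfsg.Lib.Leech.Tri
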