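import Mathlib
import Cfsg.Prelude.Def_Sporadic
import Cfsg.Prelude.Def_Sporadic_a
import Cfsg.Agent.Lib.Leech.Global
import Cfsg.Agent.Lib.Leech.Tri.Split22
import Cfsg.Agent.Lib.HSGraph.Group
import Cfsg.Agent.S0378
import Cfsg.Agent.S0379

/-!
The stabiliser of a pair of type `23` is simple of order `44352000`.
-/

set_option autoImplicit false
set_option linter.unusedSimpArgs false

namespace Cfsg.Lib.Leech.Tri

open Cfsg Cfsg.Lib.Golay Cfsg.Lib.Leech
open scoped Pointwise

local notation "CC" => supports (golayCode : Set (GolayPt → ZMod 2))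

/-- An automorphism fixing the base split is a permutation fixing the two points. -/
theorem base_split_stab {g : Co0} (h5 : g • fiveVec = fiveVec) (hd : g • diffVec = diffVec)
    (hb : g • baseVec = baseVec) :
    ∃ (σ : Equiv.Perm GolayPt) (hσ : σ ∈ M24), σ none = none ∧ σ (some 0) = some 0 ∧ g = permElt σ hσ := by
  have eA : plusVec ptA ptB + minusVec ptA ptB = eight none := plus_add_minus _ _
  have eB : plusVec ptA ptB - minusVec ptA ptB = eight (some 0) := plus_sub_minus _ _
  have hA : g • eight none = eight none := by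
    rw [← eA, co0_add]; exact congrArg₂ (· + ·) hb hd
  have hB : g • eight (some 0) = eight (some 0) := by
    rw [← eB, co0_sub]; exact congrArg₂ (· - ·) hb hd
  have hcross : ∀ v : leechLattice, (v : GolayPt → ℤ) ∈ stdCross →
      ((g • v : leechLattice) : GolayPt → ℤ) ∈ stdCross := by
    have : g ∈ (MulAction.stabilizer Co0 (crossSet (eight none)) : Set Co0) := by
      rw [SetLike.mem_coe, MulAction.mem_stabilizer_iff, smul_crossSet, hA]
    rw [stab_crossSet] at this
    exact this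
  obtain ⟨σ, hσ, c, hc, hg⟩ := cross_stab_monomial g hcross
  have hσi : ∀ a : GolayPt, g • eight a = eight a → σ a = a ∧ a ∉ c := by
    intro a ha
    have h := congrFun ((hg (eight a)).symm.trans (congrArg Subtype.val ha)) a
    simp only [signedPerm, eight_apply, if_true] at h
    by_cases e : σ.symm a = a
    · refine ⟨by rw [← e, Equiv.apply_symm_apply, e], fun hac => ?_⟩
      rw [if_pos e, if_pos hac] at h; norm_num at h
    · rw [if_neg e] at h; simp at h
  have hc0 : ∀ i, i ∉ c := by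
    intro i hi
    have h := congrFun ((hg fiveVec).symm.trans (congrArg Subtype.val h5)) i
    have e1 : (fiveVec : GolayPt → ℤ) (σ.symm i) = 5 ∨ (fiveVec : GolayPt → ℤ) (σ.symm i) = 1 := by
      simp only [fiveVec, fiveFun]; split <;> simp
    have e2 : (fiveVec : GolayPt → ℤ) i = 5 ∨ (fiveVec : GolayPt → ℤ) i = 1 := by
      simp only [fiveVec, fiveFun]; split <;> simp
    simp only [signedPerm, if_pos hi] at h
    omega
  refine ⟨σ, hσ, (hσi _ hA).1, (hσi _ hB).1, co0_ext fun v => ?_⟩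
  rw [hg v]
  funext i
  rw [permElt_apply, Equiv.Perm.inv_def]
  simp only [signedPerm, if_neg (hc0 i)]

theorem isHS_stab {v u : leechLattice} (hv : nm v = 48) (hu : nm u = 32) (hvu : dt v u = 16) :
    IsHS ↥(MulAction.stabilizer Co0 v ⊓ MulAction.stabilizer Co0 u) := by
  classical
  obtain ⟨x0, hx0⟩ := exists_split hv hu hvu
  set X := {x : leechLattice // nm x = 32 ∧ dt v x = 24 ∧ dt u x = 0}
  set K := MulAction.stabilizer Co0 v ⊓ MulAction.stabilizer Co0 u with hK
  have memK : ∀ {g : Co0}, g ∈ K ↔ g • v = v ∧ g • u = u := fun {g} => by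
    rw [hK, Subgroup.mem_inf, MulAction.mem_stabilizer_iff, MulAction.mem_stabilizer_iff]
  have pres : ∀ (g : Co0), g ∈ K → ∀ x : leechLattice, nm x = 32 ∧ dt v x = 24 ∧ dt u x = 0 →
      nm (g • x) = 32 ∧ dt v (g • x) = 24 ∧ dt u (g • x) = 0 := by
    intro g hg x hx
    obtain ⟨gv, gu⟩ := memK.1 hg
    refine ⟨(co0_norm g x).trans hx.1, ?_, ?_⟩
    · simp only [dt]; rw [← gv, co0_dot]; exact hx.2.1
    · simp only [dt]; rw [← gu, co0_dot]; exact hx.2.2
  let φ : ↥K →* Equiv.Perm X :=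
    { toFun := fun g =>
        { toFun := fun x => ⟨g.1 • x.1, pres g.1 g.2 x.1 x.2⟩
          invFun := fun x => ⟨g.1⁻¹ • x.1, pres g.1⁻¹ (K.inv_mem g.2) x.1 x.2⟩
          left_inv := fun x => Subtype.ext (inv_smul_smul g.1 x.1)
          right_inv := fun x => Subtype.ext (smul_inv_smul g.1 x.1) }
      map_one' := Equiv.ext fun x => Subtype.ext (one_smul _ x.1)
      map_mul' := fun a b => Equiv.ext fun x => Subtype.ext (mul_smul a.1 b.1 x.1) }
  haveI : Finite X := (Set.finite_of_ncard_ne_zero (s := {x : leechLattice | nm x = 32 ∧ dt v x = 24 ∧ dt u x = 0})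
    (by rw [count_split hv hu hvu]; norm_num)).to_subtype
  haveI : Fintype X := Fintype.ofFinite X
  have hX : Fintype.card X = 100 := by
    rw [← Nat.card_eq_fintype_card]
    exact (Nat.card_coe_set_eq _).trans (count_split hv hu hvu)
  let a : X := ⟨x0, hx0⟩
  -- the base frame
  obtain ⟨t, tv, tu, tx⟩ := trans_split hv hu hvu hx0 five_check.2 (minusVec_norm _ _ (by decide)) five_diff
    base_is_split
  have tu' : t • u = diffVec := tu
  let P := MulAction.stabilizer M24 ptA ⊓ MulAction.stabilizer M24 ptB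
  have Pfix : ∀ p : ↥P, ∀ k ∈ pairSet, (p.1.1 : Equiv.Perm GolayPt) k = k := by
    intro p k hk
    simp only [pairSet, Finset.mem_insert, Finset.mem_singleton] at hk
    rcases hk with rfl | rfl
    · exact p.2.1
    · exact p.2.2
  -- injectivity
  have hinj : Function.Injective φ := by
    rw [injective_iff_map_eq_one]
    intro g hg
    have hfix : ∀ x, nm x = 32 ∧ dt v x = 24 ∧ dt u x = 0 → g.1 • x = x := fun x hx =>
      congrArg Subtype.val (DFunLike.congr_fun hg (⟨x, hx⟩ : X))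
    obtain ⟨gv, gu⟩ := memK.1 g.2
    set k := t * g.1 * t⁻¹ with hk
    have kk : ∀ z : leechLattice, g.1 • (t⁻¹ • z) = t⁻¹ • z → k • z = z := fun z h => by
      rw [hk, mul_smul, mul_smul, h, smul_inv_smul]
    have k5 : k • fiveVec = fiveVec := kk _ (by rw [← tv, inv_smul_smul, gv])
    have kd : k • diffVec = diffVec := kk _ (by rw [← tu', inv_smul_smul, gu])
    have kb : k • baseVec = baseVec := kk _ (by rw [← tx, inv_smul_smul]; exact hfix x0 hx0)
    obtain ⟨σ, hσ, sA, sB, hkσ⟩ := base_split_stab k5 kd kb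
    have hone : σ = 1 := by
      refine Equiv.ext fun p => ?_
      by_cases pa : p = none
      · rw [pa]; exact sA
      by_cases pb : p = some 0
      · rw [pb]; exact sB
      let z : leechLattice := ⟨_, mem_of_check (odd_vec_check p).1⟩
      have za : (z : GolayPt → ℤ) ptA = 1 := if_neg (Ne.symm pa)
      have zb : (z : GolayPt → ℤ) ptB = 1 := if_neg (Ne.symm pb)
      have hzsum : ∑ i, (z : GolayPt → ℤ) i = 20 := by
        show ∑ i, (if i = p then (-3 : ℤ) else 1) = 20
        rw [Finset.sum_congr rfl (g := fun i => (1 : ℤ) + if i = p then -4 else 0) fun i _ => by split <;> rfl,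
          Finset.sum_add_distrib, Finset.sum_ite_eq', if_pos (Finset.mem_univ p), Finset.sum_const, Finset.card_univ,
          card_golayPt]
        rfl
      have hz : nm z = 32 ∧ dt fiveVec z = 24 ∧ dt diffVec z = 0 :=
        ⟨(odd_vec_check p).2, by rw [dt_five, za, hzsum]; norm_num, by rw [dt_diff, za, zb]; norm_num⟩
      have hzX : nm (t⁻¹ • z) = 32 ∧ dt v (t⁻¹ • z) = 24 ∧ dt u (t⁻¹ • z) = 0 := by
        refine ⟨(co0_norm _ z).trans hz.1, ?_, ?_⟩
        · simp only [dt]; rw [← co0_dot t, tv, smul_inv_smul]; exact hz.2.1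
        · simp only [dt]; rw [← co0_dot t, tu', smul_inv_smul]; exact hz.2.2
      have h := congrFun (congrArg Subtype.val (kk z (hfix _ hzX))) (σ p)
      rw [hkσ, permElt_apply, Equiv.Perm.inv_def, Equiv.symm_apply_apply] at h
      show σ p = p
      by_contra hne
      have h1 : (z : GolayPt → ℤ) p = -3 := if_pos rfl
      have h2 : (z : GolayPt → ℤ) (σ p) = 1 := if_neg hne
      omega
    have k1 : k = 1 := by
      rw [hkσ]
      refine co0_ext fun w => funext fun i => ?_
      rw [permElt_apply, one_smul, hone, inv_one, Equiv.Perm.one_apply]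
    refine Subtype.ext ?_
    calc g.1 = t⁻¹ * k * t := by rw [hk]; group
      _ = 1 := by rw [k1]; group
  -- the vertex stabiliser
  let S := (MulAction.stabilizer φ.range a)
  have hS : ∃ ψ : ↥P →* ↥S, Function.Bijective ψ := by
    have mem : ∀ p : ↥P, t⁻¹ * permElt p.1.1 p.1.2 * t ∈ K ∧
        (t⁻¹ * permElt p.1.1 p.1.2 * t) • x0 = x0 := by
      intro p
      obtain ⟨f1, f2, f3⟩ := perm_fix p.1.2 (Pfix p)
      refine ⟨memK.2 ⟨?_, ?_⟩, ?_⟩
      · rw [mul_smul, mul_smul, tv, f1, ← tv, inv_smul_smul]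
      · rw [mul_smul, mul_smul, tu', f2, ← tu', inv_smul_smul]
      · rw [mul_smul, mul_smul, tx, f3, ← tx, inv_smul_smul]
    have hmul : ∀ p q : ↥P, permElt (p * q).1.1 (p * q).1.2 = permElt p.1.1 p.1.2 * permElt q.1.1 q.1.2 := by
      intro p q
      refine co0_ext fun w => funext fun i => ?_
      rw [mul_smul, permElt_apply, permElt_apply, permElt_apply]
      show (w : GolayPt → ℤ) ((p.1.1 * q.1.1)⁻¹ i) = _
      rw [mul_inv_rev, Equiv.Perm.mul_apply]
    have hS0 : ∀ p : ↥P, (⟨φ ⟨_, (mem p).1⟩, _, rfl⟩ : φ.range) ∈ S := fun p =>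
      Subtype.ext (mem p).2
    let ψ : ↥P →* ↥S := MonoidHom.mk' (fun p => ⟨_, hS0 p⟩) fun p q => by
      refine Subtype.ext (Subtype.ext ?_)
      show φ ⟨_, (mem (p * q)).1⟩ = φ ⟨_, (mem p).1⟩ * φ ⟨_, (mem q).1⟩
      rw [← map_mul]
      refine congrArg φ (Subtype.ext ?_)
      show t⁻¹ * permElt (p * q).1.1 (p * q).1.2 * t = t⁻¹ * permElt p.1.1 p.1.2 * t * (t⁻¹ * permElt q.1.1 q.1.2 * t)
      rw [hmul]; group
    refine ⟨ψ, ?_, ?_⟩
    · intro p q e
      have e' := hinj (congrArg (fun s : ↥S => (s.1 : Equiv.Perm X)) e)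
      have e'' : t⁻¹ * permElt p.1.1 p.1.2 * t = t⁻¹ * permElt q.1.1 q.1.2 * t := congrArg Subtype.val e'
      have e3 : permElt p.1.1 p.1.2 = permElt q.1.1 q.1.2 := by simpa using e''
      refine Subtype.ext (Subtype.ext (Equiv.ext fun i => ?_))
      have h := congrFun (congrArg Subtype.val (congrArg (fun g : Co0 => g • eight i) e3)) (p.1.1 i)
      rw [permElt_apply, permElt_apply, eight_apply, eight_apply, Equiv.Perm.inv_def, Equiv.Perm.inv_def,
        Equiv.symm_apply_apply, if_pos rfl] at h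
      split at h
      · rename_i hh
        exact (Equiv.symm_apply_eq _).1 hh
      · norm_num at h
    · rintro ⟨⟨_, g, rfl⟩, hga⟩
      have gx : g.1 • x0 = x0 := congrArg Subtype.val hga
      obtain ⟨gv, gu⟩ := memK.1 g.2
      have kk : ∀ z : leechLattice, g.1 • (t⁻¹ • z) = t⁻¹ • z → (t * g.1 * t⁻¹) • z = z := fun z h => by
        rw [mul_smul, mul_smul, h, smul_inv_smul]
      obtain ⟨σ, hσ, sA, sB, hkσ⟩ := base_split_stab (g := t * g.1 * t⁻¹)
        (kk _ (by rw [← tv, inv_smul_smul, gv])) (kk _ (by rw [← tu', inv_smul_smul, gu]))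
        (kk _ (by rw [← tx, inv_smul_smul, gx]))
      refine ⟨⟨⟨σ, hσ⟩, sA, sB⟩, Subtype.ext (Subtype.ext ?_)⟩
      show φ ⟨_, _⟩ = φ g
      refine congrArg φ (Subtype.ext ?_)
      show t⁻¹ * permElt σ hσ * t = g.1
      rw [← hkσ]; group
  obtain ⟨ψ, hψ⟩ := hS
  let E := MulEquiv.ofBijective ψ hψ
  haveI : IsSimpleGroup ↥P := Cfsg.Agent.S0379.result ptA ptB (by decide)
  haveI : IsSimpleGroup ↥S := E.symm.isSimpleGroup
  -- the suborbits
  obtain ⟨h22, -, horb⟩ := split_suborbits hv hu hvu hx0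
  have htrans : ∀ w : X, ∃ g ∈ φ.range, g a = w := by
    intro w
    obtain ⟨g, g1, g2, g3⟩ := trans_split hv hu hvu hx0 hv hu hvu w.2
    exact ⟨φ ⟨g, memK.2 ⟨g1, g2⟩⟩, ⟨_, rfl⟩, Subtype.ext g3⟩
  let O1 : Finset X := Finset.univ.filter fun w => dt x0 w.1 = 8
  have hmove : ∀ p q : X, p ≠ a → q ≠ a → (dt x0 p.1 = 8 ↔ dt x0 q.1 = 8) →
      ∃ g ∈ φ.range, g a = a ∧ g p = q := by
    intro p q hp hq h
    obtain ⟨g, g1, g2, g3, g4⟩ := horb p.1 q.1 p.2 q.2 (fun e => hp (Subtype.ext e)) (fun e => hq (Subtype.ext e)) h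
    exact ⟨φ ⟨g, memK.2 ⟨g1, g2⟩⟩, ⟨_, rfl⟩, Subtype.ext g3, Subtype.ext g4⟩
  have hO1 : O1.card = 22 := by
    rw [← h22, ← Set.ncard_coe_finset]
    refine Set.ncard_congr (fun w _ => w.1) (fun w hw => ?_) (fun p q _ _ e => Subtype.ext e) fun y hy => ?_
    · exact ⟨w.2, (Finset.mem_filter.1 hw).2⟩
    · exact ⟨⟨y, hy.1⟩, Finset.mem_filter.2 ⟨Finset.mem_univ _, hy.2⟩, rfl⟩
  have ha1 : a ∉ O1 := fun h => by
    have h8 : dt x0 x0 = 8 := (Finset.mem_filter.1 h).2
    rw [dt_self, hx0.1] at h8; norm_num at h8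
  have hsimple : IsSimpleGroup φ.range := by
    refine Cfsg.Lib.HSGraph.simple_criterion hX a φ.range htrans O1 hO1 ha1 (fun p hp q hq => ?_)
      (fun p q hp hp1 hq hq1 => ?_)
    · exact hmove p q (fun e => ha1 (e ▸ hp)) (fun e => ha1 (e ▸ hq))
        (iff_of_true (Finset.mem_filter.1 hp).2 (Finset.mem_filter.1 hq).2)
    · exact hmove p q hp hq (iff_of_false (fun h => hp1 (Finset.mem_filter.2 ⟨Finset.mem_univ _, h⟩))
        (fun h => hq1 (Finset.mem_filter.2 ⟨Finset.mem_univ _, h⟩)))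
  have hcard : Nat.card φ.range = 44352000 := by
    rw [← Subgroup.card_mul_index S, MulAction.index_stabilizer, ← Nat.card_congr E.toEquiv,
      Cfsg.Agent.S0378.result ptA ptB (by decide),
      show MulAction.orbit φ.range a = Set.univ from Set.eq_univ_of_forall fun w => by
        obtain ⟨g, hg, e⟩ := htrans w; exact ⟨⟨g, hg⟩, e⟩,
      Set.ncard_univ, Nat.card_eq_fintype_card, hX]
  let F := MonoidHom.ofInjective hinj
  haveI := hsimple
  exact ⟨F.isSimpleGroup, (Nat.card_congr F.toEquiv).trans hcard⟩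

end Cfsg.Lib.Leech.Tri
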