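import Mathlib
import Cfsg.Prelude.Def_Sporadic
import Cfsg.Prelude.Def_Sporadic_a
import Cfsg.Agent.Lib.Leech.Global
import Cfsg.Agent.Lib.Leech.Tri.HSStab
import Cfsg.Agent.Lib.Leech.Tri.Suborbits2025

/-!
The stabiliser of two minimal vectors with inner product `-8` is simple of order `898128000`.
-/

set_option autoImplicit false
set_option linter.unusedSimpArgs false

namespace Cfsg.Lib.Leech.Tri

open Finset

variable {V : Type*}

theorem simple_2025 [Fintype V] (hV : Fintype.card V = 2025) (v0 : V) (H : Subgroup (Equiv.Perm V))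
    (htrans : ∀ w, ∃ g ∈ H, g v0 = w) (Os : List (Finset V)) (hsz : Os.map Finset.card = [330, 462, 1232])
    (hcov : ∀ w, w ≠ v0 → ∃ O ∈ Os, w ∈ O) (hnot : ∀ O ∈ Os, v0 ∉ O)
    (ht : ∀ O ∈ Os, ∀ a ∈ O, ∀ b ∈ O, ∃ g ∈ H, g v0 = v0 ∧ g a = b)
    [IsSimpleGroup (MulAction.stabilizer H v0)] : IsSimpleGroup H := by
  classical
  haveI : Nontrivial H := by
    obtain ⟨g, hg⟩ := (inferInstance : Nontrivial (MulAction.stabilizer H v0)).exists_pair_ne
    exact ⟨⟨g.1, hg.choose.1, fun e => hg.choose_spec (Subtype.ext e)⟩⟩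
  refine ⟨fun N hN => ?_⟩
  haveI := hN
  set S := MulAction.stabilizer H v0 with hS
  obtain ⟨A, B, C, rfl, hA, hB, hC⟩ : ∃ A B C, Os = [A, B, C] ∧ A.card = 330 ∧ B.card = 462 ∧ C.card = 1232 := by
    rcases Os with _ | ⟨A, _ | ⟨B, _ | ⟨C, _ | ⟨D, L⟩⟩⟩⟩ <;> simp at hsz
    exact ⟨A, B, C, rfl, hsz.1, hsz.2.1, hsz.2.2⟩
  have orbit_cases : ∀ M : Subgroup H, M.Normal →
      (∀ m ∈ M, (m : Equiv.Perm V) v0 = v0) ∨ (∀ w, ∃ m ∈ M, (m : Equiv.Perm V) v0 = w) := by
    intro M hM
    set O : Finset V := univ.filter fun w => ∃ m ∈ M, (m : Equiv.Perm V) v0 = w with hO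
    have hmemO : ∀ w, w ∈ O ↔ ∃ m ∈ M, (m : Equiv.Perm V) v0 = w := fun w => by simp [hO]
    have hinv : ∀ g ∈ H, g v0 = v0 → ∀ a ∈ O, g a ∈ O := by
      intro g hg hgv a ha
      obtain ⟨m, hm, rfl⟩ := (hmemO a).1 ha
      refine (hmemO _).2 ⟨⟨g, hg⟩ * m * ⟨g, hg⟩⁻¹, hM.conj_mem m hm _, ?_⟩
      show g ((m : Equiv.Perm V) (g⁻¹ v0)) = _
      rw [show g⁻¹ v0 = v0 by rw [Equiv.Perm.inv_eq_iff_eq, hgv]]
    have hdvd : O.card ∣ 2025 := by
      have horb : (MulAction.orbit M v0).ncard = O.card := by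
        rw [← Set.ncard_coe_finset]
        congr 1
        ext w
        rw [Finset.mem_coe, hmemO]
        exact ⟨fun ⟨m, hm⟩ => ⟨m.1, m.2, hm⟩, fun ⟨m, hm, e⟩ => ⟨⟨m, hm⟩, e⟩⟩
      have h2 : (MulAction.stabilizer M v0).index = O.card := (MulAction.index_stabilizer M v0).trans horb
      have h3 : MulAction.stabilizer M v0 = S.subgroupOf M := by ext m; rfl
      have h4 : S.index = 2025 := by
        rw [hS, MulAction.index_stabilizer, ← hV, ← Finset.card_univ, ← Set.ncard_coe_finset]
        congr 1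
        ext w
        simp only [Finset.coe_univ, Set.mem_univ, iff_true]
        obtain ⟨g, hg, e⟩ := htrans w
        exact ⟨⟨g, hg⟩, e⟩
      rw [← h2, h3, ← h4, show (S.subgroupOf M).index = S.relIndex M from rfl]
      haveI := hM
      have a1 := Subgroup.relIndex_mul_index (inf_le_right : S ⊓ M ≤ M)
      have a2 := Subgroup.relIndex_mul_index (inf_le_left : S ⊓ M ≤ S)
      have a3 := Subgroup.relIndex_mul_index (le_sup_right : M ≤ S ⊔ M)
      rw [Subgroup.inf_relIndex_right] at a1
      rw [inf_comm S M, Subgroup.inf_relIndex_right, ← Subgroup.relIndex_sup_right S M] at a2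
      rw [inf_comm M S, ← a1, ← a3, mul_left_comm] at a2
      exact ⟨(S ⊔ M).index, mul_left_cancel₀ (Subgroup.index_ne_zero_of_finite) a2⟩
    have hall : ∀ P : Finset V, (∀ a ∈ P, ∀ b ∈ P, ∃ g ∈ H, g v0 = v0 ∧ g a = b) → P ⊆ O ∨ Disjoint P O := by
      intro P hP
      by_cases hd : Disjoint P O
      · exact Or.inr hd
      · obtain ⟨a, haP, haO⟩ := not_disjoint_iff.1 hd
        refine Or.inl fun b hb => ?_
        obtain ⟨g, hg, hgv, e⟩ := hP a haP b hb
        exact e ▸ hinv g hg hgv a haO
    have hv0 : v0 ∈ O := (hmemO v0).2 ⟨1, M.one_mem, rfl⟩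
    have hnA := hnot A (by simp)
    have hnB := hnot B (by simp)
    have hnC := hnot C (by simp)
    have dAB : A ⊆ O ∨ Disjoint A O := hall A (ht A (by simp))
    have dBB : B ⊆ O ∨ Disjoint B O := hall B (ht B (by simp))
    have dCB : C ⊆ O ∨ Disjoint C O := hall C (ht C (by simp))
    have hsum : O.card = 1 + (A ∩ O).card + (B ∩ O).card + (C ∩ O).card := by
      have hUc : (A ∪ B ∪ C).card = 330 + 462 + 1232 := by
        have hU : A ∪ B ∪ C = univ.erase v0 := by
          ext w
          simp only [mem_union, mem_erase, mem_univ, and_true]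
          refine ⟨?_, fun hw => ?_⟩
          · rintro ((h | h) | h) <;> intro e <;> subst e
            exacts [hnA h, hnB h, hnC h]
          · obtain ⟨O', hO', hw'⟩ := hcov w hw
            simp only [List.mem_cons, List.not_mem_nil, or_false] at hO'
            rcases hO' with rfl | rfl | rfl <;> simp [hw']
        rw [hU, card_erase_of_mem (mem_univ _), card_univ, hV]
      have h12 := card_union_add_card_inter A B
      have h123 := card_union_add_card_inter (A ∪ B) C
      have dab : Disjoint A B := disjoint_iff_inter_eq_empty.2 (card_eq_zero.1 (by omega))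
      have dabc : Disjoint (A ∪ B) C := disjoint_iff_inter_eq_empty.2 (card_eq_zero.1 (by omega))
      have e : O = insert v0 ((A ∩ O) ∪ (B ∩ O) ∪ (C ∩ O)) := by
        ext w
        simp only [mem_insert, mem_union, mem_inter]
        refine ⟨fun hw => ?_, ?_⟩
        · by_cases e : w = v0
          · exact Or.inl e
          · obtain ⟨O', hO', hw'⟩ := hcov w e
            simp only [List.mem_cons, List.not_mem_nil, or_false] at hO'
            rcases hO' with rfl | rfl | rfl <;> simp [hw', hw]
        · rintro (rfl | ((h | h) | h))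
          exacts [hv0, h.2, h.2, h.2]
      conv_lhs => rw [e]
      rw [card_insert_of_notMem (by simp [hnA, hnB, hnC]), card_union_of_disjoint, card_union_of_disjoint]
      · ring
      · exact dab.mono inter_subset_left inter_subset_left
      · exact dabc.mono (union_subset_union inter_subset_left inter_subset_left) inter_subset_left
    have key : ∀ P : Finset V, P ⊆ O ∨ Disjoint P O → (P ∩ O).card = P.card ∨ (P ∩ O).card = 0 := fun P h =>
      h.elim (fun s => Or.inl (by rw [inter_eq_left.2 s])) fun d =>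
        Or.inr (by rw [disjoint_iff_inter_eq_empty.1 d, card_empty])
    rcases key A dAB with a | a <;> rcases key B dBB with b | b <;> rcases key C dCB with c | c <;>
      rw [a, b, c] at hsum <;> (first | rw [hA] at hsum | skip) <;> (first | rw [hB] at hsum | skip) <;>
      (first | rw [hC] at hsum | skip)
    case inl.inl.inl =>
      refine Or.inr fun w => (hmemO w).1 ?_
      have : O = univ := eq_univ_of_card _ (by rw [hsum, hV])
      rw [this]; exact mem_univ _
    case inr.inr.inr =>
      refine Or.inl fun m hm => ?_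
      obtain ⟨x, hx⟩ := card_eq_one.1 hsum
      have h1 : (m : Equiv.Perm V) v0 ∈ O := (hmemO _).2 ⟨m, hm, rfl⟩
      rw [hx, mem_singleton] at h1 hv0
      exact h1.trans hv0.symm
    all_goals (exfalso; rw [hsum] at hdvd; norm_num at hdvd)
  have triv : ∀ M : Subgroup H, M.Normal → (∀ m ∈ M, (m : Equiv.Perm V) v0 = v0) → M = ⊥ := by
    intro M hM hfix
    rw [eq_bot_iff]
    intro m hm
    rw [Subgroup.mem_bot]
    refine Subtype.ext (Equiv.ext fun w => ?_)
    obtain ⟨g, hg, rfl⟩ := htrans w
    have := hfix _ (hM.conj_mem m hm (⟨g, hg⟩ : H)⁻¹)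
    have h' : g⁻¹ ((m : Equiv.Perm V) (g v0)) = v0 := by simpa using this
    exact (Equiv.Perm.inv_eq_iff_eq.1 h').trans rfl |>.trans rfl
  rcases orbit_cases N hN with h | h
  · exact Or.inl (triv N hN h)
  haveI : (N.comap S.subtype).Normal := hN.comap _
  rcases IsSimpleGroup.eq_bot_or_eq_top_of_normal (N.comap S.subtype) inferInstance with hb | ht'
  · exfalso
    have hcard : Nat.card N = 2025 := by
      rw [← hV, ← Nat.card_eq_fintype_card]
      refine Nat.card_congr (Equiv.ofBijective (fun m : N => ((m : H) : Equiv.Perm V) v0) ⟨fun a b e => ?_, fun w => ?_⟩)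
      · have hm : ((a : H)⁻¹ * b) ∈ S := by
          show ((a : H) : Equiv.Perm V)⁻¹ (((b : H) : Equiv.Perm V) v0) = v0
          rw [show ((b : H) : Equiv.Perm V) v0 = ((a : H) : Equiv.Perm V) v0 from e.symm]; exact Equiv.symm_apply_apply _ _
        have h1 : (⟨(a : H)⁻¹ * b, hm⟩ : S) ∈ N.comap S.subtype := N.mul_mem (N.inv_mem a.2) b.2
        rw [hb, Subgroup.mem_bot] at h1
        exact Subtype.ext (inv_mul_eq_one.1 (congrArg Subtype.val h1))
      · obtain ⟨m, hm, e⟩ := h w
        exact ⟨⟨m, hm⟩, e⟩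
    haveI : Fact (Nat.Prime 5) := ⟨by norm_num⟩
    haveI : Fact (Nat.Prime 3) := ⟨by norm_num⟩
    -- a normal Sylow subgroup
    obtain ⟨Q, hQn, hQc⟩ : ∃ Q : Subgroup N, Q.Characteristic ∧ (Nat.card Q = 25 ∨ Nat.card Q = 81) := by
      let P : Sylow 5 N := default
      have hP : Nat.card (P : Subgroup N) = 25 := by rw [P.card_eq_multiplicity, hcard]; decide +kernel
      have hidx : (P : Subgroup N).index = 81 := by
        have := (P : Subgroup N).index_mul_card
        rw [hP, hcard] at this; omega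
      have hmod := card_sylow_modEq_one 5 N
      have hdvd := Sylow.card_dvd_index P
      rw [hidx] at hdvd
      by_cases h1 : Nat.card (Sylow 5 N) = 1
      · haveI : Subsingleton (Sylow 5 N) := (Nat.card_eq_one_iff_unique.1 h1).1
        exact ⟨P, inferInstance, Or.inl hP⟩
      · have hle := Nat.le_of_dvd (by norm_num) hdvd
        have h81 : Nat.card (Sylow 5 N) = 81 := by
          unfold Nat.ModEq at hmod
          interval_cases hh : Nat.card (Sylow 5 N) <;> omega
        have hnorm : Subgroup.normalizer ((P : Subgroup N) : Set N) = (P : Subgroup N) := by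
          refine (Subgroup.eq_of_le_of_card_ge Subgroup.le_normalizer ?_).symm
          have := (Subgroup.normalizer ((P : Subgroup N) : Set N)).index_mul_card
          have hi : (Subgroup.normalizer ((P : Subgroup N) : Set N)).index = 81 := by
            rw [← h81]; exact (Sylow.card_eq_index_normalizer P).symm
          rw [hi, hcard] at this
          omega
        have hcomm : ∀ x y : (P : Subgroup N), x * y = y * x :=
          (IsPGroup.isMulCommutative_of_card_eq_prime_sq (p := 5) (hP.trans (by norm_num))).1.1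
        have hPc : Subgroup.normalizer ((P : Subgroup N) : Set N) ≤ Subgroup.centralizer ((P : Subgroup N) : Set N) := by
          rw [hnorm]
          exact fun x hx => Subgroup.mem_centralizer_iff.2 fun y hy =>
            congrArg Subtype.val (hcomm ⟨y, hy⟩ ⟨x, hx⟩)
        have hcompl := MonoidHom.ker_transferSylow_isComplement' P hPc
        set K := (MonoidHom.transferSylow P hPc).ker
        have hK : Nat.card K = 81 := by
          have := hcompl.card_mul
          rw [hP, hcard] at this; omega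
        haveI hKn : K.Normal := MonoidHom.normal_ker _
        have hK3 : Nat.card K = 3 ^ (Nat.card N).factorization 3 := by rw [hK, hcard]; decide +kernel
        let T : Sylow 3 N := Sylow.ofCard K hK3
        haveI : Subsingleton (Sylow 3 N) := by
          haveI := Sylow.unique_of_normal T hKn
          exact inferInstance
        exact ⟨(T : Subgroup N), inferInstance, Or.inr hK⟩
    haveI := hQn
    have hM : (Q.map N.subtype).Normal := inferInstance
    rcases orbit_cases _ hM with h' | h'
    · have := triv _ hM h'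
      rw [Subgroup.map_eq_bot_iff_of_injective _ N.subtype_injective] at this
      rw [this, Subgroup.card_bot] at hQc
      norm_num at hQc
    · have : 2025 ≤ Nat.card Q := by
        rw [← hV, ← Nat.card_eq_fintype_card]
        refine Nat.card_le_card_of_surjective (fun m : Q => (((m : N) : H) : Equiv.Perm V) v0) fun w => ?_
        obtain ⟨_, ⟨m, hm, rfl⟩, e⟩ := h' w
        exact ⟨⟨m, hm⟩, e⟩
      omega
  · refine Or.inr (eq_top_iff.2 fun g _ => ?_)
    obtain ⟨m, hm, e⟩ := h ((g : Equiv.Perm V) v0)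
    have hs : m⁻¹ * g ∈ S := by
      show ((m : Equiv.Perm V))⁻¹ ((g : Equiv.Perm V) v0) = v0
      rw [← e]; exact Equiv.symm_apply_apply _ _
    have h1 : (⟨m⁻¹ * g, hs⟩ : S) ∈ N.comap S.subtype := by rw [ht']; exact Subgroup.mem_top _
    rw [← mul_inv_cancel_left m g]
    exact N.mul_mem hm h1


open Cfsg Cfsg.Lib.Golay Cfsg.Lib.Leech
open scoped Pointwise

theorem isMcL_base : IsMcL ↥(MulAction.stabilizer Co0 baseVec ⊓ MulAction.stabilizer Co0 threeVec) := by
  classical
  set K := MulAction.stabilizer Co0 baseVec ⊓ MulAction.stabilizer Co0 threeVec with hK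
  have memK : ∀ {g : Co0}, g ∈ K ↔ g • baseVec = baseVec ∧ g • threeVec = threeVec := fun {g} => by
    rw [hK, Subgroup.mem_inf, MulAction.mem_stabilizer_iff, MulAction.mem_stabilizer_iff]
  have e5 : fiveVec = threeVec + baseVec := (sub_add_cancel fiveVec baseVec).symm
  have e1 : dt fiveVec baseVec = 24 := base_is_split.2.1
  have e2 : dt diffVec baseVec = 0 := base_is_split.2.2
  have nd : nm diffVec = 32 := minusVec_norm _ _ (by decide)
  have nb : nm baseVec = 32 := baseVec_norm
  have n5 : nm fiveVec = 48 := five_check.2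
  have n3 : nm threeVec = 32 := by rw [threeVec, nm_sub]; omega
  have hb3 : dt baseVec threeVec = -8 := by rw [threeVec, dt_sub, dt_self, dt_comm baseVec fiveVec]; omega
  have hda : Third diffVec :=
    ⟨nd, by rw [dt_comm]; exact e2, by rw [dt_three, dt_comm baseVec diffVec, e2, five_diff]; norm_num⟩
  obtain ⟨h2025, htr, -⟩ := thirds nb n3 hb3
  let X := {y : leechLattice // Third y}
  have pres : ∀ g ∈ K, ∀ y, Third y → Third (g • y) := by
    intro g hg y hy
    obtain ⟨g1, g2⟩ := memK.1 hg
    refine ⟨(co0_norm g y).trans hy.1, ?_, ?_⟩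
    · simp only [dt]; rw [← g1, co0_dot]; exact hy.2.1
    · simp only [dt]; rw [← g2, co0_dot]; exact hy.2.2
  let φ : ↥K →* Equiv.Perm X :=
    { toFun := fun g =>
        { toFun := fun x => ⟨g.1 • x.1, pres g.1 g.2 x.1 x.2⟩
          invFun := fun x => ⟨g.1⁻¹ • x.1, pres g.1⁻¹ (K.inv_mem g.2) x.1 x.2⟩
          left_inv := fun x => Subtype.ext (inv_smul_smul g.1 x.1)
          right_inv := fun x => Subtype.ext (smul_inv_smul g.1 x.1) }
      map_one' := Equiv.ext fun x => Subtype.ext (one_smul _ x.1)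
      map_mul' := fun a b => Equiv.ext fun x => Subtype.ext (mul_smul a.1 b.1 x.1) }
  haveI : Finite X := (Set.finite_of_ncard_ne_zero (s := {y : leechLattice | Third y})
    (by rw [show ({y : leechLattice | Third y}).ncard = 2025 from h2025]; norm_num)).to_subtype
  haveI : Fintype X := Fintype.ofFinite X
  have hX : Fintype.card X = 2025 := by
    rw [← Nat.card_eq_fintype_card]
    exact (Nat.card_coe_set_eq _).trans h2025
  let a : X := ⟨diffVec, hda⟩
  let P := MulAction.stabilizer M24 ptA ⊓ MulAction.stabilizer M24 ptB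
  have Pfix : ∀ p : ↥P, ∀ k ∈ pairSet, (p.1.1 : Equiv.Perm GolayPt) k = k := by
    intro p k hk
    simp only [pairSet, Finset.mem_insert, Finset.mem_singleton] at hk
    rcases hk with rfl | rfl
    · exact p.2.1
    · exact p.2.2
  have mem : ∀ p : ↥P, permElt p.1.1 p.1.2 ∈ K ∧ permElt p.1.1 p.1.2 • diffVec = diffVec := fun p => by
    obtain ⟨f1, f2, f3⟩ := perm_fix p.1.2 (Pfix p)
    exact ⟨memK.2 ⟨f3, by rw [threeVec, co0_sub, f1, f3]⟩, f2⟩
  let ψ : ↥P →* ↥K := MonoidHom.mk' (fun p => ⟨_, (mem p).1⟩) fun p q => by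
    refine Subtype.ext (co0_ext fun w => funext fun i => ?_)
    show ((permElt (p * q).1.1 (p * q).1.2 • w : leechLattice) : GolayPt → ℤ) i =
      (((permElt p.1.1 p.1.2 * permElt q.1.1 q.1.2) • w : leechLattice) : GolayPt → ℤ) i
    rw [mul_smul, permElt_apply, permElt_apply, permElt_apply]
    show (w : GolayPt → ℤ) ((p.1.1 * q.1.1)⁻¹ i) = _
    rw [mul_inv_rev, Equiv.Perm.mul_apply]
  have hψinj : Function.Injective ψ := by
    intro p q e
    have e3 : permElt p.1.1 p.1.2 = permElt q.1.1 q.1.2 := congrArg Subtype.val e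
    refine Subtype.ext (Subtype.ext (Equiv.ext fun i => ?_))
    have h := congrFun (congrArg Subtype.val (congrArg (fun g : Co0 => g • eight i) e3)) (p.1.1 i)
    rw [permElt_apply, permElt_apply, eight_apply, eight_apply, Equiv.Perm.inv_def, Equiv.Perm.inv_def,
      Equiv.symm_apply_apply, if_pos rfl] at h
    split at h
    · rename_i hh
      exact (Equiv.symm_apply_eq _).1 hh
    · norm_num at h
  have hψsurj : ∀ g : ↥K, g.1 • diffVec = diffVec → ∃ p, ψ p = g := by
    intro g hg
    obtain ⟨g1, g2⟩ := memK.1 g.2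
    obtain ⟨σ, hσ, sA, sB, hgσ⟩ := base_split_stab (g := g.1) (by rw [e5, co0_add, g1, g2]) hg g1
    exact ⟨⟨⟨σ, hσ⟩, sA, sB⟩, Subtype.ext hgσ.symm⟩
  haveI hPs : IsSimpleGroup ↥P := Cfsg.Agent.S0379.result ptA ptB (by decide)
  obtain ⟨y0, hy0, hy0k, hy0c, -⟩ := third_suborbits (0, 330) (by simp)
  have hinj : Function.Injective φ := by
    rw [injective_iff_map_eq_one]
    intro g hg
    have hfix : ∀ x : X, g.1 • x.1 = x.1 := fun x => congrArg Subtype.val (DFunLike.congr_fun hg x)
    obtain ⟨p, rfl⟩ := hψsurj g (hfix a)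
    rcases IsSimpleGroup.eq_bot_or_eq_top_of_normal (φ.comp ψ).ker inferInstance with hb | ht
    · have : p ∈ (φ.comp ψ).ker := hg
      rw [hb, Subgroup.mem_bot] at this
      rw [this, map_one]
    · exfalso
      have hle : {y : leechLattice | Third y ∧ dt diffVec y = 0} ⊆ {y0} := by
        intro y ⟨hy, hk⟩
        obtain ⟨_, h0, h0k, -, ht0⟩ := third_suborbits (0, 330) (by simp)
        have hone : ∀ z z', Third z → dt diffVec z = 0 → ∀ g : Co0, g • fiveVec = fiveVec → g • diffVec = diffVec →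
            g • baseVec = baseVec → g • z = z' → z = z' := by
          intro z z' hz _ g g5 gd gb e
          obtain ⟨q, hq⟩ := hψsurj ⟨g, memK.2 ⟨gb, by rw [threeVec, co0_sub, g5, gb]⟩⟩ gd
          have h1 : (φ.comp ψ) q = 1 := by
            have : q ∈ (φ.comp ψ).ker := by rw [ht]; exact Subgroup.mem_top _
            exact this
          have h2 := congrArg Subtype.val (DFunLike.congr_fun h1 (⟨z, hz⟩ : X))
          rw [MonoidHom.comp_apply, hq] at h2
          exact (h2.symm.trans e : z = z')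
        obtain ⟨g, g5, gd, gb, e⟩ := ht0 y hy hk
        obtain ⟨g', g5', gd', gb', e'⟩ := ht0 y0 hy0 hy0k
        rw [Set.mem_singleton_iff, ← hone _ _ h0 h0k g g5 gd gb e, ← hone _ _ h0 h0k g' g5' gd' gb' e']
      have := Set.ncard_le_ncard hle
      rw [Set.ncard_singleton] at this
      change {y : leechLattice | Third y ∧ dt diffVec y = 0}.ncard = 330 at hy0c
      omega
  let S := MulAction.stabilizer φ.range a
  have hS : ∃ χ : ↥P →* ↥S, Function.Bijective χ := by
    have hS0 : ∀ p : ↥P, (⟨φ (ψ p), _, rfl⟩ : φ.range) ∈ S := fun p => Subtype.ext (mem p).2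
    refine ⟨MonoidHom.mk' (fun p => ⟨_, hS0 p⟩) fun p q => Subtype.ext (Subtype.ext ?_), ?_, ?_⟩
    · show φ (ψ (p * q)) = φ (ψ p) * φ (ψ q)
      rw [map_mul, map_mul]
    · intro p q e
      exact hψinj (hinj (congrArg (fun s : ↥S => (s.1 : Equiv.Perm X)) e))
    · rintro ⟨⟨_, g, rfl⟩, hga⟩
      obtain ⟨p, hp⟩ := hψsurj g (congrArg Subtype.val hga)
      exact ⟨p, Subtype.ext (Subtype.ext (congrArg φ hp))⟩
  obtain ⟨χ, hχ⟩ := hS
  let E := MulEquiv.ofBijective χ hχ
  haveI : IsSimpleGroup ↥S := E.symm.isSimpleGroup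
  have htrans : ∀ w : X, ∃ g ∈ φ.range, g a = w := by
    intro w
    obtain ⟨g, g1, g2, g3⟩ := htr diffVec w.1 hda w.2
    exact ⟨φ ⟨g, memK.2 ⟨g1, g2⟩⟩, ⟨_, rfl⟩, Subtype.ext g3⟩
  let cl : ℤ → Finset X := fun k => Finset.univ.filter fun w => dt diffVec w.1 = k
  have hcl : ∀ kn ∈ [((0 : ℤ), 330), (16, 462), (8, 1232)], (cl kn.1).card = kn.2 ∧
      ∀ p ∈ cl kn.1, ∀ q ∈ cl kn.1, ∃ g ∈ φ.range, g a = a ∧ g p = q := by
    intro kn hkn
    obtain ⟨z, hz, hzk, hc, ht⟩ := third_suborbits kn hkn
    refine ⟨?_, fun p hp q hq => ?_⟩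
    · rw [← hc, ← Set.ncard_coe_finset]
      refine Set.ncard_congr (fun w _ => w.1) (fun w hw => ⟨w.2, (Finset.mem_filter.1 hw).2⟩)
        (fun p q _ _ e => Subtype.ext e) fun y hy =>
          ⟨⟨y, hy.1⟩, Finset.mem_filter.2 ⟨Finset.mem_univ _, hy.2⟩, rfl⟩
    · obtain ⟨g, g5, gd, gb, e⟩ := ht p.1 p.2 (Finset.mem_filter.1 hp).2
      obtain ⟨t, t5, td, tb, e'⟩ := ht q.1 q.2 (Finset.mem_filter.1 hq).2
      have hm : ∀ {g : Co0}, g • fiveVec = fiveVec → g • baseVec = baseVec → g ∈ K := fun {g} a b =>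
        memK.2 ⟨b, by rw [threeVec, co0_sub, a, b]⟩
      refine ⟨φ ⟨t * g⁻¹, K.mul_mem (hm t5 tb) (K.inv_mem (hm g5 gb))⟩, ⟨_, rfl⟩, Subtype.ext ?_, Subtype.ext ?_⟩
      · show (t * g⁻¹) • diffVec = diffVec
        rw [mul_smul, inv_smul_eq_iff.2 gd.symm, td]
      · show (t * g⁻¹) • p.1 = q.1
        rw [← e, mul_smul, inv_smul_smul, e']
  have hsimple : IsSimpleGroup φ.range := by
    refine simple_2025 hX a φ.range htrans [cl 0, cl 16, cl 8] ?_ (fun w hw => ?_) (fun O hO => ?_) (fun O hO => ?_)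
    · simp [(hcl (0, 330) (by simp)).1, (hcl (16, 462) (by simp)).1, (hcl (8, 1232) (by simp)).1]
    · rcases third_cases w.2 with h | ⟨h, -⟩ | ⟨h, -⟩ | ⟨h, -⟩
      · exact absurd (Subtype.ext h) hw
      all_goals simp [cl, h]
    · simp only [List.mem_cons, List.not_mem_nil, or_false] at hO
      intro h
      rcases hO with rfl | rfl | rfl <;> (have := (Finset.mem_filter.1 h).2; rw [dt_self] at this; omega)
    · simp only [List.mem_cons, List.not_mem_nil, or_false] at hO
      rcases hO with rfl | rfl | rfl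
      exacts [(hcl (0, 330) (by simp)).2, (hcl (16, 462) (by simp)).2, (hcl (8, 1232) (by simp)).2]
  have hcard : Nat.card φ.range = 898128000 := by
    rw [← Subgroup.card_mul_index S, MulAction.index_stabilizer, ← Nat.card_congr E.toEquiv,
      Cfsg.Agent.S0378.result ptA ptB (by decide),
      show MulAction.orbit φ.range a = Set.univ from Set.eq_univ_of_forall fun w => by
        obtain ⟨g, hg, e⟩ := htrans w; exact ⟨⟨g, hg⟩, e⟩,
      Set.ncard_univ, Nat.card_eq_fintype_card, hX]
  let F := MonoidHom.ofInjective hinj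
  haveI := hsimple
  exact ⟨F.isSimpleGroup, (Nat.card_congr F.toEquiv).trans hcard⟩

theorem isMcL_stab {v w : leechLattice} (hv : nm v = 32) (hw : nm w = 32) (hvw : dt v w = -8) :
    IsMcL ↥(MulAction.stabilizer Co0 v ⊓ MulAction.stabilizer Co0 w) := by
  have n3 : nm threeVec = 32 := by
    rw [threeVec, nm_sub]
    have := base_is_split.2.1; have := five_check.2; have := baseVec_norm
    simp only [nm] at *
    simp only [fiveVec] at *
    omega
  have hb3 : dt baseVec threeVec = -8 := by
    rw [threeVec, dt_sub, dt_self, dt_comm baseVec fiveVec, base_is_split.2.1]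
    have := baseVec_norm
    simp only [nm] at *
    omega
  obtain ⟨t, t1, t2⟩ := trans_pair hv hw baseVec_norm n3 (Or.inr (Or.inl rfl)) hvw hb3
  have e : (MulAction.stabilizer Co0 v ⊓ MulAction.stabilizer Co0 w).map (MulAut.conj t).toMonoidHom =
      MulAction.stabilizer Co0 baseVec ⊓ MulAction.stabilizer Co0 threeVec := by
    rw [← t1, ← t2, MulAction.stabilizer_smul_eq_stabilizer_map_conj, MulAction.stabilizer_smul_eq_stabilizer_map_conj,
      Subgroup.map_inf _ _ _ (MulAut.conj t).injective]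
  let E := ((MulAction.stabilizer Co0 v ⊓ MulAction.stabilizer Co0 w).equivMapOfInjective
    (MulAut.conj t).toMonoidHom (MulAut.conj t).injective).trans (MulEquiv.subgroupCongr e)
  haveI := isMcL_base.1
  exact ⟨E.isSimpleGroup, (Nat.card_congr E.toEquiv).trans isMcL_base.2⟩

end Cfsg.Lib.Leech.Tri
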