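import Mathlib
import Cfsg.Prelude.Def_Sporadic
import Cfsg.Agent.Lib.Golay.Count
import Cfsg.Agent.Lib.Leech.Co2Module
import Cfsg.Agent.Lib.Leech.Tri.McLStab
import Cfsg.Agent.Lib.Leech.Tri.Co2Data

/-!
The stabiliser of a minimal vector is simple of order `42305421312000`.
-/

set_option autoImplicit false
set_option linter.unusedSimpArgs false

namespace Cfsg.Lib.Leech.Tri

open Cfsg Cfsg.Lib.Golay Cfsg.Lib.Leech
open scoped Pointwise

local notation "CC" => supports (golayCode : Set (GolayPt → ZMod 2))

/-- The 47104 partners of the base vector. -/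
def Eighth (w : leechLattice) : Prop := nm w = 32 ∧ dt baseVec w = -8

/-- The vectors with a single minus three. -/
def oddVec (p : GolayPt) : leechLattice := ⟨_, mem_of_check (odd_vec_check p).1⟩

theorem eighth_three : Eighth threeVec := by
  have e1 : dt fiveVec baseVec = 24 := base_is_split.2.1
  have nb : nm baseVec = 32 := baseVec_norm
  have n5 : nm fiveVec = 48 := five_check.2
  refine ⟨?_, ?_⟩
  · rw [threeVec, nm_sub]; omega
  · rw [threeVec, dt_sub, dt_self, dt_comm baseVec fiveVec]; omega

theorem eighth_trans {w w' : leechLattice} (hw : Eighth w) (hw' : Eighth w') :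
    ∃ g : baseStab, (g : Co0) • w = w' := by
  obtain ⟨g, g1, g2⟩ := trans_pair baseVec_norm hw.1 baseVec_norm hw'.1 (Or.inr (Or.inl rfl)) hw.2 hw'.2
  exact ⟨⟨g, g1⟩, g2⟩

theorem eighth_ncard : ({w : leechLattice | Eighth w}).ncard = 47104 :=
  (ncard_val fun w => sqNorm w = 32 ∧ dotInt (baseVec : GolayPt → ℤ) w = -8).trans
    (dot_counts baseVec baseVec_norm).2.1

/-- Two partners with the same product `16` with a third are moved to each other by its stabiliser. -/
theorem eighth_link {x y u : leechLattice} (hx : Eighth x) (hy : Eighth y) (hu : Eighth u)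
    (h1 : dt u x = 16) (h2 : dt u y = 16) : ∃ g : baseStab, (g : Co0) • u = u ∧ (g : Co0) • x = y := by
  obtain ⟨g, gu, gx, gb⟩ := trans_tri (a := u) (c := -x) (b := baseVec) (a' := u) (c' := -y) (b' := baseVec)
    hu.1 ((nm_neg x).trans hx.1) baseVec_norm hu.1 ((nm_neg y).trans hy.1) baseVec_norm (d := 8) (Or.inl rfl)
    (by show dt u (-x) = -16; rw [dt_neg]; omega) (by show dt u (-y) = -16; rw [dt_neg]; omega)
    ((dt_comm _ _).trans hu.2) ((dt_comm _ _).trans hu.2)
    (by show dt (-x) baseVec = 8; rw [dt_comm, dt_neg, hx.2]; norm_num)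
    (by show dt (-y) baseVec = 8; rw [dt_comm, dt_neg, hy.2]; norm_num)
  rw [co0_neg] at gx
  exact ⟨⟨g, gb⟩, gu, neg_injective gx⟩

theorem odd_self : oddVec ptB = threeVec := by
  refine Subtype.ext (funext fun i => ?_)
  revert i
  show ∀ i : GolayPt, (if i = ptB then (-3 : ℤ) else 1) =
    fiveFun i - ((if i = ptA then (4 : ℤ) else 0) + (if i = ptB then 4 else 0))
  decide +kernel

theorem perm_odd {σ : Equiv.Perm GolayPt} (hσ : σ ∈ M24) (p : GolayPt) :
    permElt σ hσ • oddVec p = oddVec (σ p) := by
  refine Subtype.ext (funext fun i => ?_)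
  rw [permElt_apply]
  show (if σ⁻¹ i = p then (-3 : ℤ) else 1) = if i = σ p then -3 else 1
  by_cases h : i = σ p
  · subst h; simp
  · rw [if_neg h, if_neg fun e => h (by rw [← e, Equiv.Perm.inv_def, Equiv.apply_symm_apply])]

theorem perm_flip {σ : Equiv.Perm GolayPt} (hσ : σ ∈ M24) {c : Finset GolayPt} (hc : c ∈ CC)
    (hc' : σ • c ∈ CC) (v : leechLattice) :
    permElt σ hσ • flipElt c hc • v = flipElt (σ • c) hc' • permElt σ hσ • v := by
  refine Subtype.ext (funext fun i => ?_)
  rw [permElt_apply, flipElt_apply, flipElt_apply, permElt_apply]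
  have : σ⁻¹ i ∈ c ↔ i ∈ σ • c := by
    rw [← Finset.inv_smul_mem_iff, Equiv.Perm.smul_def]
  simp only [this]

theorem flip_flip {c d : Finset GolayPt} (hc : c ∈ CC) (hd : d ∈ CC) :
    flipElt (symmDiff c d) (symmDiff_mem_supports hc hd) = flipElt c hc * flipElt d hd := by
  refine co0_ext fun v => funext fun i => ?_
  rw [mul_smul, flipElt_apply, flipElt_apply, flipElt_apply]
  by_cases h1 : i ∈ c <;> by_cases h2 : i ∈ d <;> simp [Finset.mem_symmDiff, h1, h2]

theorem flip_base {c : Finset GolayPt} (hc : c ∈ CC) (hA : ptA ∉ c) (hB : ptB ∉ c) :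
    flipElt c hc • baseVec = baseVec := by
  refine Subtype.ext (funext fun i => ?_)
  rw [flipElt_apply]
  by_cases h : i ∈ c
  · have h1 : i ≠ ptA := fun e => hA (e ▸ h)
    have h2 : i ≠ ptB := fun e => hB (e ▸ h)
    simp [baseVec, plusVec, h, h1, h2]
  · rw [if_neg h]

set_option maxHeartbeats 800000 in
set_option maxRecDepth 4000 in
/-- A normal subgroup containing every point stabiliser is transitive. -/
theorem co2_orbit_big (N : Subgroup baseStab) [N.Normal]
    (hfix : ∀ (g : baseStab) (w : leechLattice), Eighth w → (g : Co0) • w = w → g ∈ N) :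
    23553 ≤ {w : leechLattice | ∃ m ∈ N, ((m : baseStab) : Co0) • threeVec = w}.ncard := by
  classical
  set O := {w : leechLattice | ∃ m ∈ N, ((m : baseStab) : Co0) • threeVec = w} with hO
  have hsubX : O ⊆ {w : leechLattice | Eighth w} := by
    rintro _ ⟨m, -, rfl⟩
    refine ⟨(co0_norm _ _).trans eighth_three.1, ?_⟩
    simp only [dt]
    rw [← (MulAction.mem_stabilizer_iff.1 m.2 : (m : Co0) • baseVec = baseVec), co0_dot]
    exact eighth_three.2
  have hOfin : O.Finite :=
    (Set.finite_of_ncard_ne_zero (by rw [eighth_ncard]; norm_num)).subset hsubX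
  have h3O : threeVec ∈ O := ⟨1, N.one_mem, by simp⟩
  have hclosed : ∀ {w : leechLattice} (m : baseStab), m ∈ N → w ∈ O → (m : Co0) • w ∈ O := by
    rintro _ m hm ⟨n, hn, rfl⟩
    exact ⟨m * n, N.mul_mem hm hn, by rw [Subgroup.coe_mul, mul_smul]⟩
  -- sign changes
  have hflip : ∀ n ∈ avoidMasks, ∃ hc : toSet n ∈ CC, ∃ m ∈ N, (m : Co0) = flipElt (toSet n) hc := by
    intro n hn
    have hn' : n ∈ spanL (co2Basis.map Prod.fst) := by
      simpa [List.contains_iff_mem] using List.all_eq_true.1 avoid_span n hn
    revert n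
    intro n _ hn'
    refine (spanL_induction (P := fun k => inCode k = true ∧ ∃ hc : toSet k ∈ CC, ∃ m ∈ N,
      (m : Co0) = flipElt (toSet k) hc) _ ?_ ?_ n hn').2
    · refine ⟨inCode_zero, ?_, 1, N.one_mem, co0_ext fun v => funext fun i => ?_⟩
      · rw [mem_supports_iff, setNat_toSet (by norm_num)]; exact inCode_zero
      · rw [flipElt_apply, if_neg (by simp [mem_toSet])]; simp
    · rintro k hk a ⟨hai, hac, m, hm, hme⟩
      obtain ⟨q, hq, rfl⟩ := List.mem_map.1 hk
      obtain ⟨q1, q2, q3, q4, q5, q6, q7, q8⟩ := co2Basis_check q hq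
      have hqc : toSet q.1 ∈ CC := by rw [mem_supports_iff, setNat_toSet (lt_of_inCode q1)]; exact q1
      have hOc : toSet q.2 ∈ CC := by rw [mem_supports_iff, setNat_toSet (lt_of_inCode q2)]; exact q2
      have hA : ptA ∈ toSet q.2 := mem_toSet.2 q4
      have hB : ptB ∉ toSet q.2 := fun h => by rw [mem_toSet] at h; exact absurd (h.symm.trans q5) (by decide)
      let w : leechLattice := -⟨_, two_indicator_mem hOc⟩
      have hwv : ∀ i, (w : GolayPt → ℤ) i = if i ∈ toSet q.2 then -2 else 0 := fun i => by
        show -(if i ∈ toSet q.2 then (2 : ℤ) else 0) = _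
        split <;> rfl
      have hw : Eighth w := by
        refine ⟨?_, ?_⟩
        · show sqNorm _ = 32
          simp only [sqNorm, hwv]
          rw [show (∑ i, (if i ∈ toSet q.2 then (-2 : ℤ) else 0) ^ 2) = ∑ i, if i ∈ toSet q.2 then (4 : ℤ) else 0 from
            Finset.sum_congr rfl fun i _ => by split <;> norm_num]
          rw [← Finset.sum_filter, show (Finset.univ.filter fun i => i ∈ toSet q.2) = toSet q.2 from by ext; simp,
            Finset.sum_const, ← pop_setNat, setNat_toSet (lt_of_inCode q2), q6]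
          rfl
        · rw [dt_base, hwv, hwv, if_pos hA, if_neg hB]; norm_num
      have hb : flipElt (toSet q.1) hqc • baseVec = baseVec := flip_base hqc
        (fun h => by rw [mem_toSet] at h; exact absurd (h.symm.trans q7) (by decide))
        (fun h => by rw [mem_toSet] at h; exact absurd (h.symm.trans q8) (by decide))
      have hfw : flipElt (toSet q.1) hqc • w = w := by
        refine Subtype.ext (funext fun i => ?_)
        rw [flipElt_apply]
        by_cases h : i ∈ toSet q.1
        · rw [if_pos h, hwv, if_neg, neg_zero]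
          intro h'
          rw [mem_toSet] at h h'
          have e := congrArg (fun x => x.testBit (idx i)) q3
          simp [Nat.testBit_and, h, h'] at e
        · rw [if_neg h]
      refine ⟨inCode_xor hai q1, ?_, m * ⟨_, hb⟩, N.mul_mem hm (hfix ⟨_, hb⟩ w hw hfw), ?_⟩
      · rw [toSet_xor]; exact symmDiff_mem_supports hac hqc
      · rw [Subgroup.coe_mul, hme]
        simp only [toSet_xor]
        exact (flip_flip hac hqc).symm
  have havoid : ∀ {c : Finset GolayPt}, c ∈ CC → ptA ∉ c → ptB ∉ c → setNat c ∈ avoidMasks := by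
    intro c hc hA hB
    refine List.mem_filter.2 ⟨(inCode_iff _).1 ((mem_supports_iff c).1 hc), ?_⟩
    have hA' : ¬((setNat c).testBit (idx ptA) = true) := fun h => hA (by rw [← toSet_setNat c]; exact mem_toSet.2 h)
    have hB' : ¬((setNat c).testBit (idx ptB) = true) := fun h => hB (by rw [← toSet_setNat c]; exact mem_toSet.2 h)
    rw [Bool.not_eq_true] at hA' hB'
    show (!(setNat c).testBit (idx ptA) && !(setNat c).testBit (idx ptB)) = true
    rw [hA', hB']; rfl
  obtain ⟨hlists, c1, c2, c3, c4⟩ := co2Lists_check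
  have hc0 : toSet c0Mask ∈ CC := by rw [mem_supports_iff, setNat_toSet (lt_of_inCode c1)]; exact c1
  have hc0A : ptA ∈ toSet c0Mask := mem_toSet.2 c2
  have hc0B : ptB ∈ toSet c0Mask := mem_toSet.2 c3
  let ofL : ∀ l, CheckVec (ofList l) → leechLattice := fun l h => ⟨_, mem_of_check h⟩
  have hE : ∀ l (h : CheckVec (ofList l) ∧ sqNorm (ofList l) = 32 ∧ 4 * ofList l ptA + 4 * ofList l ptB = -8),
      Eighth (ofL l h.1) := fun l h => ⟨h.2.1, by rw [dt_base]; exact h.2.2⟩
  have linked : ∀ {u y : leechLattice}, Eighth u → Eighth y → dt u threeVec = 16 → dt u y = 16 → y ∈ O := by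
    intro u y hu hy h1 h2
    obtain ⟨g, g1, g2⟩ := eighth_link eighth_three hy hu h1 h2
    exact ⟨g, hfix g u hu g1, g2⟩
  -- the odd vectors
  let W : GolayPt → leechLattice := fun p => flipElt (toSet c0Mask) hc0 • oddVec p
  have hWodd : W (some 1) = ofL oddList (hlists _ (by simp)).1 := by
    refine Subtype.ext (funext fun i => ?_)
    show flipFun (toSet c0Mask) (fun i => if i = some 1 then (-3 : ℤ) else 1) i = ofList oddList i
    revert i
    decide +kernel
  have hW1 : W (some 1) ∈ O := by
    rw [hWodd]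
    refine linked (hE linkList1 (hlists _ (by simp))) (hE oddList (hlists _ (by simp))) ?_ ?_
    · show dotInt (ofList linkList1) ((threeVec : leechLattice) : GolayPt → ℤ) = 16
      decide +kernel
    · show dotInt (ofList linkList1) (ofList oddList) = 16
      decide +kernel
  have hT : ofL twoList (hlists _ (by simp)).1 ∈ O := by
    refine linked (hE linkList2 (hlists _ (by simp))) (hE twoList (hlists _ (by simp))) ?_ ?_
    · show dotInt (ofList linkList2) ((threeVec : leechLattice) : GolayPt → ℤ) = 16
      decide +kernel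
    · show dotInt (ofList linkList2) (ofList twoList) = 16
      decide +kernel
  have hAB : (ptA : GolayPt) ≠ ptB := by decide
  have hWp : ∀ p, p ≠ ptA → p ≠ ptB → W p ∈ O := by
    intro p hpA hpB
    obtain ⟨σ, hσ, hfixσ, hmove⟩ := exists_perm_sets pairSet {some 1} {p} (by decide)
      (Finset.disjoint_singleton_right.2 (by simp [pairSet]; exact ⟨hpA, hpB⟩)) (by simp) (by decide)
    have hσp : σ (some 1) = p := by
      rw [Finset.smul_finset_singleton] at hmove
      exact Finset.singleton_injective hmove
    obtain ⟨f1, f2, f3⟩ := perm_fix hσ hfixσ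
    let T : baseStab := ⟨permElt σ hσ, f3⟩
    have hTN : T ∈ N := hfix T threeVec eighth_three (by
      show permElt σ hσ • threeVec = threeVec
      rw [threeVec, co0_sub, f1, f3])
    have hσc : σ • toSet c0Mask ∈ CC := smul_mem_supports hσ hc0
    have hd := symmDiff_mem_supports hc0 hσc
    have hfA : ∀ k ∈ pairSet, k ∈ σ • toSet c0Mask := by
      intro k hk
      have hk' : k ∈ toSet c0Mask := by
        simp only [pairSet, Finset.mem_insert, Finset.mem_singleton] at hk
        rcases hk with rfl | rfl <;> assumption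
      have := Finset.smul_mem_smul_finset (a := σ) hk'
      rwa [Equiv.Perm.smul_def, hfixσ k hk] at this
    have hn := havoid hd
      (fun h => by simp [Finset.mem_symmDiff, hc0A, hfA ptA (by simp [pairSet, ptA])] at h)
      (fun h => by simp [Finset.mem_symmDiff, hc0B, hfA ptB (by simp [pairSet, ptB])] at h)
    obtain ⟨hc', m, hm, hme⟩ := hflip _ hn
    have e : W p = (m : Co0) • (T : Co0) • W (some 1) := by
      show flipElt _ hc0 • oddVec p = (m : Co0) • permElt σ hσ • flipElt _ hc0 • oddVec (some 1)
      rw [perm_flip hσ hc0 hσc, perm_odd hσ, hσp, hme]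
      refine Subtype.ext (funext fun i => ?_)
      rw [flipElt_apply, flipElt_apply, flipElt_apply]
      simp only [toSet_setNat, Finset.mem_symmDiff]
      by_cases h1 : i ∈ toSet c0Mask <;> by_cases h2 : i ∈ σ • toSet c0Mask <;> simp [h1, h2]
    rw [e]
    exact hclosed m hm (hclosed T hTN hW1)
  -- counting
  have hlt : ∀ n ∈ avoidMasks, n < 2 ^ 24 := fun n hn =>
    lt_of_inCode ((inCode_iff n).2 (List.mem_filter.1 hn).1)
  have hav : ∀ n ∈ avoidMasks, ptA ∉ toSet n ∧ ptB ∉ toSet n := fun n hn => by
    have h := (List.mem_filter.1 hn).2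
    rw [Bool.and_eq_true, Bool.not_eq_true', Bool.not_eq_true'] at h
    exact ⟨fun h' => Bool.false_ne_true (h.1.symm.trans (mem_toSet.1 h')),
      fun h' => Bool.false_ne_true (h.2.symm.trans (mem_toSet.1 h'))⟩
  obtain ⟨E, hEdef⟩ : ∃ E, E = avoidMasks.toFinset := ⟨_, rfl⟩
  have memE : ∀ {n}, n ∈ E → n ∈ avoidMasks := fun {n} h => List.mem_toFinset.1 (hEdef ▸ h)
  have hEc : E.card = 1024 := by
    rw [hEdef, List.toFinset_card_of_nodup (avoid_nodup spanL_nodup), avoid_card]
  let Q := ((Finset.univ.erase ptA).erase ptB : Finset GolayPt)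
  have hQ : Q.card = 22 := by decide +kernel
  let F1 : ℕ × GolayPt → (GolayPt → ℤ) := fun q i =>
    (if i ∈ toSet q.1 then -1 else 1) * ((if i ∈ toSet c0Mask then -1 else 1) * (if i = q.2 then -3 else 1))
  let F2 : ℕ → (GolayPt → ℤ) := fun n i =>
    (if i ∈ toSet n then -1 else 1) * (if i = ptB then -3 else 1)
  let P1 := (E ×ˢ Q).image F1
  let P2 := E.image F2
  have hbit : ∀ n ∈ E, ∀ n' ∈ E, (∀ i, i ∈ toSet n ↔ i ∈ toSet n') → n = n' := fun n hn n' hn' h => by
    rw [← setNat_toSet (hlt n (memE hn)), ← setNat_toSet (hlt n' (memE hn')), Finset.ext h]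
  have hP1 : P1.card = 22528 := by
    rw [Finset.card_image_of_injOn, Finset.card_product, hEc, hQ]
    intro a ha b hb e
    rw [Finset.mem_coe, Finset.mem_product] at ha hb
    have hp : a.2 = b.2 := by
      have h := congrFun e a.2
      by_contra hne
      simp only [F1, if_true, if_neg hne] at h
      split_ifs at h <;> norm_num at h
    refine Prod.ext (hbit _ ha.1 _ hb.1 fun i => ?_) hp
    have h := congrFun e i
    simp only [F1, hp] at h
    by_cases g1 : i ∈ toSet a.1 <;> by_cases g2 : i ∈ toSet b.1 <;> simp only [g1, g2, if_true, if_false] at h ⊢ <;> split_ifs at h <;> omega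
  have hP2 : P2.card = 1024 := by
    rw [Finset.card_image_of_injOn, hEc]
    intro a ha b hb e
    refine hbit _ ha _ hb fun i => ?_
    have h := congrFun e i
    simp only [F2] at h
    by_cases g1 : i ∈ toSet a <;> by_cases g2 : i ∈ toSet b <;> simp only [g1, g2, if_true, if_false] at h ⊢ <;> split_ifs at h <;> omega
  have hF1A : ∀ f ∈ P1, f ptA = -1 := by
    intro f hf
    obtain ⟨q, hq, rfl⟩ := Finset.mem_image.1 hf
    rw [Finset.mem_product] at hq
    have : ptA ≠ q.2 := fun e => by
      have := hq.2
      rw [← e] at this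
      simp [Q] at this
    simp [F1, (hav _ (memE hq.1)).1, hc0A, this]
  have hF2A : ∀ f ∈ P2, f ptA = 1 := by
    intro f hf
    obtain ⟨n, hn, rfl⟩ := Finset.mem_image.1 hf
    simp [F2, (hav _ (memE hn)).1, hAB]
  have htA : ofList twoList ptA = 0 := by decide
  let All := insert (ofList twoList) (P1 ∪ P2)
  have hAll : All.card = 23553 := by
    rw [Finset.card_insert_of_notMem, Finset.card_union_of_disjoint, hP1, hP2]
    · exact Finset.disjoint_left.2 fun f h h' => by have := hF1A f h; have := hF2A f h'; omega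
    · rw [Finset.mem_union]
      rintro (h | h)
      · have := hF1A _ h; omega
      · have := hF2A _ h; omega
  have hsub : (All : Set (GolayPt → ℤ)) ⊆ (fun w : leechLattice => (w : GolayPt → ℤ)) '' O := by
    intro f hf
    simp only [All, Finset.coe_insert, Finset.coe_union, Set.mem_insert_iff, Set.mem_union, Finset.mem_coe] at hf
    rcases hf with rfl | h | h
    · exact ⟨_, hT, rfl⟩
    · obtain ⟨q, hq, rfl⟩ := Finset.mem_image.1 h
      rw [Finset.mem_product] at hq
      obtain ⟨hc, m, hm, hme⟩ := hflip _ (memE hq.1)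
      have hq2 := hq.2
      simp only [Q, Finset.mem_erase] at hq2
      refine ⟨(m : Co0) • W q.2, hclosed m hm (hWp q.2 hq2.2.1 hq2.1), ?_⟩
      funext i
      show ((((m : Co0)) • W q.2 : leechLattice) : GolayPt → ℤ) i = F1 q i
      rw [hme, flipElt_apply, flipElt_apply]
      show _ = F1 q i
      simp only [oddVec, F1]
      split_ifs <;> norm_num
    · obtain ⟨n, hn, rfl⟩ := Finset.mem_image.1 h
      obtain ⟨hc, m, hm, hme⟩ := hflip _ (memE hn)
      refine ⟨(m : Co0) • threeVec, hclosed m hm h3O, ?_⟩
      funext i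
      show ((((m : Co0)) • threeVec : leechLattice) : GolayPt → ℤ) i = F2 n i
      rw [← odd_self, hme, flipElt_apply]
      simp only [oddVec, F2]
      split_ifs <;> norm_num
  have := Set.ncard_le_ncard hsub (hOfin.image _)
  rw [Set.ncard_coe_finset, hAll] at this
  exact this.trans (Set.ncard_image_le hOfin)

theorem co2_fix_unique {w : leechLattice} (hw : Eighth w)
    (h : ∀ g : Co0, g • baseVec = baseVec → g • threeVec = threeVec → g • w = w) : w = threeVec := by
  classical
  obtain ⟨hn, hb⟩ := hw
  rw [dt_base] at hb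
  have hconst : ∀ i, i ≠ ptA → i ≠ ptB → (w : GolayPt → ℤ) i = (w : GolayPt → ℤ) (some 1) := by
    intro i hiA hiB
    obtain ⟨σ, hσ, hfixσ, hmove⟩ := exists_perm_sets pairSet {some 1} {i} (by decide)
      (Finset.disjoint_singleton_right.2 (by simp [pairSet]; exact ⟨hiA, hiB⟩)) (by simp) (by decide)
    have hσp : σ (some 1) = i := by
      rw [Finset.smul_finset_singleton] at hmove
      exact Finset.singleton_injective hmove
    obtain ⟨f1, f2, f3⟩ := perm_fix hσ hfixσ
    have e := congrFun (congrArg Subtype.val (h _ f3 (by rw [threeVec, co0_sub, f1, f3]))) i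
    rw [permElt_apply] at e
    rw [← e, Equiv.Perm.inv_def, ← hσp, Equiv.symm_apply_apply]
  set a := (w : GolayPt → ℤ) ptA
  set b := (w : GolayPt → ℤ) ptB
  set c := (w : GolayPt → ℤ) (some 1)
  have hall : ∀ i, (w : GolayPt → ℤ) i = if i = ptA then a else if i = ptB then b else c := fun i => by
    split_ifs with h1 h2
    · rw [h1]
    · rw [h2]
    · exact hconst i h1 h2
  have hAB : (ptA : GolayPt) ≠ ptB := by decide
  have hsum : ∀ F : ℤ → GolayPt → ℤ, ∑ i, F ((w : GolayPt → ℤ) i) i = F a ptA + F b ptB +
      ∑ i ∈ (Finset.univ.erase ptA).erase ptB, F c i := by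
    intro F
    show _ = F ((w : GolayPt → ℤ) ptA) ptA + F ((w : GolayPt → ℤ) ptB) ptB + _
    rw [← Finset.add_sum_erase Finset.univ _ (Finset.mem_univ ptA),
      ← Finset.add_sum_erase (Finset.univ.erase ptA) _ (Finset.mem_erase.2 ⟨hAB.symm, Finset.mem_univ ptB⟩),
      ← add_assoc]
    refine congrArg (fun z => _ + z) (Finset.sum_congr rfl fun i hi => ?_)
    rw [Finset.mem_erase, Finset.mem_erase] at hi
    rw [hconst i hi.2.1 hi.1]
  have hQ : ((Finset.univ.erase ptA).erase ptB : Finset GolayPt).card = 22 := by decide +kernel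
  have hnorm : a ^ 2 + b ^ 2 + 22 * c ^ 2 = 32 := by
    have e : nm w = a ^ 2 + b ^ 2 + 22 * c ^ 2 := by
      show (∑ i, ((w : GolayPt → ℤ) i) ^ 2) = _
      rw [hsum fun x _ => x ^ 2, Finset.sum_const, hQ]
      simp
    omega
  have d1 : ∀ p, p = ptA ∨ p = ptB → (8 : ℤ) ∣ (if p = ptA then -3 else 1) * a + (if p = ptB then -3 else 1) * b + 22 * c := by
    intro p hp
    have e : dt (oddVec p) w = (if p = ptA then -3 else 1) * a + (if p = ptB then -3 else 1) * b + 22 * c := by
      show (∑ i, (if i = p then (-3 : ℤ) else 1) * (w : GolayPt → ℤ) i) = _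
      rw [hsum fun x i => (if i = p then (-3 : ℤ) else 1) * x, Finset.sum_congr rfl (g := fun _ => c) fun i hi => by
        rw [Finset.mem_erase, Finset.mem_erase] at hi
        rw [if_neg (by rintro rfl; rcases hp with rfl | rfl; exacts [hi.2.1 rfl, hi.1 rfl]), one_mul],
        Finset.sum_const, hQ]
      rcases hp with rfl | rfl <;> simp [hAB, hAB.symm]
    rw [← e]
    exact dot_dvd _ _
  have hb2 : a + b = -2 := by omega
  have hc1 : c * c ≤ 1 := by nlinarith
  have hcc : c = -1 ∨ c = 0 ∨ c = 1 := by
    have : -1 ≤ c ∧ c ≤ 1 := by constructor <;> nlinarith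
    omega
  have da := d1 ptA (Or.inl rfl)
  have db := d1 ptB (Or.inr rfl)
  simp only [if_true, hAB, hAB.symm, if_false] at da db
  have hbv : b = -2 - a := by omega
  rw [hbv] at hnorm da db
  have hab : a = -3 ∧ c = 1 ∨ a = 1 ∧ c = 1 := by
    rcases hcc with hc | hc | hc <;> rw [hc] at hnorm da db
    · have h1 : (a + 3) * (a - 1) = 0 := by ring_nf; ring_nf at hnorm; omega
      rcases mul_eq_zero.1 h1 with h | h <;> omega
    · exfalso
      have h1 : (a + 1) * (a + 1) = 15 := by ring_nf; ring_nf at hnorm; omega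
      have : -4 < a + 1 ∧ a + 1 < 4 := by constructor <;> nlinarith
      rcases (show a + 1 = -3 ∨ a + 1 = -2 ∨ a + 1 = -1 ∨ a + 1 = 0 ∨ a + 1 = 1 ∨ a + 1 = 2 ∨ a + 1 = 3 by omega)
        with h | h | h | h | h | h | h <;> rw [h] at h1 <;> norm_num at h1
    · have h1 : (a + 3) * (a - 1) = 0 := by ring_nf; ring_nf at hnorm; omega
      rcases mul_eq_zero.1 h1 with h | h
      · exact Or.inl ⟨by omega, hc⟩
      · exact Or.inr ⟨by omega, hc⟩
  have hodd : ∀ i, (w : GolayPt → ℤ) i = if i = (if a = 1 then ptB else ptA) then -3 else 1 := by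
    intro i
    rw [hall]
    rcases hab with ⟨h1, h2⟩ | ⟨h1, h2⟩ <;> rw [hbv, h1, h2] <;>
      by_cases e1 : i = ptA <;> by_cases e2 : i = ptB <;> simp_all
  rcases hab with ⟨h1, h2⟩ | ⟨h1, h2⟩
  · exfalso
    have e : w = threeVec - diffVec := by
      refine Subtype.ext (funext fun i => ?_)
      rw [hodd, if_neg (by omega : ¬ a = 1)]
      revert i
      show ∀ i : GolayPt, (if i = ptA then (-3 : ℤ) else 1) =
        (fiveFun i - ((if i = ptA then (4 : ℤ) else 0) + (if i = ptB then 4 else 0))) -
          ((if i = ptA then (4 : ℤ) else 0) - (if i = ptB then 4 else 0))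
      decide +kernel
    have n3 : nm threeVec = 32 := eighth_three.1
    obtain ⟨-, htr, -⟩ := thirds baseVec_norm n3 eighth_three.2
    obtain ⟨y0, hy0, k0, -, -⟩ := third_suborbits (0, 330) (by simp)
    obtain ⟨y6, hy6, k6, -, -⟩ := third_suborbits (16, 462) (by simp)
    obtain ⟨g, g1, g2, g3⟩ := htr y0 y6 hy0 hy6
    have hg := h g g1 g2
    have e1 : dt w y0 = dt w y6 := by
      calc dt w y0 = dt (g • w) (g • y0) := (co0_dot g w y0).symm
        _ = dt w y6 := by rw [hg, g3]
    rw [e, dt_comm _ y0, dt_comm _ y6, dt_sub, dt_sub, dt_comm y0 diffVec, dt_comm y6 diffVec, k0, k6,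
      dt_comm y0 threeVec, dt_comm y6 threeVec, hy0.2.2, hy6.2.2] at e1
    norm_num at e1
  · rw [← odd_self]
    refine Subtype.ext (funext fun i => ?_)
    rw [hodd, if_pos h1]
    rfl

set_option maxRecDepth 4000 in
theorem isCo2_base : IsCo2 ↥baseStab := by
  classical
  haveI : Finite Co0 := Nat.finite_of_card_ne_zero (by rw [card_Co0]; norm_num)
  set S := MulAction.stabilizer baseStab threeVec with hS
  let P := MulAction.stabilizer Co0 baseVec ⊓ MulAction.stabilizer Co0 threeVec
  let E : ↥S ≃* ↥P :=
    { toFun := fun g => ⟨g.1.1, g.1.2, g.2⟩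
      invFun := fun g => ⟨⟨g.1, g.2.1⟩, g.2.2⟩
      left_inv := fun g => rfl
      right_inv := fun g => rfl
      map_mul' := fun a b => rfl }
  haveI hPs : IsSimpleGroup ↥P := isMcL_base.1
  haveI : IsSimpleGroup ↥S := E.isSimpleGroup
  have hScard : Nat.card S = 898128000 := (Nat.card_congr E.toEquiv).trans isMcL_base.2
  have horb : MulAction.orbit baseStab threeVec = {w : leechLattice | Eighth w} := by
    ext w
    constructor
    · rintro ⟨g, rfl⟩
      show Eighth ((g : Co0) • threeVec)
      refine ⟨(co0_norm _ _).trans eighth_three.1, ?_⟩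
      simp only [dt]
      rw [← (MulAction.mem_stabilizer_iff.1 g.2 : (g : Co0) • baseVec = baseVec), co0_dot]
      exact eighth_three.2
    · intro hw
      obtain ⟨g, hg⟩ := eighth_trans eighth_three hw
      exact ⟨g, hg⟩
  have hcard : Nat.card baseStab = 42305421312000 := by
    rw [← Subgroup.card_mul_index S, MulAction.index_stabilizer, horb, eighth_ncard, hScard]
  haveI : Nontrivial baseStab := Finite.one_lt_card_iff_nontrivial.1 (by rw [hcard]; norm_num)
  refine ⟨⟨fun N hN => ?_⟩, hcard⟩
  haveI := hN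
  haveI : (N.comap S.subtype).Normal := hN.comap _
  rcases IsSimpleGroup.eq_bot_or_eq_top_of_normal (N.comap S.subtype) inferInstance with hb | ht
  · left
    have hinj : Function.Injective ((QuotientGroup.mk' N).comp S.subtype) := by
      rw [← MonoidHom.ker_eq_bot_iff, ← MonoidHom.comap_ker, QuotientGroup.ker_mk', hb]
    have hdvd : Nat.card N ∣ 47104 := by
      have h1 : Nat.card S ∣ Nat.card (baseStab ⧸ N) := Subgroup.card_dvd_of_injective _ hinj
      have h2 := Subgroup.card_eq_card_quotient_mul_card_subgroup N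
      obtain ⟨t, ht⟩ := h1
      rw [hcard, ht, hScard, mul_assoc] at h2
      exact ⟨t, by rw [mul_comm]; omega⟩
    have h2grp : ∀ R : Subgroup baseStab, R.Normal → (∃ k, Nat.card R = 2 ^ k) → R = ⊥ := by
      intro R hR ⟨k, hk⟩
      haveI := hR
      exact baseStab_two_trivial R (IsPGroup.of_card hk)
    by_cases h23 : 23 ∣ Nat.card N
    swap
    · refine h2grp N hN ?_
      have hcop : Nat.Coprime (Nat.card N) 23 := ((Nat.Prime.coprime_iff_not_dvd (by norm_num)).2 h23).symm
      have h3 : Nat.card N ∣ 2 ^ 11 := hcop.dvd_of_dvd_mul_right (by norm_num; exact hdvd)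
      obtain ⟨k, -, hk⟩ := (Nat.dvd_prime_pow Nat.prime_two).1 h3
      exact ⟨k, hk⟩
    haveI : Fact (Nat.Prime 23) := ⟨by norm_num⟩
    obtain ⟨d, hd⟩ := h23
    have hd2 : d ∣ 2 ^ 11 := by
      rw [hd] at hdvd
      exact Nat.dvd_of_mul_dvd_mul_left (by norm_num : 0 < 23) (by norm_num; exact hdvd)
    obtain ⟨j, hj, hdj⟩ := (Nat.dvd_prime_pow Nat.prime_two).1 hd2
    let R : Sylow 23 N := default
    have hR : Nat.card (R : Subgroup N) = 23 := by
      rw [R.card_eq_multiplicity, hd, hdj, Nat.factorization_mul (by norm_num) (by positivity),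
        Finsupp.add_apply, Nat.factorization_pow, Nat.prime_two.factorization,
        Nat.Prime.factorization_self (by norm_num)]
      simp
    have hidx : (R : Subgroup N).index = 2 ^ j := by
      have := (R : Subgroup N).index_mul_card
      rw [hR, hd, hdj] at this; omega
    have hmod := card_sylow_modEq_one 23 N
    have hdvd' := Sylow.card_dvd_index R
    rw [hidx] at hdvd'
    obtain ⟨i, hi, hni⟩ := (Nat.dvd_prime_pow Nat.prime_two).1 hdvd'
    by_cases h1 : Nat.card (Sylow 23 N) = 1
    · haveI : Subsingleton (Sylow 23 N) := (Nat.card_eq_one_iff_unique.1 h1).1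
      haveI : (R : Subgroup N).Characteristic := inferInstance
      set Q := (R : Subgroup N).map N.subtype with hQdef
      haveI hQn : Q.Normal := inferInstance
      have hQc : Nat.card Q = 23 := by
        rw [hQdef, Subgroup.card_map_of_injective N.subtype_injective, hR]
      haveI : IsCyclic Q := isCyclic_of_prime_card hQc
      exfalso
      let ρ : S →* MulAut Q := (MulAut.conjNormal (H := Q)).comp S.subtype
      rcases IsSimpleGroup.eq_bot_or_eq_top_of_normal ρ.ker inferInstance with hk | hk
      · have h := Nat.card_le_card_of_injective ρ ((MonoidHom.ker_eq_bot_iff ρ).1 hk)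
        rw [hScard] at h
        have h2 : Nat.card (MulAut Q) = Nat.card (ZMod (Nat.card Q))ˣ :=
          Nat.card_congr (IsCyclic.mulAutMulEquiv Q).toEquiv
        rw [h2, hQc, Nat.card_eq_fintype_card, ZMod.card_units_eq_totient, Nat.totient_prime (by norm_num)] at h
        omega
      · haveI : Nontrivial Q := Finite.one_lt_card_iff_nontrivial.1 (by rw [hQc]; norm_num)
        obtain ⟨q, hq⟩ := exists_ne (1 : Q)
        have hfixq : ((q : baseStab) : Co0) • threeVec = threeVec := by
          refine co2_fix_unique ⟨(co0_norm _ _).trans eighth_three.1, ?_⟩ fun g g1 g2 => ?_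
          · simp only [dt]
            rw [← (MulAction.mem_stabilizer_iff.1 (q : baseStab).2 : ((q : baseStab) : Co0) • baseVec = baseVec),
              co0_dot]
            exact eighth_three.2
          · let s : S := ⟨⟨g, g1⟩, g2⟩
            have hs : ρ s = 1 := by
              have : s ∈ ρ.ker := by rw [hk]; exact Subgroup.mem_top _
              exact this
            have h3 := congrArg (fun x : Q => ((x : baseStab) : Co0)) (DFunLike.congr_fun hs q)
            simp only [ρ, MonoidHom.comp_apply, MulAut.conjNormal_apply, MulAut.one_apply, Subgroup.coe_mul,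
              Subgroup.coe_inv] at h3
            have h4 : g * ((q : baseStab) : Co0) * g⁻¹ = ((q : baseStab) : Co0) := h3
            have h5 : g * ((q : baseStab) : Co0) = ((q : baseStab) : Co0) * g := mul_inv_eq_iff_eq_mul.1 h4
            rw [← mul_smul, h5, mul_smul, g2]
        obtain ⟨r, hr, hre⟩ := Subgroup.mem_map.1 q.2
        have hqN : (q : baseStab) ∈ N := by rw [← hre]; exact r.2
        have : (⟨(q : baseStab), hfixq⟩ : S) ∈ N.comap S.subtype := hqN
        rw [hb, Subgroup.mem_bot] at this
        exact hq (Subtype.ext (congrArg Subtype.val this : (q : baseStab) = 1))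
    · have hi11 : i = 11 := by
        unfold Nat.ModEq at hmod
        rw [hni] at hmod h1
        have : i ≤ 11 := le_trans hi hj
        interval_cases i <;> first | rfl | (exact absurd rfl h1) | (exfalso; norm_num at hmod; done)
      have hj11 : j = 11 := by omega
      subst hi11 hj11
      have hcardN : Nat.card N = 23 * 2 ^ 11 := by rw [hd, hdj]
      have hnorm : Subgroup.normalizer ((R : Subgroup N) : Set N) = (R : Subgroup N) := by
        refine (Subgroup.eq_of_le_of_card_ge Subgroup.le_normalizer ?_).symm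
        have := (Subgroup.normalizer ((R : Subgroup N) : Set N)).index_mul_card
        have hx : (Subgroup.normalizer ((R : Subgroup N) : Set N)).index = 2 ^ 11 := by
          rw [← hni]; exact (Sylow.card_eq_index_normalizer R).symm
        rw [hx, hcardN] at this
        omega
      haveI : IsCyclic (R : Subgroup N) := isCyclic_of_prime_card hR
      have hPc : Subgroup.normalizer ((R : Subgroup N) : Set N) ≤ Subgroup.centralizer ((R : Subgroup N) : Set N) := by
        rw [hnorm]
        exact fun x hx => Subgroup.mem_centralizer_iff.2 fun y hy =>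
          congrArg Subtype.val (IsCyclic.commGroup.mul_comm (⟨y, hy⟩ : (R : Subgroup N)) ⟨x, hx⟩)
      have hcompl := MonoidHom.ker_transferSylow_isComplement' R hPc
      set K := (MonoidHom.transferSylow R hPc).ker with hKdef
      have hK : Nat.card K = 2 ^ 11 := by
        have := hcompl.card_mul
        rw [hR, hcardN] at this; omega
      haveI : K.Characteristic := by
        refine Subgroup.characteristic_iff_le_comap.2 fun φ x hx => ?_
        rw [Subgroup.mem_comap, hKdef, MonoidHom.mem_ker]
        have h24' : (φ.toMonoidHom x) ^ (2 ^ 11) = 1 := by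
          have : (⟨x, hx⟩ : K) ^ Nat.card K = 1 := pow_card_eq_one'
          rw [hK] at this
          rw [← map_pow, show x ^ (2 ^ 11) = 1 from congrArg Subtype.val this, map_one]
        have t1 : (MonoidHom.transferSylow R hPc (φ.toMonoidHom x)) ^ (2 ^ 11) = 1 := by
          rw [← map_pow, h24', map_one]
        have t2 : (MonoidHom.transferSylow R hPc (φ.toMonoidHom x)) ^ 23 = 1 :=
          (congrArg _ hR.symm).trans pow_card_eq_one'
        exact orderOf_eq_one_iff.1 (Nat.eq_one_of_dvd_coprimes (by norm_num : Nat.Coprime (2 ^ 11) 23)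
          (orderOf_dvd_of_pow_eq_one t1) (orderOf_dvd_of_pow_eq_one t2))
      have h0 := h2grp (K.map N.subtype) inferInstance
        ⟨11, (Subgroup.card_map_of_injective N.subtype_injective).trans hK⟩
      rw [Subgroup.map_eq_bot_iff_of_injective _ N.subtype_injective] at h0
      rw [h0, Subgroup.card_bot] at hK
      norm_num at hK
  · right
    have hle : S ≤ N := fun g hg => by
      have : (⟨g, hg⟩ : S) ∈ N.comap S.subtype := by rw [ht]; exact Subgroup.mem_top _
      exact this
    have hfix : ∀ (g : baseStab) (w : leechLattice), Eighth w → (g : Co0) • w = w → g ∈ N := by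
      intro g w hw hg
      obtain ⟨t, ht'⟩ := eighth_trans eighth_three hw
      have hmem : t⁻¹ * g * t ∈ S := by
        show ((t⁻¹ * g * t : baseStab) : Co0) • threeVec = threeVec
        rw [Subgroup.coe_mul, Subgroup.coe_mul, Subgroup.coe_inv, mul_smul, mul_smul, ht', hg, ← ht', inv_smul_smul]
      have := hN.conj_mem _ (hle hmem) t
      rw [show t * (t⁻¹ * g * t) * t⁻¹ = g by group] at this
      exact this
    have hbig := co2_orbit_big N hfix
    have horbN : MulAction.orbit N threeVec = {w : leechLattice | ∃ m ∈ N, ((m : baseStab) : Co0) • threeVec = w} := by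
      ext w
      exact ⟨fun ⟨m, hm⟩ => ⟨m.1, m.2, hm⟩, fun ⟨m, hm, e⟩ => ⟨⟨m, hm⟩, e⟩⟩
    have hstabN : Nat.card (MulAction.stabilizer N threeVec) = 898128000 := by
      rw [← hScard]
      exact Nat.card_congr
        { toFun := fun g => ⟨g.1.1, g.2⟩
          invFun := fun g => ⟨⟨g.1, hle g.2⟩, g.2⟩
          left_inv := fun g => rfl
          right_inv := fun g => rfl }
    have hNc := Subgroup.card_mul_index (MulAction.stabilizer N threeVec)
    rw [hstabN, MulAction.index_stabilizer, horbN] at hNc
    have hd := Subgroup.card_subgroup_dvd_card N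
    rw [← hNc, hcard, show (42305421312000 : ℕ) = 898128000 * 47104 by norm_num] at hd
    have hk := Nat.dvd_of_mul_dvd_mul_left (by norm_num) hd
    set k := {w : leechLattice | ∃ m ∈ N, ((m : baseStab) : Co0) • threeVec = w}.ncard
    have hk2 : k = 47104 := by
      obtain ⟨t, ht2⟩ := hk
      rcases Nat.lt_or_ge t 2 with h | h
      · interval_cases t <;> omega
      · have : 2 * k ≤ k * t := by rw [mul_comm k t]; exact Nat.mul_le_mul_right k h
        omega
    refine Subgroup.eq_top_of_card_eq N ?_
    rw [← hNc, hk2, hcard]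

theorem isCo2_stab {v : leechLattice} (hv : nm v = 32) : IsCo2 ↥(MulAction.stabilizer Co0 v) := by
  obtain ⟨t, ht⟩ := trans32 hv baseVec_norm
  have e : (MulAction.stabilizer Co0 v).map (MulAut.conj t).toMonoidHom = baseStab := by
    show _ = MulAction.stabilizer Co0 baseVec
    rw [← ht, MulAction.stabilizer_smul_eq_stabilizer_map_conj]
  let E := ((MulAction.stabilizer Co0 v).equivMapOfInjective
    (MulAut.conj t).toMonoidHom (MulAut.conj t).injective).trans (MulEquiv.subgroupCongr e)
  haveI := isCo2_base.1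
  exact ⟨E.isSimpleGroup, (Nat.card_congr E.toEquiv).trans isCo2_base.2⟩

end Cfsg.Lib.Leech.Tri
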