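import Mathlib
import Cfsg.Prelude.Def_Sporadic
import Cfsg.Prelude.Def_Spor_Conway
import Cfsg.Agent.Lib.Leech.Global
import Cfsg.Agent.Lib.Leech.Tri.Co2Stab

/-!
The automorphism group of the lattice modulo its centre is simple.
-/

set_option autoImplicit false
set_option linter.unusedSimpArgs false

namespace Cfsg.Lib.Leech.Tri

open Cfsg Cfsg.Lib.Golay Cfsg.Lib.Leech
open scoped Pointwise

/-- The possible products of two independent minimal vectors. -/
def dotVals : Finset ℤ := {-16, -8, 0, 8, 16}

theorem dot_vals {v w : leechLattice} (hv : nm v = 32) (hw : nm w = 32) (h1 : w ≠ v) (h2 : w ≠ -v) :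
    dt v w ∈ dotVals := by
  have hpos : ∀ x : leechLattice, x ≠ 0 → 32 ≤ nm x := fun x hx =>
    min_norm x.2 fun e => hx (Subtype.ext e)
  have a1 := hpos (w - v) (sub_ne_zero.2 h1)
  have a2 := hpos (w + v) (fun e => h2 (eq_neg_of_add_eq_zero_left e))
  rw [nm_sub, dt_comm w v] at a1
  rw [nm_add, dt_comm w v] at a2
  obtain ⟨k, hk⟩ := dot_dvd v w
  have hk' : dt v w = 8 * k := hk
  simp only [dotVals, Finset.mem_insert, Finset.mem_singleton]
  omega

/-- The number of minimal vectors with given product. -/
def classSize (d : ℤ) : ℕ :=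
  if d = 0 then 93150 else if d = 8 ∨ d = -8 then 47104 else 4600

theorem class_ncard {v : leechLattice} (hv : nm v = 32) {d : ℤ} (hd : d ∈ dotVals) :
    {w : leechLattice | nm w = 32 ∧ dt v w = d}.ncard = classSize d := by
  obtain ⟨c1, c2, c3⟩ := dot_counts v hv
  have hneg : ∀ e : ℤ, {w : leechLattice | nm w = 32 ∧ dt v w = -e}.ncard =
      {w : leechLattice | nm w = 32 ∧ dt v w = e}.ncard := by
    intro e
    refine Set.ncard_congr (fun w _ => -w) (fun w hw => ⟨(nm_neg w).trans hw.1, ?_⟩)
      (fun a b _ _ h => neg_injective h) fun w hw => ⟨-w, ⟨(nm_neg w).trans hw.1, ?_⟩, neg_neg w⟩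
    · rw [dt_neg, hw.2, neg_neg]
    · rw [dt_neg, hw.2]
  have hval : ∀ e : ℤ, {w : leechLattice | nm w = 32 ∧ dt v w = e}.ncard =
      {w : GolayPt → ℤ | w ∈ leechLattice ∧ sqNorm w = 32 ∧ dotInt (v : GolayPt → ℤ) w = e}.ncard := fun e =>
    ncard_val fun w => sqNorm w = 32 ∧ dotInt (v : GolayPt → ℤ) w = e
  simp only [dotVals, Finset.mem_insert, Finset.mem_singleton] at hd
  rcases hd with rfl | rfl | rfl | rfl | rfl
  · rw [hval, c1]; rfl
  · rw [hval, c2]; rfl
  · rw [hval, c3]; rfl
  · rw [← hneg, hval, c2]; rfl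
  · rw [← hneg, hval, c1]; rfl

theorem class_trans {v w w' : leechLattice} (hv : nm v = 32) (hw : nm w = 32) (hw' : nm w' = 32) {d : ℤ}
    (hd : d ∈ dotVals) (h : dt v w = d) (h' : dt v w' = d) : ∃ g : Co0, g • v = v ∧ g • w = w' := by
  simp only [dotVals, Finset.mem_insert, Finset.mem_singleton] at hd
  rcases hd with rfl | rfl | rfl | rfl | rfl
  · exact trans_pair hv hw hv hw' (Or.inl rfl) h h'
  · exact trans_pair hv hw hv hw' (Or.inr (Or.inl rfl)) h h'
  · exact trans_pair hv hw hv hw' (Or.inr (Or.inr rfl)) h h'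
  · obtain ⟨g, g1, g2⟩ := trans_pair hv ((nm_neg w).trans hw) hv ((nm_neg w').trans hw') (Or.inr (Or.inl rfl))
      (show dt v (-w) = -8 by rw [dt_neg, h]) (show dt v (-w') = -8 by rw [dt_neg, h'])
    rw [co0_neg] at g2
    exact ⟨g, g1, neg_injective g2⟩
  · obtain ⟨g, g1, g2⟩ := trans_pair hv ((nm_neg w).trans hw) hv ((nm_neg w').trans hw') (Or.inl rfl)
      (show dt v (-w) = -16 by rw [dt_neg, h]) (show dt v (-w') = -16 by rw [dt_neg, h'])
    rw [co0_neg] at g2
    exact ⟨g, g1, neg_injective g2⟩

/-- A vector with equal products with the two base orthogonal vectors. -/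
def hubList : List ℤ := (List.range 24).map fun i => if (8999616 : ℕ).testBit i then -2 else 0

theorem hub_check : CheckVec (ofList hubList) ∧ sqNorm (ofList hubList) = 32 ∧
    4 * ofList hubList ptA + 4 * ofList hubList ptB = -8 ∧
    4 * ofList hubList ptA - 4 * ofList hubList ptB = -8 := by decide +kernel

/-- A vector orthogonal to the chosen representatives. -/
def midVec : leechLattice := minusVec (some 2) (some 3)

set_option maxRecDepth 4000 in
theorem co0_normal_cases (N : Subgroup Co0) [hN : N.Normal] (hz : Subgroup.center Co0 ≤ N) :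
    N = Subgroup.center Co0 ∨ N = ⊤ := by
  classical
  haveI : Finite Co0 := Nat.finite_of_card_ne_zero (by rw [card_Co0]; norm_num)
  haveI : IsSimpleGroup ↥baseStab := isCo2_base.1
  have nb : nm baseVec = 32 := baseVec_norm
  haveI : (N.comap baseStab.subtype).Normal := hN.comap _
  have hnz : negElt ∈ N := hz (by rw [← SetLike.mem_coe, center_eq]; simp)
  rcases IsSimpleGroup.eq_bot_or_eq_top_of_normal (N.comap baseStab.subtype) inferInstance with hb | ht
  · left
    have hfree : ∀ n ∈ N, n • baseVec = baseVec → n = 1 := fun n hn h => by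
      have h1 : (⟨n, h⟩ : baseStab) ∈ N.comap baseStab.subtype := hn
      rw [hb, Subgroup.mem_bot] at h1
      exact congrArg Subtype.val h1
    have hinj : ∀ n ∈ N, ∀ m ∈ N, n • baseVec = m • baseVec → n = m := fun n hn m hm h => by
      have := hfree (m⁻¹ * n) (N.mul_mem (N.inv_mem hm) hn) (by rw [mul_smul, h, inv_smul_smul])
      exact (inv_mul_eq_one.1 this).symm
    have hpm : ∀ n ∈ N, n • baseVec = baseVec ∨ n • baseVec = -baseVec → n = 1 ∨ n = negElt := by
      rintro n hn (h | h)
      · exact Or.inl (hfree n hn h)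
      · exact Or.inr (hinj n hn _ hnz (by rw [h, negElt_apply]))
    have hdvd : Nat.card N ∣ 196560 := by
      have hi : Function.Injective ((QuotientGroup.mk' N).comp baseStab.subtype) := by
        rw [← MonoidHom.ker_eq_bot_iff, ← MonoidHom.comap_ker, QuotientGroup.ker_mk', hb]
      obtain ⟨t, ht⟩ := Subgroup.card_dvd_of_injective _ hi
      have h2 := Subgroup.card_eq_card_quotient_mul_card_subgroup N
      rw [card_Co0, ht, isCo2_base.2, mul_assoc] at h2
      exact ⟨t, by rw [mul_comm]; omega⟩
    -- conjugation inside the classes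
    have hconj : ∀ n ∈ N, ∀ w : leechLattice, nm w = 32 → dt baseVec (n • baseVec) = dt baseVec w →
        dt baseVec w ∈ dotVals → ∃ n' ∈ N, n' • baseVec = w ∧ orderOf n' = orderOf n := by
      intro n hn w hw hd hdv
      obtain ⟨g, g1, g2⟩ := class_trans nb ((co0_norm n baseVec).trans nb) hw hdv hd rfl
      refine ⟨MulAut.conj g n, hN.conj_mem n hn g, ?_, MulEquiv.orderOf_eq _ n⟩
      show (g * n * g⁻¹) • baseVec = w
      rw [mul_smul, mul_smul, inv_smul_eq_iff.2 g1.symm, g2]
    have hc : ∀ n ∈ N, n = 1 ∨ n = negElt := by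
      by_contra hcon
      push Not at hcon
      obtain ⟨n0, hn0, n01, n0z⟩ := hcon
      haveI : Fintype N := Fintype.ofFinite N
      set O : Finset leechLattice := (Finset.univ : Finset N).image fun n : N => (n : Co0) • baseVec with hO
      have hOc : O.card = Nat.card N := by
        rw [hO, Finset.card_image_of_injective _ (fun (a b : N) h => Subtype.ext (hinj _ a.2 _ b.2 h)), Finset.card_univ,
          Nat.card_eq_fintype_card]
      have memO : ∀ {w}, w ∈ O ↔ ∃ n ∈ N, n • baseVec = w := fun {w} => by simp [hO]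
      set A := dotVals.filter fun d => ∃ w ∈ O, dt baseVec w = d with hA
      have hfib : ∀ d ∈ dotVals, (O.filter fun w => dt baseVec w = d).card = if d ∈ A then classSize d else 0 := by
        intro d hd
        split_ifs with h
        · obtain ⟨-, w, hw, hwd⟩ := Finset.mem_filter.1 h
          obtain ⟨n, hn, rfl⟩ := memO.1 hw
          rw [← class_ncard nb hd, ← Set.ncard_coe_finset]
          congr 1
          ext x
          simp only [Finset.coe_filter, Set.mem_ofPred_eq]
          refine ⟨fun ⟨hx, hxd⟩ => ⟨?_, hxd⟩, fun ⟨hx, hxd⟩ => ⟨?_, hxd⟩⟩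
          · obtain ⟨m, -, rfl⟩ := memO.1 hx
            exact (co0_norm m baseVec).trans nb
          · obtain ⟨n', hn', e, -⟩ := hconj n hn x hx (hwd.trans hxd.symm) (hxd ▸ hd)
            exact memO.2 ⟨n', hn', e⟩
        · rw [Finset.card_eq_zero, Finset.filter_eq_empty_iff]
          exact fun w hw hwd => h (Finset.mem_filter.2 ⟨hd, w, hw, hwd⟩)
      have hne : baseVec ≠ -baseVec := fun e => by
        have := congrArg (fun x : leechLattice => dt baseVec x) e
        simp only [dt_neg, dt_self] at this
        omega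
      have hsplit : O = ({baseVec, -baseVec} : Finset leechLattice) ∪
          dotVals.biUnion fun d => O.filter fun w => dt baseVec w = d := by
        ext w
        simp only [Finset.mem_union, Finset.mem_insert, Finset.mem_singleton, Finset.mem_biUnion, Finset.mem_filter]
        refine ⟨fun hw => ?_, ?_⟩
        · by_cases h1 : w = baseVec
          · exact Or.inl (Or.inl h1)
          by_cases h2 : w = -baseVec
          · exact Or.inl (Or.inr h2)
          obtain ⟨n, -, rfl⟩ := memO.1 hw
          exact Or.inr ⟨_, dot_vals nb ((co0_norm n baseVec).trans nb) h1 h2, hw, rfl⟩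
        · rintro ((rfl | rfl) | ⟨_, -, h, -⟩)
          · exact memO.2 ⟨1, N.one_mem, one_smul _ _⟩
          · exact memO.2 ⟨negElt, hnz, negElt_apply _⟩
          · exact h
      have hsum : Nat.card N = 2 + ∑ d ∈ dotVals, if d ∈ A then classSize d else 0 := by
        rw [← hOc, hsplit, Finset.card_union_of_disjoint, Finset.card_pair hne, Finset.card_biUnion,
          Finset.sum_congr rfl hfib]
        · intro a _ b _ hab
          exact Finset.disjoint_left.2 fun w h h' =>
            hab ((Finset.mem_filter.1 h).2.symm.trans (Finset.mem_filter.1 h').2)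
        · refine Finset.disjoint_left.2 fun w h h' => ?_
          obtain ⟨d, hd, hw⟩ := Finset.mem_biUnion.1 h'
          have hwd := (Finset.mem_filter.1 hw).2
          simp only [dotVals, Finset.mem_insert, Finset.mem_singleton] at hd h
          rcases h with rfl | rfl
          · rw [dt_self] at hwd; omega
          · rw [dt_neg, dt_self] at hwd; omega
      have hall : ∀ A ∈ dotVals.powerset, (2 + ∑ d ∈ dotVals, if d ∈ A then classSize d else 0) ∣ 196560 →
          A = ∅ ∨ A = dotVals := by decide +kernel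
      rcases hall A (Finset.mem_powerset.2 (Finset.filter_subset _ _)) (hsum ▸ hdvd) with h | h
      · have hn0v : n0 • baseVec ≠ baseVec ∧ n0 • baseVec ≠ -baseVec :=
          ⟨fun e => n01 (hfree n0 hn0 e), fun e => n0z (hinj n0 hn0 _ hnz (by rw [e, negElt_apply]))⟩
        have : dt baseVec (n0 • baseVec) ∈ A :=
          Finset.mem_filter.2 ⟨dot_vals nb ((co0_norm n0 baseVec).trans nb) hn0v.1 hn0v.2, _,
            memO.2 ⟨n0, hn0, rfl⟩, rfl⟩
        rw [h] at this
        simp at this
      · have hcard : Nat.card N = 196560 := by rw [hsum, h]; decide +kernel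
        have hz2 : orderOf negElt = 2 :=
          orderOf_eq_prime (p := 2) (by
            rw [pow_two]; exact co0_ext fun v => by rw [mul_smul, negElt_apply, negElt_apply, neg_neg, one_smul])
            negElt_ne_one
        have hex : ∀ m ∈ ({3, 5, 7, 13, 6, 10} : Finset ℕ), ∃ n ∈ N, orderOf n = m := by
          have hp : ∀ p : ℕ, p.Prime → p ∣ 196560 → ∃ n ∈ N, orderOf n = p := fun p hp hd => by
            haveI : Fact p.Prime := ⟨hp⟩
            obtain ⟨x, hx⟩ := exists_prime_orderOf_dvd_card' (G := N) p (by rw [hcard]; exact hd)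
            exact ⟨x, x.2, by rw [Subgroup.orderOf_coe, hx]⟩
          have hmul : ∀ p : ℕ, p.Prime → p ∣ 196560 → p ≠ 2 → ∃ n ∈ N, orderOf n = 2 * p := fun p hp' hd hp2 => by
            obtain ⟨x, hx, hxo⟩ := hp p hp' hd
            refine ⟨negElt * x, N.mul_mem hnz hx, ?_⟩
            rw [Commute.orderOf_mul_eq_mul_orderOf_of_coprime (negElt_central x), hz2, hxo]
            rw [hz2, hxo]
            exact (Nat.coprime_primes Nat.prime_two hp').2 (Ne.symm hp2)
          intro m hm
          simp only [Finset.mem_insert, Finset.mem_singleton] at hm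
          rcases hm with rfl | rfl | rfl | rfl | rfl | rfl
          exacts [hp _ (by norm_num) (by norm_num), hp _ (by norm_num) (by norm_num), hp _ (by norm_num) (by norm_num),
            hp _ (by norm_num) (by norm_num), hmul 3 (by norm_num) (by norm_num) (by norm_num),
            hmul 5 (by norm_num) (by norm_num) (by norm_num)]
        choose! f hf hfo using hex
        have hmap : ∀ m ∈ ({3, 5, 7, 13, 6, 10} : Finset ℕ), dt baseVec (f m • baseVec) ∈ dotVals := by
          intro m hm
          have hm' := hfo m hm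
          refine dot_vals nb ((co0_norm _ baseVec).trans nb) (fun e => ?_) (fun e => ?_)
          · rw [hfree _ (hf m hm) e, orderOf_one] at hm'
            subst hm'; simp at hm
          · rw [hinj _ (hf m hm) _ hnz (by rw [e, negElt_apply]), hz2] at hm'
            subst hm'; simp at hm
        obtain ⟨a, ha, b, hb', hab, e⟩ := Finset.exists_ne_map_eq_of_card_lt_of_maps_to
          (t := dotVals) (f := fun m => dt baseVec (f m • baseVec)) (by decide) hmap
        obtain ⟨n', hn', e', ho⟩ := hconj _ (hf a ha) (f b • baseVec) ((co0_norm _ baseVec).trans nb) e (hmap b hb')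
        rw [hinj _ hn' _ (hf b hb') e', hfo a ha, hfo b hb'] at ho
        exact hab ho.symm
    refine le_antisymm (fun n hn => ?_) hz
    rw [← SetLike.mem_coe, center_eq]
    simpa using hc n hn
  · right
    have hbase : ∀ g : Co0, g • baseVec = baseVec → g ∈ N := fun g hg => by
      have : (⟨g, hg⟩ : baseStab) ∈ N.comap baseStab.subtype := by rw [ht]; exact Subgroup.mem_top _
      exact this
    have hfix : ∀ (g : Co0) (w : leechLattice), nm w = 32 → g • w = w → g ∈ N := fun g w hw hg => by
      obtain ⟨t, ht'⟩ := trans32 nb hw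
      have := hN.conj_mem _ (hbase (t⁻¹ * g * t) (by rw [mul_smul, mul_smul, ht', hg, ← ht', inv_smul_smul])) t
      rw [show t * (t⁻¹ * g * t) * t⁻¹ = g by group] at this
      exact this
    have hd0 : nm diffVec = 32 ∧ dt baseVec diffVec = 0 :=
      ⟨minusVec_norm _ _ (by decide), by rw [dt_comm]; exact base_is_split.2.2⟩
    let u : leechLattice := ⟨_, mem_of_check hub_check.1⟩
    obtain ⟨g0, g0u, g0b⟩ := trans_pair (a := u) (a' := u) hub_check.2.1 nb hub_check.2.1 hd0.1
      (Or.inr (Or.inl rfl)) (show dt u baseVec = -8 by rw [dt_comm, dt_base]; exact hub_check.2.2.1)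
      (show dt u diffVec = -8 by rw [dt_comm, dt_diff]; exact hub_check.2.2.2)
    have hg0 : g0 ∈ N := hfix g0 u hub_check.2.1 g0u
    have step : ∀ a b : leechLattice, nm a = 32 → nm b = 32 → dt a b = 0 → (∃ n ∈ N, n • baseVec = a) →
        ∃ n ∈ N, n • baseVec = b := by
      rintro a b ha hb hab ⟨m, hm, hma⟩
      obtain ⟨h, h1, h2⟩ := trans_pair nb hd0.1 ha hb (Or.inr (Or.inr rfl)) hd0.2 hab
      refine ⟨h * g0 * h⁻¹ * m, N.mul_mem (hN.conj_mem g0 hg0 h) hm, ?_⟩
      rw [mul_smul, hma, mul_smul, mul_smul, ← h1, inv_smul_smul, g0b, h2]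
    have hreach : ∀ w : leechLattice, nm w = 32 → ∃ n ∈ N, n • baseVec = w := by
      intro w hw
      by_cases h1 : w = baseVec
      · exact ⟨1, N.one_mem, by rw [one_smul, h1]⟩
      by_cases h2 : w = -baseVec
      · exact ⟨negElt, hnz, by rw [negElt_apply, h2]⟩
      have hy : nm midVec = 32 ∧ dt baseVec midVec = 0 ∧ dt cVec midVec = 0 ∧ dt threeVec midVec = 0 ∧
          dt diffVec midVec = 0 := by
        refine ⟨minusVec_norm _ _ (by decide), ?_⟩
        show dotInt _ _ = 0 ∧ dotInt _ _ = 0 ∧ dotInt _ _ = 0 ∧ dotInt _ _ = 0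
        decide +kernel
      have hex : ∀ d ∈ dotVals, ∃ x : leechLattice, nm x = 32 ∧ dt baseVec x = d ∧ dt x midVec = 0 := by
        intro d hd
        simp only [dotVals, Finset.mem_insert, Finset.mem_singleton] at hd
        rcases hd with rfl | rfl | rfl | rfl | rfl
        · exact ⟨cVec, cVec_norm, base_dot_cVec, hy.2.2.1⟩
        · exact ⟨threeVec, eighth_three.1, eighth_three.2, hy.2.2.2.1⟩
        · exact ⟨diffVec, hd0.1, hd0.2, hy.2.2.2.2⟩
        · exact ⟨-threeVec, (nm_neg _).trans eighth_three.1, by rw [dt_neg, eighth_three.2]; norm_num,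
            by rw [dt_comm, dt_neg, dt_comm, hy.2.2.2.1]; norm_num⟩
        · exact ⟨-cVec, (nm_neg _).trans cVec_norm,
            by rw [dt_neg, show dt baseVec cVec = -16 from base_dot_cVec]; norm_num,
            by rw [dt_comm, dt_neg, dt_comm, hy.2.2.1]; norm_num⟩
      have hd := dot_vals nb hw h1 h2
      obtain ⟨x, hx, hxd, hxy⟩ := hex _ hd
      obtain ⟨g, g1, g2⟩ := class_trans nb hx hw hd hxd rfl
      have ny : nm (g • midVec) = 32 := (co0_norm g midVec).trans hy.1
      have d1 : dt baseVec (g • midVec) = 0 := by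
        simp only [dt]; rw [← g1, co0_dot]; exact hy.2.1
      have d2 : dt (g • midVec) w = 0 := by
        simp only [dt]; rw [← g2, co0_dot]; exact (dt_comm _ _).trans hxy
      exact step _ _ ny hw d2 (step _ _ nb ny d1 ⟨1, N.one_mem, one_smul _ _⟩)
    rw [eq_top_iff]
    intro g _
    obtain ⟨n, hn, e⟩ := hreach (g • baseVec) ((co0_norm g baseVec).trans nb)
    have := N.mul_mem hn (hbase (n⁻¹ * g) (by rw [mul_smul, ← e, inv_smul_smul]))
    rwa [mul_inv_cancel_left] at this

theorem isCo1_quot : IsCo1 (Co0 ⧸ Subgroup.center Co0) := by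
  haveI : Finite Co0 := Nat.finite_of_card_ne_zero (by rw [card_Co0]; norm_num)
  have hcard : Nat.card (Co0 ⧸ Subgroup.center Co0) = 4157776806543360000 := by
    have := Subgroup.card_eq_card_quotient_mul_card_subgroup (Subgroup.center Co0)
    rw [card_Co0, card_center] at this
    omega
  haveI : Nontrivial (Co0 ⧸ Subgroup.center Co0) :=
    Finite.one_lt_card_iff_nontrivial.1 (by rw [hcard]; norm_num)
  refine ⟨⟨fun M hM => ?_⟩, hcard⟩
  haveI := hM
  haveI : (M.comap (QuotientGroup.mk' (Subgroup.center Co0))).Normal := hM.comap _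
  have hsurj := QuotientGroup.mk'_surjective (Subgroup.center Co0)
  have hle : Subgroup.center Co0 ≤ M.comap (QuotientGroup.mk' (Subgroup.center Co0)) := fun x hx => by
    rw [Subgroup.mem_comap, QuotientGroup.mk'_apply, (QuotientGroup.eq_one_iff x).2 hx]
    exact M.one_mem
  rcases co0_normal_cases _ hle with h | h
  · left
    rw [← Subgroup.map_comap_eq_self_of_surjective hsurj M, h, Subgroup.map_eq_bot_iff, QuotientGroup.ker_mk']
  · right
    rw [← Subgroup.map_comap_eq_self_of_surjective hsurj M, h, Subgroup.map_top_of_surjective _ hsurj]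

end Cfsg.Lib.Leech.Tri
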