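import Mathlib
import Cfsg.Prelude.Def_Sporadic_a
import Cfsg.Agent.Lib.Leech.Tri.Split22
import Cfsg.Agent.Lib.Leech.Tri.MacData

/-!
The suborbits of lengths 112 and 162 on the 275 vertices of the McLaughlin configuration.
-/

set_option autoImplicit false
set_option linter.unusedSimpArgs false

namespace Cfsg.Lib.Leech.Tri

open Cfsg Cfsg.Lib.Golay Cfsg.Lib.Leech
open scoped Pointwise

local notation "CC" => supports (golayCode : Set (GolayPt → ZMod 2))

/-- Membership among the 275. -/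
def Mac (y : leechLattice) : Prop := nm y = 32 ∧ dt baseVec y = 16 ∧ dt fiveVec y = 24

/-- The base point among the 275. -/
def macVec : leechLattice := plusVec ptA ptC

theorem dt_mac (y : leechLattice) : dt macVec y = 4 * (y : GolayPt → ℤ) ptA + 4 * (y : GolayPt → ℤ) ptC :=
  (dot_plus_minus ptA ptC _).1

/-- The shape with twos. -/
def macTwo (O : Finset GolayPt) (i : GolayPt) : ℤ := if i ∈ O then 2 else 0
/-- The odd shape. -/
def macOdd (O : Finset GolayPt) (i : GolayPt) : ℤ := if i = ptA then 3 else if i ∈ O then -1 else 1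

theorem mac_cases {y : leechLattice} (hy : Mac y) :
    (∃ j, j ≠ ptA ∧ j ≠ ptB ∧ y = plusVec ptA j) ∨
    (∃ O ∈ octads, ptA ∈ O ∧ ptB ∈ O ∧ (y : GolayPt → ℤ) = macTwo O) ∨
    (∃ O ∈ octads, ptA ∈ O ∧ ptB ∉ O ∧ (y : GolayPt → ℤ) = macOdd O) := by
  classical
  obtain ⟨hn, hb, h5⟩ := hy
  rw [dt_base] at hb
  rw [dt_five] at h5
  have hAB : (ptA : GolayPt) ≠ ptB := by decide
  rcases shape32 y.2 hn with ⟨O, hO, sy⟩ | ⟨A, hA, sy⟩ | ⟨p, sy⟩
  · have b : ∀ i, (y : GolayPt → ℤ) i ≤ if i ∈ O then 2 else 0 := fun i => by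
      rw [← sy i]; exact le_abs_self _
    have hsum : ∑ i : GolayPt, (if i ∈ O then (2 : ℤ) else 0) = 16 := by
      rw [← Finset.sum_filter, show (Finset.univ.filter fun i => i ∈ O) = O from by ext; simp, Finset.sum_const,
        card_octad hO]; rfl
    have hle := Finset.sum_le_sum (s := Finset.univ) fun i _ => b i
    rw [hsum] at hle
    have hA2 : (y : GolayPt → ℤ) ptA ≤ 2 := le_trans (b ptA) (by split <;> norm_num)
    have hall : ∀ i, (y : GolayPt → ℤ) i = if i ∈ O then 2 else 0 := fun i =>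
      (Finset.sum_eq_sum_iff_of_le fun i _ => b i).1 (by rw [hsum]; omega) i (Finset.mem_univ i)
    have ea : (y : GolayPt → ℤ) ptA = 2 := by omega
    have eb : (y : GolayPt → ℤ) ptB = 2 := by omega
    refine Or.inr (Or.inl ⟨O, hO, ?_, ?_, funext hall⟩)
    · by_contra h; rw [hall, if_neg h] at ea; norm_num at ea
    · by_contra h; rw [hall, if_neg h] at eb; norm_num at eb
  · have b : ∀ i, (y : GolayPt → ℤ) i ≤ if i ∈ A then 4 else 0 := fun i => by
      rw [← sy i]; exact le_abs_self _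
    have hsum : ∑ i : GolayPt, (if i ∈ A then (4 : ℤ) else 0) = 8 := by
      rw [← Finset.sum_filter, show (Finset.univ.filter fun i => i ∈ A) = A from by ext; simp, Finset.sum_const,
        hA]; rfl
    have hle := Finset.sum_le_sum (s := Finset.univ) fun i _ => b i
    rw [hsum] at hle
    have hA4 : (y : GolayPt → ℤ) ptA ≤ 4 := le_trans (b ptA) (by split <;> norm_num)
    have hall : ∀ i, (y : GolayPt → ℤ) i = if i ∈ A then 4 else 0 := fun i =>
      (Finset.sum_eq_sum_iff_of_le fun i _ => b i).1 (by rw [hsum]; omega) i (Finset.mem_univ i)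
    have ea : (y : GolayPt → ℤ) ptA = 4 := by omega
    have eb : (y : GolayPt → ℤ) ptB = 0 := by omega
    have ma : ptA ∈ A := by by_contra h; rw [hall, if_neg h] at ea; norm_num at ea
    have mb : ptB ∉ A := fun h => by rw [hall, if_pos h] at eb; norm_num at eb
    obtain ⟨j, hj⟩ := Finset.card_eq_one.1 (show (A.erase ptA).card = 1 by rw [Finset.card_erase_of_mem ma, hA])
    have hjA : j ∈ A ∧ j ≠ ptA := by
      have : j ∈ A.erase ptA := by rw [hj]; simp
      rw [Finset.mem_erase] at this; exact ⟨this.2, this.1⟩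
    refine Or.inl ⟨j, hjA.2, fun e => mb (e ▸ hjA.1), Subtype.ext (funext fun i => ?_)⟩
    rw [hall i]
    by_cases h1 : i = ptA
    · subst h1; simp [plusVec, ma, hjA.2.symm]
    · by_cases h2 : i = j
      · subst h2; simp [plusVec, hjA.1, h1]
      · have : i ∉ A := fun h => h2 (by
          have : i ∈ A.erase ptA := Finset.mem_erase.2 ⟨h1, h⟩
          rwa [hj, Finset.mem_singleton] at this)
        simp [plusVec, h1, h2, this]
  · have v : ∀ i, if i = p then ((y : GolayPt → ℤ) i = 3 ∨ (y : GolayPt → ℤ) i = -3) else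
        ((y : GolayPt → ℤ) i = 1 ∨ (y : GolayPt → ℤ) i = -1) := fun i => by
      by_cases h : i = p
      · rw [if_pos h]
        exact (abs_eq (by norm_num)).1 ((sy i).trans (if_pos (Finset.mem_singleton.2 h)))
      · rw [if_neg h]
        exact (abs_eq (by norm_num)).1 ((sy i).trans (if_neg fun h' => h (Finset.mem_singleton.1 h')))
    have v1 := v ptA
    have v2 := v ptB
    have en : (y : GolayPt → ℤ) none = (y : GolayPt → ℤ) ptA := rfl
    set N := oddSet (y : GolayPt → ℤ) with hN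
    have hC := oddSet_mem (parity y.2) (invariants y.2).1
    rw [← hN] at hC
    have hw := weight_cases hC
    have hcase : (p = ptA ∧ (y : GolayPt → ℤ) ptA = 3 ∧ (y : GolayPt → ℤ) ptB = 1) ∨
        (p = ptB ∧ (y : GolayPt → ℤ) ptA = 1 ∧ (y : GolayPt → ℤ) ptB = 3) := by
      by_cases ha : ptA = p
      · subst ha; rw [if_pos rfl] at v1; rw [if_neg hAB.symm] at v2; left; exact ⟨rfl, by omega, by omega⟩
      · by_cases hb' : ptB = p
        · subst hb'; rw [if_pos rfl] at v2; rw [if_neg hAB] at v1; right; exact ⟨rfl, by omega, by omega⟩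
        · rw [if_neg ha] at v1; rw [if_neg hb'] at v2; omega
    rcases hcase with ⟨rfl, ea, eb⟩ | ⟨rfl, ea, eb⟩
    · have e : ∀ i, (y : GolayPt → ℤ) i = -1 + 2 * (if i ∈ N then 1 else 0) + (if i = ptA then 4 else 0) := fun i => by
        have hi := v i
        have hm : i ∈ N ↔ ¬ (y : GolayPt → ℤ) i % 4 = 3 % 4 := by rw [hN, mem_oddSet, en, ea]
        by_cases h : i = ptA
        · subst h
          rw [if_pos rfl, if_neg (fun hh => hm.1 hh (by rw [ea])), ea]; norm_num
        · rw [if_neg h] at hi ⊢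
          rcases hi with e | e
          · rw [if_pos (hm.2 (by rw [e]; norm_num)), e]; norm_num
          · rw [if_neg (fun hh => hm.1 hh (by rw [e]; norm_num)), e]; norm_num
      have hS : ∑ i, (y : GolayPt → ℤ) i = -20 + 2 * (N.card : ℤ) := by
        rw [Finset.sum_congr rfl fun i _ => e i, Finset.sum_add_distrib, Finset.sum_add_distrib, ← Finset.mul_sum,
          Finset.sum_boole, Finset.sum_ite_eq', if_pos (Finset.mem_univ _), Finset.sum_const, Finset.card_univ,
          card_golayPt, show (Finset.univ.filter fun i => i ∈ N) = N from by ext; simp]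
        norm_num
        ring
      have hcomp : Nᶜ ∈ CC := by
        convert symmDiff_mem_supports univ_mem hC using 1
        ext i; simp [Finset.mem_symmDiff]
      have h8 : Nᶜ.card = 8 := by rw [Finset.card_compl, card_golayPt]; omega
      have hAN : ptA ∉ N := fun hh => by
        rw [hN, mem_oddSet, en] at hh; exact hh rfl
      have hBN : ptB ∈ N := by rw [hN, mem_oddSet, en, ea, eb]; norm_num
      refine Or.inr (Or.inr ⟨Nᶜ, ⟨hcomp, h8⟩, Finset.mem_compl.2 hAN, fun h => Finset.mem_compl.1 h hBN,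
        funext fun i => ?_⟩)
      rw [e i]
      simp only [macOdd, Finset.mem_compl]
      by_cases h : i = ptA
      · subst h; simp [hAN]
      · by_cases hm : i ∈ N <;> simp [h, hm]
    · exfalso
      have e : ∀ i, (y : GolayPt → ℤ) i = 1 - 2 * (if i ∈ N then 1 else 0) + (if i = ptB then 4 else 0) := fun i => by
        have hi := v i
        have hm : i ∈ N ↔ ¬ (y : GolayPt → ℤ) i % 4 = 1 % 4 := by rw [hN, mem_oddSet, en, ea]
        by_cases h : i = ptB
        · subst h
          rw [if_pos rfl, if_pos (hm.2 (by rw [eb]; norm_num)), eb]; norm_num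
        · rw [if_neg h] at hi ⊢
          rcases hi with e | e
          · rw [if_neg (fun hh => hm.1 hh (by rw [e])), e]; norm_num
          · rw [if_pos (hm.2 (by rw [e]; norm_num)), e]; norm_num
      have hS : ∑ i, (y : GolayPt → ℤ) i = 28 - 2 * (N.card : ℤ) := by
        rw [Finset.sum_congr rfl fun i _ => e i, Finset.sum_add_distrib, Finset.sum_sub_distrib, ← Finset.mul_sum,
          Finset.sum_boole, Finset.sum_ite_eq', if_pos (Finset.mem_univ _), Finset.sum_const, Finset.card_univ,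
          card_golayPt, show (Finset.univ.filter fun i => i ∈ N) = N from by ext; simp]
        norm_num
        ring
      omega

theorem perm_fix_mac {σ : Equiv.Perm GolayPt} (hσ : σ ∈ M24) (hfix : ∀ k ∈ triSet, σ k = k) :
    permElt σ hσ • fiveVec = fiveVec ∧ permElt σ hσ • baseVec = baseVec ∧ permElt σ hσ • macVec = macVec := by
  obtain ⟨h1, -, h3⟩ := perm_fix hσ fun k hk => hfix k (by
    simp only [pairSet, triSet, Finset.mem_insert, Finset.mem_singleton] at hk ⊢; tauto)
  refine ⟨h1, h3, Subtype.ext (funext fun i => ?_)⟩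
  rw [permElt_apply]
  have hA : σ none = none := hfix none (by simp [triSet])
  have hC : σ (some 1) = some 1 := hfix (some 1) (by simp [triSet])
  have e1 : σ.symm i = none ↔ i = none := by rw [Equiv.symm_apply_eq, hA]
  have e2 : σ.symm i = some 1 ↔ i = some 1 := by rw [Equiv.symm_apply_eq, hC]
  rw [Equiv.Perm.inv_def]
  by_cases c1 : i = none
  · rw [e1.2 c1, c1]
  · by_cases c2 : i = some 1
    · rw [e2.2 c2, c2]
    · simp [macVec, plusVec, ptA, ptC, c1, c2, mt e1.1 c1, mt e2.1 c2]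

/-- Transitivity on octads with a given pattern at the three points, by moving to a certified pattern. -/
theorem octad_arranged {O O' : Finset GolayPt} (hO : O ∈ octads) (hO' : O' ∈ octads)
    (h : ∀ k ∈ triSet, (k ∈ O ↔ k ∈ O')) (z : Fin 3 ↪ GolayPt) (hz : ∀ j, z j ∈ triSet)
    (hpat : (z 0 ∈ O ∧ z 1 ∉ O ∧ z 2 ∈ O) ∨ (z 0 ∉ O ∧ z 1 ∈ O ∧ z 2 ∉ O)) :
    ∃ σ ∈ M24, (∀ k ∈ triSet, σ k = k) ∧ σ • O = O' := by
  let e : Fin 3 ↪ GolayPt := ⟨![ptA, ptB, ptC], by decide⟩
  obtain ⟨π, hπ, hs⟩ := exists_perm_tuple (by norm_num) z e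
  have hm : ∀ (Q : Finset GolayPt) j, (e j ∈ π • Q ↔ z j ∈ Q) := fun Q j => by
    rw [← hs j, ← Equiv.Perm.smul_def, Finset.smul_mem_smul_finset_iff]
  obtain ⟨τ, hτ, hfix, ht⟩ := octad_tri_transitive (smul_mem_octads (M24_le_setSystemAut hπ) hO)
    (smul_mem_octads (M24_le_setSystemAut hπ) hO') (fun k hk => by
      simp only [triSet, Finset.mem_insert, Finset.mem_singleton] at hk
      rcases hk with rfl | rfl | rfl
      · exact (hm O 0).trans ((h _ (hz 0)).trans (hm O' 0).symm)
      · exact (hm O 1).trans ((h _ (hz 1)).trans (hm O' 1).symm)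
      · exact (hm O 2).trans ((h _ (hz 2)).trans (hm O' 2).symm))
    (hpat.imp (fun ⟨a, b, c⟩ => ⟨(hm O 0).2 a, fun x => b ((hm O 1).1 x), (hm O 2).2 c⟩)
      (fun ⟨a, b, c⟩ => ⟨fun x => a ((hm O 0).1 x), (hm O 1).2 b, fun x => c ((hm O 2).1 x)⟩))
  refine ⟨π⁻¹ * τ * π, Subgroup.mul_mem _ (Subgroup.mul_mem _ (Subgroup.inv_mem _ hπ) hτ) hπ, fun k hk => ?_, ?_⟩
  · have hπk : π k ∈ triSet := by
      obtain ⟨j, rfl⟩ : ∃ j, z j = k := by
        have hsurj : (Finset.univ.map z) = triSet :=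
          Finset.eq_of_subset_of_card_le (fun i hi => by obtain ⟨j, -, rfl⟩ := Finset.mem_map.1 hi; exact hz j)
            (by rw [Finset.card_map, Finset.card_univ, Fintype.card_fin]; exact Finset.card_le_three)
        rw [← hsurj] at hk
        obtain ⟨j, -, e⟩ := Finset.mem_map.1 hk
        exact ⟨j, e⟩
      rw [hs j]
      fin_cases j <;> simp [e, triSet, ptA, ptB, ptC]
    change π.symm (τ (π k)) = k
    rw [hfix _ hπk, Equiv.symm_apply_apply]
  · rw [mul_smul, mul_smul, ht, inv_smul_smul]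

theorem octad_three_in {O O' : Finset GolayPt} (hO : O ∈ octads) (hO' : O' ∈ octads)
    (h : ∀ k ∈ triSet, k ∈ O) (h' : ∀ k ∈ triSet, k ∈ O') :
    ∃ σ ∈ M24, (∀ k ∈ triSet, σ k = k) ∧ σ • O = O' := by
  classical
  have two : ∀ {Q : Finset GolayPt}, Q ∈ octads → ∃ S ⊆ Q, Disjoint triSet S ∧ S.card = 2 := by
    intro Q hQ
    have hc : 2 ≤ (Q \ triSet).card := by
      have := Finset.le_card_sdiff triSet Q
      have := Finset.card_le_three (a := (none : GolayPt)) (b := some 0) (c := some 1)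
      have := card_octad hQ
      change triSet.card ≤ 3 at *
      omega
    obtain ⟨S, hS, hSc⟩ := Finset.exists_subset_card_eq hc
    exact ⟨S, hS.trans Finset.sdiff_subset, Finset.disjoint_left.2 fun i hi hi' => (Finset.mem_sdiff.1 (hS hi')).2 hi,
      hSc⟩
  obtain ⟨S, hS, hd, hc⟩ := two hO
  obtain ⟨S', hS', hd', hc'⟩ := two hO'
  have h3 : triSet.card = 3 := by decide
  obtain ⟨σ, hσ, hfix, hs⟩ := exists_perm_sets triSet S S' hd hd' (hc.trans hc'.symm) (by omega)
  refine ⟨σ, hσ, hfix, octad_eq_of_five (smul_mem_octads (M24_le_setSystemAut hσ) hO) hO' ?_⟩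
  refine le_trans (le_of_eq ?_) (Finset.card_le_card (s := triSet ∪ S') fun i hi => ?_)
  · rw [Finset.card_union_of_disjoint hd', h3, hc']
  · rcases Finset.mem_union.1 hi with hi | hi
    · refine Finset.mem_inter.2 ⟨?_, h' i hi⟩
      rw [← hfix i hi]; exact Finset.smul_mem_smul_finset (h i hi)
    · refine Finset.mem_inter.2 ⟨?_, hS' hi⟩
      rw [← hs] at hi
      exact Finset.smul_finset_subset_smul_finset hS hi

/-- The class of one of the 275. -/
def macKey (y : GolayPt → ℤ) : ℤ × ℤ := (y ptA, y ptC)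

theorem macTwo_key {O : Finset GolayPt} (ha : ptA ∈ O) :
    macTwo O ptA = 2 ∧ macTwo O ptC = if ptC ∈ O then 2 else 0 := ⟨if_pos ha, rfl⟩

theorem macOdd_key (O : Finset GolayPt) :
    macOdd O ptA = 3 ∧ macOdd O ptC = if ptC ∈ O then -1 else 1 :=
  ⟨if_pos rfl, by rw [macOdd, if_neg (by decide)]⟩

theorem rel_of_macKey {y y' : leechLattice} (hy : Mac y) (hy' : Mac y')
    (h : macKey (y : GolayPt → ℤ) = macKey (y' : GolayPt → ℤ)) :
    ∃ g : Co0, g • fiveVec = fiveVec ∧ g • baseVec = baseVec ∧ g • macVec = macVec ∧ g • y = y' := by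
  classical
  simp only [macKey, Prod.mk.injEq] at h
  obtain ⟨hA, hC⟩ := h
  suffices ∃ σ ∈ M24, (∀ k ∈ triSet, σ k = k) ∧ ∀ i, (y : GolayPt → ℤ) i = (y' : GolayPt → ℤ) (σ i) by
    obtain ⟨σ, hσ, hfix, hs⟩ := this
    obtain ⟨f1, f2, f3⟩ := perm_fix_mac hσ hfix
    refine ⟨permElt σ hσ, f1, f2, f3, Subtype.ext (funext fun i => ?_)⟩
    rw [permElt_apply, hs, Equiv.Perm.inv_def, Equiv.apply_symm_apply]
  have four : ∀ {j}, j ≠ ptA → ((plusVec ptA j : leechLattice) : GolayPt → ℤ) ptA = 4 := fun hj => by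
    simp [plusVec, hj.symm]
  have mem : ∀ {σ : Equiv.Perm GolayPt} {O O' : Finset GolayPt}, σ • O = O' → ∀ i, (σ i ∈ O' ↔ i ∈ O) :=
    fun e i => by rw [← e, ← Equiv.Perm.smul_def, Finset.smul_mem_smul_finset_iff]
  have hAB : (ptA : GolayPt) ≠ ptB := by decide
  have hCA : (ptC : GolayPt) ≠ ptA := by decide
  have hCB : (ptC : GolayPt) ≠ ptB := by decide
  rcases mac_cases hy with ⟨j, ja, jb, rfl⟩ | ⟨O, hO, oa, ob, e⟩ | ⟨O, hO, oa, ob, e⟩ <;>
    rcases mac_cases hy' with ⟨j', ja', jb', rfl⟩ | ⟨O', hO', oa', ob', e'⟩ | ⟨O', hO', oa', ob', e'⟩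
  · by_cases hj : j = ptC
    · have hj' : j' = ptC := by
        by_contra hne
        subst hj
        simp [plusVec, hCA, Ne.symm hne] at hC
      subst hj hj'
      exact ⟨1, M24.one_mem, fun _ _ => rfl, fun _ => rfl⟩
    · have hj' : j' ≠ ptC := fun e => by
        subst e
        simp [plusVec, hCA, Ne.symm hj] at hC
      obtain ⟨σ, hσ, hfix, hs⟩ := exists_perm_sets triSet {j} {j'}
        (by simp [triSet]; exact ⟨ja, jb, hj⟩) (by simp [triSet]; exact ⟨ja', jb', hj'⟩) rfl (by rw [Finset.card_singleton]; decide)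
      have hp : σ j = j' := by
        have : σ j ∈ σ • ({j} : Finset GolayPt) := Finset.smul_mem_smul_finset (Finset.mem_singleton_self j)
        rw [hs, Finset.mem_singleton] at this
        exact this
      have e1 : ∀ i, σ i = j' ↔ i = j := fun i => by rw [← hp]; exact σ.injective.eq_iff
      have e2 : ∀ i, σ i = ptA ↔ i = ptA := fun i => by
        conv_lhs => rw [← hfix ptA (by simp [triSet, ptA]), σ.injective.eq_iff]
      refine ⟨σ, hσ, hfix, fun i => ?_⟩
      show (if i = ptA then (4 : ℤ) else 0) + (if i = j then 4 else 0) =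
        (if σ i = ptA then (4 : ℤ) else 0) + (if σ i = j' then 4 else 0)
      simp only [e1, e2]
  · rw [four ja, e', (macTwo_key oa').1] at hA; norm_num at hA
  · rw [four ja, e', (macOdd_key O').1] at hA; norm_num at hA
  · rw [four ja', e, (macTwo_key oa).1] at hA; norm_num at hA
  · rw [e, e', (macTwo_key oa).2, (macTwo_key oa').2] at hC
    have hmem : ptC ∈ O ↔ ptC ∈ O' := by
      by_cases a : ptC ∈ O <;> by_cases b : ptC ∈ O' <;> simp [a, b] at hC ⊢
    obtain ⟨σ, hσ, hfix, hs⟩ : ∃ σ ∈ M24, (∀ k ∈ triSet, σ k = k) ∧ σ • O = O' := by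
      by_cases c : ptC ∈ O
      · exact octad_three_in hO hO' (by simp [triSet]; exact ⟨oa, ob, c⟩)
          (by simp [triSet]; exact ⟨oa', ob', hmem.1 c⟩)
      · exact octad_arranged hO hO' (by simp [triSet]; exact ⟨iff_of_true oa oa', iff_of_true ob ob', hmem⟩)
          ⟨![ptA, ptC, ptB], by decide⟩ (by decide) (Or.inl ⟨oa, c, ob⟩)
    exact ⟨σ, hσ, hfix, fun i => by rw [e, e']; simp only [macTwo, mem hs i]⟩
  · rw [e, e', (macTwo_key oa).1, (macOdd_key O').1] at hA; norm_num at hA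
  · rw [four ja', e, (macOdd_key O).1] at hA; norm_num at hA
  · rw [e, e', (macOdd_key O).1, (macTwo_key oa').1] at hA; norm_num at hA
  · rw [e, e', (macOdd_key O).2, (macOdd_key O').2] at hC
    have hmem : ptC ∈ O ↔ ptC ∈ O' := by
      by_cases a : ptC ∈ O <;> by_cases b : ptC ∈ O' <;> simp [a, b] at hC ⊢
    have htri : ∀ k ∈ triSet, (k ∈ O ↔ k ∈ O') := by
      simp [triSet]; exact ⟨iff_of_true oa oa', iff_of_false ob ob', hmem⟩
    obtain ⟨σ, hσ, hfix, hs⟩ : ∃ σ ∈ M24, (∀ k ∈ triSet, σ k = k) ∧ σ • O = O' := by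
      by_cases c : ptC ∈ O
      · exact octad_tri_transitive hO hO' htri (Or.inl ⟨oa, ob, c⟩)
      · exact octad_arranged hO hO' htri ⟨![ptB, ptA, ptC], by decide⟩ (by decide) (Or.inr ⟨ob, oa, c⟩)
    refine ⟨σ, hσ, hfix, fun i => ?_⟩
    have e2 : σ i = ptA ↔ i = ptA := by
      conv_lhs => rw [← hfix ptA (by simp [triSet, ptA]), σ.injective.eq_iff]
    rw [e, e']; simp only [macOdd, mem hs i, e2]

theorem mac_perm_check : keepsCode macPermA = true ∧ keepsCode macPermB = true ∧
    (∀ i : GolayPt, mapFun macPermA (mapFun macPermAInv i) = i) ∧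
    (∀ i : GolayPt, mapFun macPermB (mapFun macPermBInv i) = i) := by decide +kernel

theorem mac_mask_check : inCode macMasks.1 = true ∧ inCode macMasks.2.1 = true ∧ inCode macMasks.2.2 = true := by
  decide +kernel

/-- The coordinate formula for `macConj`. -/
def macFun (x : GolayPt → ℤ) : GolayPt → ℤ :=
  xiFun fun i => flipFun (toSet macMasks.2.1)
    (xiFun fun j => flipFun (toSet macMasks.1) x (mapFun macPermAInv j)) (mapFun macPermBInv i)

/-- The conjugating element. -/
noncomputable def macConj : Co0 :=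
  xiElt * permElt (permOf macPermB) (permOf_mem_M24 mac_perm_check.2.1) *
    flipElt (toSet macMasks.2.1) (toSet_mem_CC mac_mask_check.2.1) * xiElt *
    permElt (permOf macPermA) (permOf_mem_M24 mac_perm_check.1) *
    flipElt (toSet macMasks.1) (toSet_mem_CC mac_mask_check.1)

theorem macConj_apply (x : leechLattice) :
    ((macConj • x : leechLattice) : GolayPt → ℤ) = macFun (x : GolayPt → ℤ) := by
  have hflip : ∀ (c : Finset GolayPt) (hc : c ∈ CC) (z : leechLattice),
      ((flipElt c hc • z : leechLattice) : GolayPt → ℤ) = flipFun c (z : GolayPt → ℤ) := fun _ _ _ => rfl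
  have hxi : ∀ z : leechLattice, ((xiElt • z : leechLattice) : GolayPt → ℤ) = xiFun (z : GolayPt → ℤ) := fun z =>
    funext fun i => by simp only [xiElt_apply]
  simp only [macConj, mul_smul, macFun, hxi, hflip]
  congr 1
  funext i
  rw [permElt_apply, perm_inv_eq mac_perm_check.2.1 mac_perm_check.2.2.2, hflip, hxi]
  congr 2
  funext j
  rw [permElt_apply, perm_inv_eq mac_perm_check.1 mac_perm_check.2.2.1, hflip]

/-- The element of the stabiliser joining the classes. -/
noncomputable def macElt : Co0 := macConj⁻¹ * flipElt (toSet macMasks.2.2) (toSet_mem_CC mac_mask_check.2.2) * macConj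

theorem macElt_apply {a b : leechLattice}
    (h : flipFun (toSet macMasks.2.2) (macFun (a : GolayPt → ℤ)) = macFun (b : GolayPt → ℤ)) : macElt • a = b := by
  rw [macElt, mul_smul, mul_smul, inv_smul_eq_iff]
  refine Subtype.ext ?_
  show flipFun _ ((macConj • a : leechLattice) : GolayPt → ℤ) = _
  rw [macConj_apply, macConj_apply, h]

theorem mac_fix_check :
    flipFun (toSet macMasks.2.2) (macFun fiveFun) = macFun fiveFun ∧
    flipFun (toSet macMasks.2.2) (macFun ((baseVec : leechLattice) : GolayPt → ℤ)) =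
      macFun ((baseVec : leechLattice) : GolayPt → ℤ) ∧
    flipFun (toSet macMasks.2.2) (macFun ((macVec : leechLattice) : GolayPt → ℤ)) =
      macFun ((macVec : leechLattice) : GolayPt → ℤ) := by decide +kernel

theorem mac_wit_check : ∀ q ∈ macWit, (CheckVec (ofList q.1) ∧ sqNorm (ofList q.1) = 32) ∧
    (CheckVec (ofList q.2) ∧ sqNorm (ofList q.2) = 32) ∧
    flipFun (toSet macMasks.2.2) (macFun (ofList q.1)) = macFun (ofList q.2) ∧
    (4 * ofList q.1 ptA + 4 * ofList q.1 ptB = 16 ∧ 4 * ofList q.1 ptA + ∑ i, ofList q.1 i = 24) := by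
  decide +kernel

theorem mac_wit_keys : (macWit.map fun q => (macKey (ofList q.1), macKey (ofList q.2))) =
    [((2, 0), (3, -1)), ((4, 0), (2, 2)), ((4, 0), (3, 1))] := by decide +kernel

theorem link_mac {k k' : ℤ × ℤ} (h : (k, k') ∈ macWit.map fun q => (macKey (ofList q.1), macKey (ofList q.2)))
    {y y' : leechLattice} (hy : Mac y) (hy' : Mac y') (e : macKey (y : GolayPt → ℤ) = k)
    (e' : macKey (y' : GolayPt → ℤ) = k') :
    ∃ g : Co0, g • fiveVec = fiveVec ∧ g • baseVec = baseVec ∧ g • macVec = macVec ∧ g • y = y' := by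
  obtain ⟨q, hq, hk⟩ := List.mem_map.1 h
  simp only [Prod.mk.injEq] at hk
  obtain ⟨⟨c1, n1⟩, ⟨c2, n2⟩, him, hb, h5⟩ := mac_wit_check q hq
  let a : leechLattice := ⟨ofList q.1, mem_of_check c1⟩
  let b : leechLattice := ⟨ofList q.2, mem_of_check c2⟩
  have f1 : macElt • fiveVec = fiveVec := macElt_apply mac_fix_check.1
  have f2 : macElt • baseVec = baseVec := macElt_apply mac_fix_check.2.1
  have f3 : macElt • macVec = macVec := macElt_apply mac_fix_check.2.2
  have hab : macElt • a = b := macElt_apply him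
  have ha : Mac a := ⟨n1, by rw [dt_base]; exact hb, by rw [dt_five]; exact h5⟩
  have hb' : Mac b := by
    refine ⟨n2, ?_, ?_⟩
    · simp only [dt]; rw [← hab, ← f2, co0_dot]; exact ha.2.1
    · simp only [dt]; rw [← hab, ← f1, co0_dot]; exact ha.2.2
  obtain ⟨g, g1, g2, g3, g4⟩ := rel_of_macKey (y' := a) hy ha (e.trans hk.1.symm)
  obtain ⟨t, t1, t2, t3, t4⟩ := rel_of_macKey (y := b) hb' hy' (hk.2.trans e'.symm)
  exact ⟨t * macElt * g, by rw [mul_smul, mul_smul, g1, f1, t1], by rw [mul_smul, mul_smul, g2, f2, t2],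
    by rw [mul_smul, mul_smul, g3, f3, t3], by rw [mul_smul, mul_smul, g4, hab, t4]⟩

theorem mac_keys {y : leechLattice} (hy : Mac y) (hne : y ≠ macVec) :
    (dt macVec y = 8 ∧ (macKey (y : GolayPt → ℤ) = (2, 0) ∨ macKey (y : GolayPt → ℤ) = (3, -1))) ∨
    (dt macVec y = 16 ∧ (macKey (y : GolayPt → ℤ) = (4, 0) ∨ macKey (y : GolayPt → ℤ) = (2, 2) ∨
      macKey (y : GolayPt → ℤ) = (3, 1))) := by
  have hAC : (ptA : GolayPt) ≠ ptC := by decide
  rw [dt_mac]
  simp only [macKey, Prod.mk.injEq]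
  rcases mac_cases hy with ⟨j, ja, jb, rfl⟩ | ⟨O, hO, oa, ob, e⟩ | ⟨O, hO, oa, ob, e⟩
  · have hj : j ≠ ptC := fun h => hne (by rw [h]; rfl)
    have e1 : ((plusVec ptA j : leechLattice) : GolayPt → ℤ) ptA = 4 := by simp [plusVec, ja.symm]
    have e2 : ((plusVec ptA j : leechLattice) : GolayPt → ℤ) ptC = 0 := by simp [plusVec, hAC.symm, hj.symm]
    rw [e1, e2]; norm_num
  · rw [e, (macTwo_key oa).1, (macTwo_key oa).2]; split <;> norm_num
  · rw [e, (macOdd_key O).1, (macOdd_key O).2]; split <;> norm_num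

theorem mac_trans {y y' : leechLattice} (hy : Mac y) (hy' : Mac y') (hn : y ≠ macVec) (hn' : y' ≠ macVec)
    (h : dt macVec y = dt macVec y') :
    ∃ g : Co0, g • fiveVec = fiveVec ∧ g • baseVec = baseVec ∧ g • macVec = macVec ∧ g • y = y' := by
  let R : leechLattice → leechLattice → Prop := fun a b =>
    ∃ g : Co0, g • fiveVec = fiveVec ∧ g • baseVec = baseVec ∧ g • macVec = macVec ∧ g • a = b
  have symm : ∀ {a b}, R a b → R b a := fun ⟨g, g1, g2, g3, g4⟩ =>
    ⟨g⁻¹, inv_smul_eq_iff.2 g1.symm, inv_smul_eq_iff.2 g2.symm, inv_smul_eq_iff.2 g3.symm,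
      inv_smul_eq_iff.2 g4.symm⟩
  have trans : ∀ {a b c}, R a b → R b c → R a c := fun ⟨g, g1, g2, g3, g4⟩ ⟨t, t1, t2, t3, t4⟩ =>
    ⟨t * g, by rw [mul_smul, g1, t1], by rw [mul_smul, g2, t2], by rw [mul_smul, g3, t3], by rw [mul_smul, g4, t4]⟩
  obtain ⟨c1, n1⟩ : (CheckVec (ofList (macWit.getD 0 ([], [])).1) ∧
      sqNorm (ofList (macWit.getD 0 ([], [])).1) = 32) := (mac_wit_check _ (by decide)).1
  obtain ⟨c2, n2⟩ : (CheckVec (ofList (macWit.getD 1 ([], [])).1) ∧
      sqNorm (ofList (macWit.getD 1 ([], [])).1) = 32) := (mac_wit_check _ (by decide)).1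
  have mk : ∀ (l : List ℤ × List ℤ) (hl : l ∈ macWit) (c : CheckVec (ofList l.1)),
      Mac ⟨ofList l.1, mem_of_check c⟩ := fun l hl c =>
    ⟨(mac_wit_check l hl).1.2, by rw [dt_base]; exact (mac_wit_check l hl).2.2.2.1,
      by rw [dt_five]; exact (mac_wit_check l hl).2.2.2.2⟩
  have ha := mk _ (by decide) c1
  have hb := mk _ (by decide) c2
  have ka : macKey (ofList (macWit.getD 0 ([], [])).1) = (2, 0) := by decide +kernel
  have kb : macKey (ofList (macWit.getD 1 ([], [])).1) = (4, 0) := by decide +kernel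
  have to8 : ∀ z, Mac z → (macKey (z : GolayPt → ℤ) = (2, 0) ∨ macKey (z : GolayPt → ℤ) = (3, -1)) →
      R ⟨_, mem_of_check c1⟩ z := by
    intro z hz hk
    rcases hk with hk | hk
    · exact rel_of_macKey ha hz (ka.trans hk.symm)
    · exact link_mac (by rw [mac_wit_keys]; simp) ha hz ka hk
  have to16 : ∀ z, Mac z → (macKey (z : GolayPt → ℤ) = (4, 0) ∨ macKey (z : GolayPt → ℤ) = (2, 2) ∨
      macKey (z : GolayPt → ℤ) = (3, 1)) → R ⟨_, mem_of_check c2⟩ z := by
    intro z hz hk
    rcases hk with hk | hk | hk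
    · exact rel_of_macKey hb hz (kb.trans hk.symm)
    · exact link_mac (by rw [mac_wit_keys]; simp) hb hz kb hk
    · exact link_mac (by rw [mac_wit_keys]; simp) hb hz kb hk
  rcases mac_keys hy hn with ⟨d, k⟩ | ⟨d, k⟩ <;> rcases mac_keys hy' hn' with ⟨d', k'⟩ | ⟨d', k'⟩
  · exact trans (symm (to8 y hy k)) (to8 y' hy' k')
  · omega
  · omega
  · exact trans (symm (to16 y hy k)) (to16 y' hy' k')

/-- The 112 vectors as functions. -/
def mac112 : List (GolayPt → ℤ) :=
  ((octMasks.filter fun n => n.testBit 23 && n.testBit 0 && !n.testBit 1).map fun n => macTwo (toSet n)) ++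
  ((octMasks.filter fun n => n.testBit 23 && !n.testBit 0 && n.testBit 1).map fun n => macOdd (toSet n))

set_option maxRecDepth 100000 in
theorem mac112_check : mac112.length = 112 ∧ mac112.Nodup := by decide +kernel

set_option maxRecDepth 100000 in
theorem mac112_mem : ∀ f ∈ mac112, CheckVec f ∧ sqNorm f = 32 ∧ 4 * f ptA + 4 * f ptB = 16 ∧
    4 * f ptA + ∑ i, f i = 24 ∧ 4 * f ptA + 4 * f ptC = 8 := by decide +kernel

theorem mac_count : {y | Mac y ∧ dt macVec y = 8}.ncard = 112 := by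
  classical
  have hbij : {y | Mac y ∧ dt macVec y = 8}.ncard = (↑mac112.toFinset : Set (GolayPt → ℤ)).ncard := by
    refine Set.ncard_congr (fun y _ => (y : GolayPt → ℤ)) (fun y ⟨hy, h8⟩ => ?_) (fun a b _ _ e => Subtype.ext e)
      fun f hf => ?_
    · rw [Finset.mem_coe, List.mem_toFinset, mac112, List.mem_append]
      rw [dt_mac] at h8
      have key : ∀ (O : Finset GolayPt), O ∈ octads → setNat O ∈ octMasks ∧ toSet (setNat O) = O ∧
          (setNat O).testBit 23 = decide (ptA ∈ O) ∧ (setNat O).testBit 0 = decide (ptB ∈ O) ∧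
          (setNat O).testBit 1 = decide (ptC ∈ O) := fun O hO => by
        refine ⟨(mem_octads_iff O).1 hO, toSet_setNat O, ?_⟩
        simp only [testBit_setNat _ (by norm_num : (23 : ℕ) < 24), testBit_setNat _ (by norm_num : (0 : ℕ) < 24),
          testBit_setNat _ (by norm_num : (1 : ℕ) < 24), show pt 23 = ptA from rfl, show pt 0 = ptB from rfl,
          show pt 1 = ptC from rfl, and_self]
      rcases mac_cases hy with ⟨j, ja, jb, rfl⟩ | ⟨O, hO, oa, ob, e⟩ | ⟨O, hO, oa, ob, e⟩
      · exfalso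
        have hAC : (ptA : GolayPt) ≠ ptC := by decide
        simp [plusVec, ja.symm, hAC.symm] at h8
        split at h8 <;> omega
      · obtain ⟨m, t, b1, b2, b3⟩ := key O hO
        rw [e, (macTwo_key oa).1, (macTwo_key oa).2] at h8
        have hc : ptC ∉ O := fun h => by rw [if_pos h] at h8; omega
        refine Or.inl (List.mem_map.2 ⟨setNat O, List.mem_filter.2 ⟨m, by simp [b1, b2, b3, oa, ob, hc]⟩, ?_⟩)
        rw [t, e]
      · obtain ⟨m, t, b1, b2, b3⟩ := key O hO
        rw [e, (macOdd_key O).1, (macOdd_key O).2] at h8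
        have hc : ptC ∈ O := by by_contra h; rw [if_neg h] at h8; omega
        refine Or.inr (List.mem_map.2 ⟨setNat O, List.mem_filter.2 ⟨m, by simp [b1, b2, b3, oa, ob, hc]⟩, ?_⟩)
        rw [t, e]
    · rw [Finset.mem_coe, List.mem_toFinset] at hf
      obtain ⟨hc, hn, hb, h5, h8⟩ := mac112_mem f hf
      exact ⟨⟨f, mem_of_check hc⟩, ⟨⟨hn, by rw [dt_base]; exact hb, by rw [dt_five]; exact h5⟩,
        by rw [dt_mac]; exact h8⟩, rfl⟩
  rw [hbij, Set.ncard_coe_finset, List.toFinset_card_of_nodup mac112_check.2, mac112_check.1]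

/-- The two suborbits on the 275. -/
theorem mac_suborbits {u v x : leechLattice} (hu : nm u = 48) (hv : nm v = 32) (huv : nm (u - v) = 32)
    (hx : nm x = 32 ∧ nm (u - x) = 32 ∧ dt v x = 16) :
    {y : leechLattice | (nm y = 32 ∧ nm (u - y) = 32 ∧ dt v y = 16) ∧ dt x y = 8}.ncard = 112 ∧
    {y : leechLattice | (nm y = 32 ∧ nm (u - y) = 32 ∧ dt v y = 16) ∧ y ≠ x ∧ dt x y = 16}.ncard = 162 ∧
    ∀ y y' : leechLattice, (nm y = 32 ∧ nm (u - y) = 32 ∧ dt v y = 16) →
      (nm y' = 32 ∧ nm (u - y') = 32 ∧ dt v y' = 16) → y ≠ x → y' ≠ x → dt x y = dt x y' →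
      ∃ g : Co0, g • u = u ∧ g • v = v ∧ g • x = x ∧ g • y = y' := by
  classical
  have hsplit : ∀ {u v x : leechLattice}, nm u = 48 → nm v = 32 → nm (u - v) = 32 → nm x = 32 →
      nm (u - x) = 32 → dt v x = 16 → nm (-x) = 32 ∧ dt v (-x) = -16 ∧ dt (-x) (u - v) = -8 ∧ dt v (u - v) = -8 := by
    intro u v x hu hv huv h1 h2 h3
    have e1 := nm_sub u x
    have e2 := nm_sub u v
    rw [nm_neg, dt_neg, dt_comm (-x) (u - v), dt_neg, dt_comm (u - v) x, dt_sub, dt_sub, dt_self, dt_comm x u,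
      dt_comm x v, dt_comm v u]
    omega
  have n5 : nm fiveVec = 48 := five_check.2
  have nb : nm baseVec = 32 := baseVec_norm
  have nm0 : nm macVec = 32 := plusVec_norm _ _ (by decide)
  have e5b : dt fiveVec baseVec = 24 := base_is_split.2.1
  have e5m : dt fiveVec macVec = 24 := by rw [dt_comm, dt_mac]; show 4 * fiveFun ptA + 4 * fiveFun ptC = 24; decide
  have ebm : dt baseVec macVec = 16 := by
    rw [dt_base]
    have h : ((macVec : leechLattice) : GolayPt → ℤ) ptA = 4 ∧ ((macVec : leechLattice) : GolayPt → ℤ) ptB = 0 := by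
      decide
    rw [h.1, h.2]; norm_num
  have h5b : nm (fiveVec - baseVec) = 32 := by rw [nm_sub]; omega
  have h5m : nm (fiveVec - macVec) = 32 := by rw [nm_sub]; omega
  obtain ⟨a1, a2, a3, a4⟩ := hsplit hu hv huv hx.1 hx.2.1 hx.2.2
  obtain ⟨b1, b2, b3, b4⟩ := hsplit n5 nb h5b nm0 h5m ebm
  obtain ⟨g, gv, gx', gb⟩ := trans_tri hv a1 huv nb b1 h5b (Or.inr rfl) a2 b2 a4 b4 a3 b3
  have gx : g • x = macVec := by rw [co0_neg] at gx'; exact neg_injective gx'
  have gu : g • u = fiveVec := by rw [co0_sub, gv] at gb; exact sub_left_injective gb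
  have tr : ∀ y, ((nm y = 32 ∧ nm (u - y) = 32 ∧ dt v y = 16) ↔ Mac (g • y)) ∧ dt x y = dt macVec (g • y) := by
    intro y
    have e := nm_sub u y
    simp only [Mac, ← gv, ← gu, ← gx]
    simp only [nm, dt] at *
    rw [co0_norm, co0_dot, co0_dot, co0_dot]
    exact ⟨by omega, rfl⟩
  have h112 : {y : leechLattice | (nm y = 32 ∧ nm (u - y) = 32 ∧ dt v y = 16) ∧ dt x y = 8}.ncard = 112 := by
    rw [ncard_smul g _ (fun z => Mac z ∧ dt macVec z = 8) fun y => and_congr (tr y).1 (by rw [(tr y).2])]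
    exact mac_count
  refine ⟨h112, ?_, fun y y' hy hy' hn hn' h => ?_⟩
  · set X := {y : leechLattice | nm y = 32 ∧ nm (u - y) = 32 ∧ dt v y = 16} with hX
    have hc : X.ncard = 275 := by
      rw [hX, ← (count_c hv huv a4).2]
      refine Set.ncard_congr (fun y _ => -y) (fun y hy => ?_) (fun a b _ _ e => neg_injective e) fun c hc =>
        ⟨-c, ?_, neg_neg c⟩
      · obtain ⟨p, q, r, -⟩ := hsplit hu hv huv hy.1 hy.2.1 hy.2.2
        exact ⟨p, q, (dt_comm _ _).trans r⟩
      · obtain ⟨c1, c2, c3⟩ := hc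
        have e1 := nm_sub u (-c)
        have e2 := nm_sub u v
        rw [nm_neg, dt_neg] at e1
        rw [dt_comm (u - v) c, dt_sub, dt_comm c u, dt_comm c v] at c3
        refine ⟨by rw [nm_neg]; exact c1, ?_, by rw [dt_neg, c2]; norm_num⟩
        rw [nm_sub, dt_neg, nm_neg]
        omega
    set A := {y : leechLattice | (nm y = 32 ∧ nm (u - y) = 32 ∧ dt v y = 16) ∧ dt x y = 8} with hA
    have hXf : X.Finite := Set.finite_of_ncard_ne_zero (by rw [hc]; norm_num)
    have hxX : x ∈ X := hx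
    have hxA : x ∉ A := fun h => by have := h.2; rw [dt_self, hx.1] at this; omega
    have hAX : A ⊆ X := fun y hy => hy.1
    have e : {y : leechLattice | (nm y = 32 ∧ nm (u - y) = 32 ∧ dt v y = 16) ∧ y ≠ x ∧ dt x y = 16} =
        X \ insert x A := by
      ext y
      simp only [hX, hA, Set.mem_sdiff, Set.mem_insert_iff, Set.mem_ofPred_eq]
      constructor
      · rintro ⟨h1, h2, h3⟩
        exact ⟨h1, fun h => h.elim h2 fun h => by omega⟩
      · rintro ⟨h1, h2⟩
        push Not at h2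
        refine ⟨h1, h2.1, ?_⟩
        rcases mac_keys ((tr y).1.1 h1) (fun e => h2.1 (smul_left_cancel g (e.trans gx.symm))) with ⟨d, -⟩ | ⟨d, -⟩
        · exact absurd ((tr y).2.trans d) (h2.2 h1)
        · exact (tr y).2.trans d
    rw [e, Set.ncard_sdiff (Set.insert_subset hxX hAX) ((hXf.subset hAX).insert x),
      Set.ncard_insert_of_notMem hxA (hXf.subset hAX), hc, h112]
  · obtain ⟨k, k1, k2, k3, k4⟩ := mac_trans ((tr y).1.1 hy) ((tr y').1.1 hy')
      (fun e => hn (smul_left_cancel g (e.trans gx.symm))) (fun e => hn' (smul_left_cancel g (e.trans gx.symm)))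
      (by rw [← (tr y).2, ← (tr y').2]; exact h)
    refine ⟨g⁻¹ * k * g, ?_, ?_, ?_, ?_⟩
    · rw [mul_smul, mul_smul, gu]; exact inv_smul_eq_iff.2 (by rw [gu]; exact k1)
    · rw [mul_smul, mul_smul, gv]; exact inv_smul_eq_iff.2 (by rw [gv]; exact k2)
    · rw [mul_smul, mul_smul, gx]; exact inv_smul_eq_iff.2 (by rw [gx]; exact k3)
    · rw [mul_smul, mul_smul, k4, inv_smul_smul]

end Cfsg.Lib.Leech.Tri
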