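import Mathlib
import Cfsg.Prelude.Def_Sporadic
import Cfsg.Prelude.Def_Sporadic_a
import Cfsg.Agent.Lib.Leech.Tri.McLStab
import Cfsg.Agent.Lib.Leech.Tri.Suborbits275
import Cfsg.Agent.S1580

/-!
The stabiliser of a vector of norm 48 is simple of order `495766656000`.
-/

set_option autoImplicit false
set_option linter.unusedSimpArgs false

namespace Cfsg.Lib.Leech.Tri

open Finset

variable {V : Type*}

/-- A group transitive on 552 points, point stabiliser simple with orbits 1, 1, 275, 275. -/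
theorem simple_552 [Fintype V] (hV : Fintype.card V = 552) (v0 : V) (H : Subgroup (Equiv.Perm V))
    (d : V → V → ℤ) (hd : ∀ g ∈ H, ∀ a b, d (g a) (g b) = d a b) (ι : V → V)
    (hι : ∀ g ∈ H, ∀ a, g (ι a) = ι (g a)) (hιH : ∀ g ∈ H, (∀ a, g a = ι a) → False)
    (hι0 : ι v0 ≠ v0) (htrans : ∀ w, ∃ g ∈ H, g v0 = w) (A B : Finset V) (hA : A.card = 275)
    (hB : B.card = 275) (hcov : ∀ w, w = v0 ∨ w = ι v0 ∨ w ∈ A ∨ w ∈ B)
    (hAd : ∀ w ∈ A, d v0 w = 16) (hBd : ∀ w ∈ B, d v0 w = 8)
    (hAp : ∃ a ∈ A, ∃ a' ∈ A, d a a' = 8) (hBp : ∃ a ∈ B, ∃ a' ∈ B, a ≠ a' ∧ d a a' = 16)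
    (hAt : ∀ a ∈ A, ∀ b ∈ A, ∃ g ∈ H, g v0 = v0 ∧ g a = b)
    (hBt : ∀ a ∈ B, ∀ b ∈ B, ∃ g ∈ H, g v0 = v0 ∧ g a = b)
    (h0 : d v0 v0 ≠ 16 ∧ d v0 v0 ≠ 8) (hi : d v0 (ι v0) ≠ 16 ∧ d v0 (ι v0) ≠ 8)
    [IsSimpleGroup (MulAction.stabilizer H v0)] : IsSimpleGroup H := by
  classical
  haveI : Nontrivial H := by
    obtain ⟨g, hg⟩ := (inferInstance : Nontrivial (MulAction.stabilizer H v0)).exists_pair_ne
    exact ⟨⟨g.1, hg.choose.1, fun e => hg.choose_spec (Subtype.ext e)⟩⟩
  set S := MulAction.stabilizer H v0 with hS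
  have nA : v0 ∉ A ∧ ι v0 ∉ A := ⟨fun h => h0.1 (hAd _ h), fun h => hi.1 (hAd _ h)⟩
  have nB : v0 ∉ B ∧ ι v0 ∉ B := ⟨fun h => h0.2 (hBd _ h), fun h => hi.2 (hBd _ h)⟩
  have dAB : Disjoint A B := Finset.disjoint_left.2 fun w h h' => by
    have := hAd w h; have := hBd w h'; omega
  have triv : ∀ M : Subgroup H, M.Normal → (∀ m ∈ M, (m : Equiv.Perm V) v0 = v0) → M = ⊥ := by
    intro M hM hfix
    rw [eq_bot_iff]
    intro m hm
    rw [Subgroup.mem_bot]
    refine Subtype.ext (Equiv.ext fun w => ?_)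
    obtain ⟨g, hg, rfl⟩ := htrans w
    have := hfix _ (hM.conj_mem m hm (⟨g, hg⟩ : H)⁻¹)
    have h' : g⁻¹ ((m : Equiv.Perm V) (g v0)) = v0 := by simpa using this
    exact (Equiv.Perm.inv_eq_iff_eq.1 h').trans rfl |>.trans rfl
  have orbit_cases : ∀ M : Subgroup H, M.Normal →
      M = ⊥ ∨ (∀ w, ∃ m ∈ M, (m : Equiv.Perm V) v0 = w) := by
    intro M hM
    set O : Finset V := univ.filter fun w => ∃ m ∈ M, (m : Equiv.Perm V) v0 = w with hO
    have hmemO : ∀ w, w ∈ O ↔ ∃ m ∈ M, (m : Equiv.Perm V) v0 = w := fun w => by simp [hO]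
    -- translating the orbit
    have htr : ∀ g ∈ H, g v0 ∈ O → ∀ a ∈ O, g a ∈ O := by
      intro g hg hgv a ha
      obtain ⟨m, hm, rfl⟩ := (hmemO a).1 ha
      obtain ⟨n, hn, en⟩ := (hmemO _).1 hgv
      refine (hmemO _).2 ⟨⟨g, hg⟩ * m * ⟨g, hg⟩⁻¹ * n, M.mul_mem (hM.conj_mem m hm _) hn, ?_⟩
      show g ((m : Equiv.Perm V) (g⁻¹ ((n : Equiv.Perm V) v0))) = _
      rw [en, Equiv.Perm.inv_def, Equiv.symm_apply_apply]
    have hdvd : O.card ∣ 552 := by
      have horb : (MulAction.orbit M v0).ncard = O.card := by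
        rw [← Set.ncard_coe_finset]
        congr 1
        ext w
        rw [Finset.mem_coe, hmemO]
        exact ⟨fun ⟨m, hm⟩ => ⟨m.1, m.2, hm⟩, fun ⟨m, hm, e⟩ => ⟨⟨m, hm⟩, e⟩⟩
      have h2 : (MulAction.stabilizer M v0).index = O.card := (MulAction.index_stabilizer M v0).trans horb
      have h3 : MulAction.stabilizer M v0 = S.subgroupOf M := by ext m; rfl
      have h4 : S.index = 552 := by
        rw [hS, MulAction.index_stabilizer, ← hV, ← Finset.card_univ, ← Set.ncard_coe_finset]
        congr 1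
        ext w
        simp only [Finset.coe_univ, Set.mem_univ, iff_true]
        obtain ⟨g, hg, e⟩ := htrans w
        exact ⟨⟨g, hg⟩, e⟩
      rw [← h2, h3, ← h4, show (S.subgroupOf M).index = S.relIndex M from rfl]
      haveI := hM
      have a1 := Subgroup.relIndex_mul_index (inf_le_right : S ⊓ M ≤ M)
      have a2 := Subgroup.relIndex_mul_index (inf_le_left : S ⊓ M ≤ S)
      have a3 := Subgroup.relIndex_mul_index (le_sup_right : M ≤ S ⊔ M)
      rw [Subgroup.inf_relIndex_right] at a1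
      rw [inf_comm S M, Subgroup.inf_relIndex_right, ← Subgroup.relIndex_sup_right S M] at a2
      rw [inf_comm M S, ← a1, ← a3, mul_left_comm] at a2
      exact ⟨(S ⊔ M).index, mul_left_cancel₀ (Subgroup.index_ne_zero_of_finite) a2⟩
    have hv0 : v0 ∈ O := (hmemO v0).2 ⟨1, M.one_mem, rfl⟩
    have hall : ∀ P : Finset V, (∀ a ∈ P, ∀ b ∈ P, ∃ g ∈ H, g v0 = v0 ∧ g a = b) → P ⊆ O ∨ Disjoint P O := by
      intro P hP
      by_cases hdj : Disjoint P O
      · exact Or.inr hdj
      · obtain ⟨a, haP, haO⟩ := not_disjoint_iff.1 hdj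
        refine Or.inl fun b hb => ?_
        obtain ⟨g, hg, hgv, e⟩ := hP a haP b hb
        exact e ▸ htr g hg (by rw [hgv]; exact hv0) a haO
    rcases hall A hAt with a | a <;> rcases hall B hBt with b | b
    · by_cases hi0 : ι v0 ∈ O
      · refine Or.inr fun w => (hmemO w).1 ?_
        rcases hcov w with rfl | rfl | h | h
        exacts [hv0, hi0, a h, b h]
      · exfalso
        have e : O = insert v0 (A ∪ B) := by
          ext w
          simp only [mem_insert, mem_union]
          refine ⟨fun h => ?_, ?_⟩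
          · rcases hcov w with h' | rfl | h' | h'
            exacts [Or.inl h', absurd h hi0, Or.inr (Or.inl h'), Or.inr (Or.inr h')]
          · rintro (rfl | h | h)
            exacts [hv0, a h, b h]
        rw [e, card_insert_of_notMem (by simp [nA.1, nB.1]), card_union_of_disjoint dAB, hA, hB] at hdvd
        norm_num at hdvd
    · exfalso
      by_cases hi0 : ι v0 ∈ O
      · have e : O = insert v0 (insert (ι v0) A) := by
          ext w
          simp only [mem_insert]
          refine ⟨fun h => ?_, ?_⟩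
          · rcases hcov w with h' | h' | h' | h'
            exacts [Or.inl h', Or.inr (Or.inl h'), Or.inr (Or.inr h'), absurd h (Finset.disjoint_left.1 b h')]
          · rintro (rfl | rfl | h)
            exacts [hv0, hi0, a h]
        rw [e, card_insert_of_notMem (by simp [nA.1, hι0.symm]), card_insert_of_notMem nA.2, hA] at hdvd
        norm_num at hdvd
      · obtain ⟨x, hx, y, hy, hxy⟩ := hAp
        obtain ⟨g, hg, rfl⟩ := htrans x
        have hgy : g⁻¹ y ∈ O := htr g⁻¹ (H.inv_mem hg) (by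
          obtain ⟨m, hm, e⟩ := (hmemO _).1 (a hx)
          refine (hmemO _).2 ⟨(⟨g, hg⟩ : H)⁻¹ * m⁻¹ * ⟨g, hg⟩, ?_, ?_⟩
          · simpa using hM.conj_mem _ (M.inv_mem hm) (⟨g, hg⟩ : H)⁻¹
          · show g⁻¹ ((m : Equiv.Perm V)⁻¹ (g v0)) = g⁻¹ v0
            rw [← e, Equiv.Perm.inv_def (m : Equiv.Perm V), Equiv.symm_apply_apply]) y (a hy)
        have hdd : d v0 (g⁻¹ y) = 8 := by
          rw [← hd g hg, Equiv.Perm.inv_def, Equiv.apply_symm_apply, hxy]
        rcases hcov (g⁻¹ y) with h | h | h | h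
        · rw [h] at hdd; exact h0.2 hdd
        · exact hi0 (h ▸ hgy)
        · have := hAd _ h; omega
        · exact Finset.disjoint_left.1 b h hgy
    · exfalso
      by_cases hi0 : ι v0 ∈ O
      · have e : O = insert v0 (insert (ι v0) B) := by
          ext w
          simp only [mem_insert]
          refine ⟨fun h => ?_, ?_⟩
          · rcases hcov w with h' | h' | h' | h'
            exacts [Or.inl h', Or.inr (Or.inl h'), absurd h (Finset.disjoint_left.1 a h'), Or.inr (Or.inr h')]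
          · rintro (rfl | rfl | h)
            exacts [hv0, hi0, b h]
        rw [e, card_insert_of_notMem (by simp [nB.1, hι0.symm]), card_insert_of_notMem nB.2, hB] at hdvd
        norm_num at hdvd
      · obtain ⟨x, hx, y, hy, hne, hxy⟩ := hBp
        obtain ⟨g, hg, rfl⟩ := htrans x
        have hgy : g⁻¹ y ∈ O := htr g⁻¹ (H.inv_mem hg) (by
          obtain ⟨m, hm, e⟩ := (hmemO _).1 (b hx)
          refine (hmemO _).2 ⟨(⟨g, hg⟩ : H)⁻¹ * m⁻¹ * ⟨g, hg⟩, ?_, ?_⟩
          · simpa using hM.conj_mem _ (M.inv_mem hm) (⟨g, hg⟩ : H)⁻¹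
          · show g⁻¹ ((m : Equiv.Perm V)⁻¹ (g v0)) = g⁻¹ v0
            rw [← e, Equiv.Perm.inv_def (m : Equiv.Perm V), Equiv.symm_apply_apply]) y (b hy)
        have hdd : d v0 (g⁻¹ y) = 16 := by
          rw [← hd g hg, Equiv.Perm.inv_def, Equiv.apply_symm_apply, hxy]
        rcases hcov (g⁻¹ y) with h | h | h | h
        · rw [h] at hdd; exact h0.1 hdd
        · exact hi0 (h ▸ hgy)
        · exact Finset.disjoint_left.1 a h hgy
        · have := hBd _ h; omega
    · have hsub : ∀ w ∈ O, w = v0 ∨ w = ι v0 := by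
        intro w h
        rcases hcov w with h' | h' | h' | h'
        exacts [Or.inl h', Or.inr h', absurd h (Finset.disjoint_left.1 a h'), absurd h (Finset.disjoint_left.1 b h')]
      by_cases hi0 : ι v0 ∈ O
      · exfalso
        obtain ⟨m, hm, em⟩ := (hmemO _).1 hi0
        haveI : (M.comap S.subtype).Normal := hM.comap _
        rcases IsSimpleGroup.eq_bot_or_eq_top_of_normal (M.comap S.subtype) inferInstance with hb | ht
        · refine hιH (m : Equiv.Perm V) m.2 fun w => ?_
          obtain ⟨g, hg, rfl⟩ := htrans w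
          set G0 : H := ⟨g, hg⟩
          set m' := G0⁻¹ * m * G0
          have hm' : m' ∈ M := by simpa [m'] using hM.conj_mem m hm G0⁻¹
          have hfix : ∀ k ∈ M, (k : Equiv.Perm V) v0 = v0 → k = 1 := by
            intro k hk hkv
            have h1 : (⟨k, hkv⟩ : S) ∈ M.comap S.subtype := hk
            rw [hb, Subgroup.mem_bot] at h1
            exact congrArg Subtype.val h1
          have hmv : (m' : Equiv.Perm V) v0 = ι v0 := by
            rcases hsub _ ((hmemO _).2 ⟨m', hm', rfl⟩) with h | h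
            · exfalso
              have h1 : m = 1 := by
                have h2 := hfix _ hm' h
                have h3 : m = G0 * m' * G0⁻¹ := by simp [m', mul_assoc]
                rw [h3, h2]; simp
              rw [h1] at em
              exact hι0 em.symm
            · exact h
          show (m : Equiv.Perm V) (g v0) = ι (g v0)
          rw [← hι g hg, ← hmv]
          show (m : Equiv.Perm V) (g v0) = g (g⁻¹ ((m : Equiv.Perm V) (g v0)))
          rw [Equiv.Perm.inv_def, Equiv.apply_symm_apply]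
        · obtain ⟨x, hx, y, hy, hxy⟩ := hAp
          have hle : A ⊆ {x, ι x} := by
            intro z hz
            obtain ⟨s, hs, hsv, e⟩ := hAt x hx z hz
            obtain ⟨g, hg, gx⟩ := htrans x
            have hsM : (⟨s, hs⟩ : H) ∈ M := by
              have h1 : (⟨⟨s, hs⟩, hsv⟩ : S) ∈ M.comap S.subtype := by rw [ht]; exact Subgroup.mem_top _
              exact h1
            have h2 : g⁻¹ z ∈ O := (hmemO _).2 ⟨(⟨g, hg⟩ : H)⁻¹ * ⟨s, hs⟩ * ⟨g, hg⟩,
              by simpa using hM.conj_mem _ hsM (⟨g, hg⟩ : H)⁻¹, by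
                show g⁻¹ (s (g v0)) = g⁻¹ z
                rw [gx, e]⟩
            rw [Finset.mem_insert, Finset.mem_singleton]
            rcases hsub _ h2 with h | h
            · rw [Equiv.Perm.inv_eq_iff_eq] at h; exact Or.inl (h.trans gx)
            · rw [Equiv.Perm.inv_eq_iff_eq, hι g hg, gx] at h; exact Or.inr h
          have := (Finset.card_le_card hle).trans Finset.card_le_two
          omega
      · refine Or.inl (triv M hM fun m hm => ?_)
        rcases hsub _ ((hmemO _).2 ⟨m, hm, rfl⟩) with h | h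
        · exact h
        · exact absurd ((hmemO _).2 ⟨m, hm, h⟩) hi0
  refine ⟨fun N hN => ?_⟩
  haveI := hN
  rcases orbit_cases N hN with h | h
  · exact Or.inl h
  haveI : (N.comap S.subtype).Normal := hN.comap _
  rcases IsSimpleGroup.eq_bot_or_eq_top_of_normal (N.comap S.subtype) inferInstance with hb | ht'
  · exfalso
    have hcard : Nat.card N = 552 := by
      rw [← hV, ← Nat.card_eq_fintype_card]
      refine Nat.card_congr (Equiv.ofBijective (fun m : N => ((m : H) : Equiv.Perm V) v0) ⟨fun a b e => ?_, fun w => ?_⟩)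
      · have hm : ((a : H)⁻¹ * b) ∈ S := by
          show ((a : H) : Equiv.Perm V)⁻¹ (((b : H) : Equiv.Perm V) v0) = v0
          rw [show ((b : H) : Equiv.Perm V) v0 = ((a : H) : Equiv.Perm V) v0 from e.symm]; exact Equiv.symm_apply_apply _ _
        have h1 : (⟨(a : H)⁻¹ * b, hm⟩ : S) ∈ N.comap S.subtype := N.mul_mem (N.inv_mem a.2) b.2
        rw [hb, Subgroup.mem_bot] at h1
        exact Subtype.ext (inv_mul_eq_one.1 (congrArg Subtype.val h1))
      · obtain ⟨m, hm, e⟩ := h w
        exact ⟨⟨m, hm⟩, e⟩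
    haveI : Fact (Nat.Prime 23) := ⟨by norm_num⟩
    obtain ⟨Q, hQn, hQc⟩ : ∃ Q : Subgroup N, Q.Characteristic ∧ (Nat.card Q = 23 ∨ Nat.card Q = 24) := by
      let P : Sylow 23 N := default
      have hP : Nat.card (P : Subgroup N) = 23 := by rw [P.card_eq_multiplicity, hcard]; decide +kernel
      have hidx : (P : Subgroup N).index = 24 := by
        have := (P : Subgroup N).index_mul_card
        rw [hP, hcard] at this; omega
      have hmod := card_sylow_modEq_one 23 N
      have hdvd := Sylow.card_dvd_index P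
      rw [hidx] at hdvd
      by_cases h1 : Nat.card (Sylow 23 N) = 1
      · haveI : Subsingleton (Sylow 23 N) := (Nat.card_eq_one_iff_unique.1 h1).1
        exact ⟨P, inferInstance, Or.inl hP⟩
      · have hle := Nat.le_of_dvd (by norm_num) hdvd
        have h24 : Nat.card (Sylow 23 N) = 24 := by
          unfold Nat.ModEq at hmod
          interval_cases hh : Nat.card (Sylow 23 N) <;> omega
        have hnorm : Subgroup.normalizer ((P : Subgroup N) : Set N) = (P : Subgroup N) := by
          refine (Subgroup.eq_of_le_of_card_ge Subgroup.le_normalizer ?_).symm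
          have := (Subgroup.normalizer ((P : Subgroup N) : Set N)).index_mul_card
          have hi : (Subgroup.normalizer ((P : Subgroup N) : Set N)).index = 24 := by
            rw [← h24]; exact (Sylow.card_eq_index_normalizer P).symm
          rw [hi, hcard] at this
          omega
        haveI : IsCyclic (P : Subgroup N) := isCyclic_of_prime_card hP
        have hPc : Subgroup.normalizer ((P : Subgroup N) : Set N) ≤ Subgroup.centralizer ((P : Subgroup N) : Set N) := by
          rw [hnorm]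
          exact fun x hx => Subgroup.mem_centralizer_iff.2 fun y hy =>
            congrArg Subtype.val (IsCyclic.commGroup.mul_comm (⟨y, hy⟩ : (P : Subgroup N)) ⟨x, hx⟩)
        have hcompl := MonoidHom.ker_transferSylow_isComplement' P hPc
        set K := (MonoidHom.transferSylow P hPc).ker with hKdef
        have hK : Nat.card K = 24 := by
          have := hcompl.card_mul
          rw [hP, hcard] at this; omega
        refine ⟨K, Subgroup.characteristic_iff_le_comap.2 fun φ x hx => ?_, Or.inr hK⟩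
        rw [Subgroup.mem_comap, hKdef, MonoidHom.mem_ker]
        have h24' : (φ x) ^ 24 = 1 := by
          have : (⟨x, hx⟩ : K) ^ Nat.card K = 1 := pow_card_eq_one'
          rw [hK] at this
          show (φ.toMonoidHom x) ^ 24 = 1
          rw [← map_pow, show x ^ 24 = 1 from congrArg Subtype.val this, map_one]
        have t1 : (MonoidHom.transferSylow P hPc (φ.toMonoidHom x)) ^ 24 = 1 := by
          rw [← map_pow]; show MonoidHom.transferSylow P hPc ((φ x) ^ 24) = 1
          rw [h24', map_one]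
        have t2 : (MonoidHom.transferSylow P hPc (φ.toMonoidHom x)) ^ 23 = 1 := by
          exact (congrArg _ hP.symm).trans pow_card_eq_one'
        rw [pow_succ, t2, one_mul] at t1
        exact t1
    haveI := hQn
    have hM : (Q.map N.subtype).Normal := inferInstance
    rcases orbit_cases _ hM with h' | h'
    · rw [Subgroup.map_eq_bot_iff_of_injective _ N.subtype_injective] at h'
      rw [h', Subgroup.card_bot] at hQc
      norm_num at hQc
    · have : 552 ≤ Nat.card Q := by
        rw [← hV, ← Nat.card_eq_fintype_card]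
        refine Nat.card_le_card_of_surjective (fun m : Q => (((m : N) : H) : Equiv.Perm V) v0) fun w => ?_
        obtain ⟨_, ⟨m, hm, rfl⟩, e⟩ := h' w
        exact ⟨⟨m, hm⟩, e⟩
      omega
  · refine Or.inr (eq_top_iff.2 fun g _ => ?_)
    obtain ⟨m, hm, e⟩ := h ((g : Equiv.Perm V) v0)
    have hs : m⁻¹ * g ∈ S := by
      show ((m : Equiv.Perm V))⁻¹ ((g : Equiv.Perm V) v0) = v0
      rw [← e]; exact Equiv.symm_apply_apply _ _
    have h1 : (⟨m⁻¹ * g, hs⟩ : S) ∈ N.comap S.subtype := by rw [ht']; exact Subgroup.mem_top _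
    rw [← mul_inv_cancel_left m g]
    exact N.mul_mem hm h1

open Cfsg Cfsg.Lib.Golay Cfsg.Lib.Leech
open scoped Pointwise

/-- The coordinates of the octad vector. -/
def swapList : List ℤ := [2,0,0,0,0,0,0,0,0,0,0,0,2,0,2,0,2,2,2,0,0,0,2,2]

theorem swap_check : CheckVec (ofList swapList) ∧ sqNorm (ofList swapList) = 32 ∧
    5 * ofList swapList none + ((∑ i, ofList swapList i) - ofList swapList none) = 24 := by decide +kernel

/-- The octad vector. -/
def swapVec : leechLattice := ⟨ofList swapList, mem_of_check swap_check.1⟩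

/-- The seven other points of the octad. -/
def swapPts : Finset GolayPt := Finset.univ.filter fun j => j ≠ none ∧ ofList swapList j = 2

theorem swap_rel : ∀ i, 2 * ofList swapList i -
    (∑ j ∈ swapPts, ((if i = none then (4 : ℤ) else 0) + (if i = j then 4 else 0))) =
    -(3 * (if i = none then 8 else 0)) := by decide +kernel

theorem swap_pts : swapPts.card = 7 ∧ some 1 ∉ swapPts ∧ ofList swapList (some 1) = 0 ∧
    ∀ j ∈ swapPts, 4 * fiveFun none + 4 * fiveFun j = 24 ∧ (none : GolayPt) ≠ j := by decide +kernel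

theorem no_swap {v : leechLattice} (hv : nm v = 48) {g : Co0}
    (hg : ∀ y : leechLattice, nm y = 32 → dt v y = 24 → g • y = v - y) : False := by
  obtain ⟨h, hh⟩ := trans48 hv five_check.2 (w := fiveVec)
  set k := h * g * h⁻¹
  have hk : ∀ y : leechLattice, nm y = 32 → dt fiveVec y = 24 → k • y = fiveVec - y := by
    intro y h1 h2
    have h3 := hg (h⁻¹ • y) (by rw [nm, co0_norm]; exact h1) (by
      rw [dt, ← co0_dot h, smul_inv_smul, hh]; exact h2)
    show (h * g * h⁻¹) • y = _
    rw [mul_smul, mul_smul, h3, co0_sub, smul_inv_smul, hh]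
  have e1 : k • swapVec = fiveVec - swapVec := hk _ swap_check.2.1 (by
    rw [dt_five]
    exact swap_check.2.2)
  have e2 : ∀ j ∈ swapPts, k • plusVec none j = fiveVec - plusVec none j := fun j hj =>
    hk _ (plusVec_norm _ _ (swap_pts.2.2.2 j hj).2) (by
      rw [dt_comm]
      exact ((dot_plus_minus none j _).1).trans (swap_pts.2.2.2 j hj).1)
  have key : (2 : ℤ) • swapVec - ∑ j ∈ swapPts, plusVec none j = -((3 : ℤ) • eight none) := by
    refine Subtype.ext (funext fun i => ?_)
    simp only [AddSubgroupClass.coe_sub, AddSubgroup.val_finsetSum, Pi.sub_apply, Finset.sum_apply,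
      AddSubgroupClass.coe_zsmul, Pi.smul_apply, smul_eq_mul, NegMemClass.coe_neg, Pi.neg_apply, eight_apply]
    exact swap_rel i
  have h2 := congrArg (fun y => k • y) key
  simp only [co0_sub, co0_zsmul, co0_sum, co0_neg, e1] at h2
  rw [Finset.sum_congr rfl e2] at h2
  have h3 := congrArg (fun y : leechLattice => (y : GolayPt → ℤ) (some 1)) h2
  simp only [AddSubgroupClass.coe_sub, AddSubgroup.val_finsetSum, Pi.sub_apply, Finset.sum_apply,
    AddSubgroupClass.coe_zsmul, Pi.smul_apply, smul_eq_mul, NegMemClass.coe_neg, Pi.neg_apply] at h3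
  have hp : ∀ j ∈ swapPts, ((fiveVec : leechLattice) : GolayPt → ℤ) (some 1) -
      ((plusVec none j : leechLattice) : GolayPt → ℤ) (some 1) = 1 := by decide +kernel
  rw [Finset.sum_congr rfl hp, Finset.sum_const, swap_pts.1] at h3
  have a1 : ((fiveVec : leechLattice) : GolayPt → ℤ) (some 1) = 1 := by decide
  have a2 : ((swapVec : leechLattice) : GolayPt → ℤ) (some 1) = 0 := swap_pts.2.2.1
  rw [a1, a2] at h3
  simp only [nsmul_eq_mul, Nat.cast_ofNat, mul_one] at h3
  omega

theorem isCo3_stab {v : leechLattice} (hv : nm v = 48) : IsCo3 ↥(MulAction.stabilizer Co0 v) := by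
  classical
  obtain ⟨a0, b0, ha0, hb0, hab0, hsum⟩ := split48 hv
  have hva0 : dt v a0 = 24 := by
    rw [hsum, dt_comm, dt_add, dt_self]
    simp only [nm, dt] at *
    omega
  have eb : v - a0 = b0 := by rw [hsum, add_sub_cancel_left]
  have spl : ∀ y : leechLattice, nm y = 32 → (dt v y = 24 ↔ nm (v - y) = 32) := fun y hy => by
    rw [nm_sub]; omega
  let K := MulAction.stabilizer Co0 v
  let X := {y : leechLattice // nm y = 32 ∧ dt v y = 24}
  have hset : {y : leechLattice | nm y = 32 ∧ dt v y = 24} =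
      {y : leechLattice | sqNorm (y : GolayPt → ℤ) = 32 ∧ sqNorm ((v - y) : GolayPt → ℤ) = 32} :=
    Set.ext fun y => ⟨fun h => ⟨h.1, (spl y h.1).1 h.2⟩, fun h => ⟨h.1, (spl y h.1).2 h.2⟩⟩
  have h552 : ({y : leechLattice | nm y = 32 ∧ dt v y = 24}).ncard = 552 := by rw [hset]; exact count48 v hv
  haveI : Finite X := (Set.finite_of_ncard_ne_zero (s := {y : leechLattice | nm y = 32 ∧ dt v y = 24})
    (by rw [h552]; norm_num)).to_subtype
  haveI : Fintype X := Fintype.ofFinite X
  have hX : Fintype.card X = 552 := by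
    rw [← Nat.card_eq_fintype_card]
    exact (Nat.card_coe_set_eq _).trans h552
  have pres : ∀ g ∈ K, ∀ y : leechLattice, nm y = 32 ∧ dt v y = 24 → nm (g • y) = 32 ∧ dt v (g • y) = 24 := by
    intro g hg y hy
    refine ⟨(co0_norm g y).trans hy.1, ?_⟩
    simp only [dt]
    rw [← (MulAction.mem_stabilizer_iff.1 hg : g • v = v), co0_dot]
    exact hy.2
  let φ : ↥K →* Equiv.Perm X :=
    { toFun := fun g =>
        { toFun := fun x => ⟨g.1 • x.1, pres g.1 g.2 x.1 x.2⟩
          invFun := fun x => ⟨g.1⁻¹ • x.1, pres g.1⁻¹ (K.inv_mem g.2) x.1 x.2⟩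
          left_inv := fun x => Subtype.ext (inv_smul_smul g.1 x.1)
          right_inv := fun x => Subtype.ext (smul_inv_smul g.1 x.1) }
      map_one' := Equiv.ext fun x => Subtype.ext (one_smul _ x.1)
      map_mul' := fun a b => Equiv.ext fun x => Subtype.ext (mul_smul a.1 b.1 x.1) }
  let inv : X → X := fun x => ⟨v - x.1, (spl x.1 x.2.1).1 x.2.2, by
    rw [dt_sub, dt_self, x.2.2, hv]; norm_num⟩
  let a : X := ⟨a0, ha0, hva0⟩
  -- the two large classes
  have hu : sqNorm (a0 : GolayPt → ℤ) = 32 ∧ sqNorm ((v - a0) : GolayPt → ℤ) = 32 := ⟨ha0, (spl a0 ha0).1 hva0⟩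
  obtain ⟨h275, htA⟩ := Cfsg.Agent.S1580.result v a0 hv hu
  let A : Finset X := Finset.univ.filter fun y => dt a0 y.1 = 16
  let B : Finset X := Finset.univ.filter fun y => dt a0 y.1 = 8
  have hAB : ∀ y : X, y ∈ B ↔ inv y ∈ A := fun y => by
    simp only [A, B, Finset.mem_filter, Finset.mem_univ, true_and, inv]
    rw [dt_sub, dt_comm a0 v, hva0]; omega
  have hAc : A.card = 275 := by
    rw [← h275, ← Set.ncard_coe_finset]
    refine Set.ncard_congr (fun w _ => w.1)
      (fun w hw => ⟨w.2.1, (spl w.1 w.2.1).1 w.2.2, (Finset.mem_filter.1 hw).2⟩)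
      (fun p q _ _ e => Subtype.ext e) fun y hy =>
        ⟨⟨y, hy.1, (spl y hy.1).2 hy.2.1⟩, Finset.mem_filter.2 ⟨Finset.mem_univ _, hy.2.2⟩, rfl⟩
  have inv2 : ∀ y : X, inv (inv y) = y := fun y => Subtype.ext (sub_sub_cancel v y.1)
  have hBc : B.card = 275 := by
    rw [← hAc]
    exact Finset.card_bij' (fun y _ => inv y) (fun y _ => inv y) (fun y hy => (hAB y).1 hy)
      (fun y hy => (hAB _).2 (by rw [inv2]; exact hy)) (fun y _ => inv2 y) fun y _ => inv2 y
  have haa : dt a0 a0 = 32 := (dt_self _).trans ha0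
  have hai : dt a0 (inv a).1 = -8 := by
    show dt a0 (v - a0) = -8
    rw [dt_sub, dt_comm a0 v, hva0, haa]; norm_num
  have hne : inv a ≠ a := fun e => by rw [e] at hai; have : dt a0 a0 = -8 := hai; omega
  have hcov : ∀ w : X, w = a ∨ w = inv a ∨ w ∈ A ∨ w ∈ B := by
    have : insert a (insert (inv a) (A ∪ B)) = Finset.univ := by
      refine Finset.eq_univ_of_card _ ?_
      have d1 : Disjoint A B := Finset.disjoint_left.2 fun w h h' => by
        have := (Finset.mem_filter.1 h).2; have := (Finset.mem_filter.1 h').2; omega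
      have n1 : inv a ∉ A ∪ B := by
        simp only [Finset.mem_union, A, B, Finset.mem_filter, Finset.mem_univ, true_and, hai]; norm_num
      have n2 : a ∉ insert (inv a) (A ∪ B) := by
        simp only [Finset.mem_insert, Finset.mem_union, A, B, Finset.mem_filter, Finset.mem_univ, true_and]
        show ¬(a = inv a ∨ dt a0 a0 = 16 ∨ dt a0 a0 = 8)
        rw [haa]; simp [hne.symm]
      rw [Finset.card_insert_of_notMem n2, Finset.card_insert_of_notMem n1, Finset.card_union_of_disjoint d1,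
        hAc, hBc, hX]
    intro w
    have hw : w ∈ insert a (insert (inv a) (A ∪ B)) := by rw [this]; exact Finset.mem_univ _
    simpa [Finset.mem_insert, Finset.mem_union] using hw
  have htrans : ∀ w : X, ∃ g ∈ φ.range, g a = w := by
    intro w
    obtain ⟨g, g1, g2⟩ := trans48_pairs hv hu ⟨w.2.1, (spl w.1 w.2.1).1 w.2.2⟩
    exact ⟨φ ⟨g, g1⟩, ⟨_, rfl⟩, Subtype.ext g2⟩
  have hAt : ∀ p ∈ A, ∀ q ∈ A, ∃ g : Co0, g • v = v ∧ g • a0 = a0 ∧ g • p.1 = q.1 := fun p hp q hq =>
    htA p.1 ⟨p.2.1, (spl p.1 p.2.1).1 p.2.2, (Finset.mem_filter.1 hp).2⟩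
      q.1 ⟨q.2.1, (spl q.1 q.2.1).1 q.2.2, (Finset.mem_filter.1 hq).2⟩
  -- the point stabiliser
  let P := MulAction.stabilizer Co0 a0 ⊓ MulAction.stabilizer Co0 b0
  have memP : ∀ {g : Co0}, g ∈ P → g • v = v ∧ g • a0 = a0 := fun {g} h => by
    obtain ⟨h1, h2⟩ := Subgroup.mem_inf.1 h
    exact ⟨by rw [hsum, co0_add, h1, h2], h1⟩
  have hPm : IsMcL ↥P := isMcL_stab ha0 hb0 hab0
  haveI := hPm.1
  let ψ : ↥P →* ↥K := MonoidHom.mk' (fun p => ⟨p.1, (memP p.2).1⟩) fun p q => rfl
  have hψsurj : ∀ g : ↥K, g.1 • a0 = a0 → ∃ p, ψ p = g := fun g hg =>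
    ⟨⟨g.1, hg, by
      show g.1 • b0 = b0
      rw [← eb, co0_sub, hg, (MulAction.mem_stabilizer_iff.1 g.2 : g.1 • v = v)]⟩, rfl⟩
  have hψinj : Function.Injective ψ := fun p q e => Subtype.ext (congrArg (fun g : ↥K => g.1) e)
  obtain ⟨x0, hx0⟩ : A.Nonempty := Finset.card_pos.1 (by rw [hAc]; norm_num)
  have hinj : Function.Injective φ := by
    rw [injective_iff_map_eq_one]
    intro g hg
    have hfix : ∀ x : X, g.1 • x.1 = x.1 := fun x => congrArg Subtype.val (DFunLike.congr_fun hg x)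
    obtain ⟨p, rfl⟩ := hψsurj g (hfix a)
    rcases IsSimpleGroup.eq_bot_or_eq_top_of_normal (φ.comp ψ).ker inferInstance with hb | ht
    · have : p ∈ (φ.comp ψ).ker := hg
      rw [hb, Subgroup.mem_bot] at this
      rw [this, map_one]
    · exfalso
      have hle : A ⊆ {x0} := by
        intro q hq
        obtain ⟨t, t1, t2, t3⟩ := hAt x0 hx0 q hq
        obtain ⟨p', hp'⟩ := hψsurj ⟨t, t1⟩ t2
        have h1 : (φ.comp ψ) p' = 1 := by
          have : p' ∈ (φ.comp ψ).ker := by rw [ht]; exact Subgroup.mem_top _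
          exact this
        have h2 := congrArg Subtype.val (DFunLike.congr_fun h1 x0)
        rw [MonoidHom.comp_apply, hp'] at h2
        rw [Finset.mem_singleton]
        exact Subtype.ext (t3.symm.trans h2)
      have := Finset.card_le_card hle
      rw [hAc, Finset.card_singleton] at this
      omega
  let S := MulAction.stabilizer φ.range a
  have hS : ∃ χ : ↥P →* ↥S, Function.Bijective χ := by
    have hS0 : ∀ p : ↥P, (⟨φ (ψ p), _, rfl⟩ : φ.range) ∈ S := fun p => Subtype.ext (memP p.2).2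
    refine ⟨MonoidHom.mk' (fun p => ⟨_, hS0 p⟩) fun p q => Subtype.ext (Subtype.ext ?_), ?_, ?_⟩
    · show φ (ψ (p * q)) = φ (ψ p) * φ (ψ q)
      rw [map_mul, map_mul]
    · intro p q e
      exact hψinj (hinj (congrArg (fun s : ↥S => (s.1 : Equiv.Perm X)) e))
    · rintro ⟨⟨_, g, rfl⟩, hga⟩
      obtain ⟨p, hp⟩ := hψsurj g (congrArg Subtype.val hga)
      exact ⟨p, Subtype.ext (Subtype.ext (congrArg φ hp))⟩
  obtain ⟨χ, hχ⟩ := hS
  let E := MulEquiv.ofBijective χ hχ
  haveI : IsSimpleGroup ↥S := E.symm.isSimpleGroup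
  -- pairs inside the classes
  have hx1 : nm x0.1 = 32 ∧ nm (v - x0.1) = 32 ∧ dt a0 x0.1 = 16 :=
    ⟨x0.2.1, (spl x0.1 x0.2.1).1 x0.2.2, (Finset.mem_filter.1 hx0).2⟩
  obtain ⟨c112, c162, -⟩ := mac_suborbits hv ha0 hu.2 hx1
  obtain ⟨y8, ⟨y81, y82, y83⟩, y84⟩ := Set.nonempty_of_ncard_ne_zero (by rw [c112]; norm_num :
    {y : leechLattice | (nm y = 32 ∧ nm (v - y) = 32 ∧ dt a0 y = 16) ∧ dt x0.1 y = 8}.ncard ≠ 0)
  obtain ⟨y6, ⟨y61, y62, y63⟩, y6n, y64⟩ := Set.nonempty_of_ncard_ne_zero (by rw [c162]; norm_num :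
    {y : leechLattice | (nm y = 32 ∧ nm (v - y) = 32 ∧ dt a0 y = 16) ∧ y ≠ x0.1 ∧ dt x0.1 y = 16}.ncard ≠ 0)
  let Y8 : X := ⟨y8, y81, (spl y8 y81).2 y82⟩
  let Y6 : X := ⟨y6, y61, (spl y6 y61).2 y62⟩
  have hsimple : IsSimpleGroup φ.range := by
    refine simple_552 hX a φ.range (fun p q => dt p.1 q.1) ?_ inv ?_ ?_ hne htrans A B hAc hBc hcov
      (fun w hw => (Finset.mem_filter.1 hw).2) (fun w hw => (Finset.mem_filter.1 hw).2) ?_ ?_ ?_ ?_ ?_ ?_
    · rintro _ ⟨g, rfl⟩ p q
      exact co0_dot g.1 p.1 q.1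
    · rintro _ ⟨g, rfl⟩ p
      exact Subtype.ext ((co0_sub g.1 v p.1).trans
        (by rw [(MulAction.mem_stabilizer_iff.1 g.2 : g.1 • v = v)]; rfl))
    · rintro _ ⟨g, rfl⟩ hg
      exact no_swap hv (g := g.1) fun y hy hy' => congrArg Subtype.val (hg ⟨y, hy, hy'⟩)
    · exact ⟨x0, hx0, Y8, Finset.mem_filter.2 ⟨Finset.mem_univ _, y83⟩, y84⟩
    · refine ⟨inv x0, (hAB _).2 (by rw [inv2]; exact hx0), inv Y6,
        (hAB _).2 (by rw [inv2]; exact Finset.mem_filter.2 ⟨Finset.mem_univ _, y63⟩), fun e => ?_, ?_⟩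
      · exact y6n (congrArg Subtype.val (show Y6 = x0 by rw [← inv2 Y6, ← inv2 x0, e]))
      · show dt (v - x0.1) (v - y6) = 16
        rw [dt_sub, dt_comm (v - x0.1) v, dt_comm (v - x0.1) y6, dt_sub, dt_sub, dt_self, hv,
          x0.2.2, dt_comm y6 v, (spl y6 y61).2 y62, dt_comm y6 x0.1, y64]
        norm_num
    · intro p hp q hq
      obtain ⟨g, g1, g2, g3⟩ := hAt p hp q hq
      exact ⟨φ ⟨g, g1⟩, ⟨_, rfl⟩, Subtype.ext g2, Subtype.ext g3⟩
    · intro p hp q hq
      obtain ⟨g, g1, g2, g3⟩ := hAt _ ((hAB p).1 hp) _ ((hAB q).1 hq)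
      refine ⟨φ ⟨g, g1⟩, ⟨_, rfl⟩, Subtype.ext g2, Subtype.ext ?_⟩
      have g3' : g • (v - p.1) = v - q.1 := g3
      rw [co0_sub, g1] at g3'
      exact sub_right_injective g3'
    · show dt a0 a0 ≠ 16 ∧ dt a0 a0 ≠ 8
      rw [haa]; norm_num
    · rw [hai]; norm_num
  have hcard : Nat.card φ.range = 495766656000 := by
    rw [← Subgroup.card_mul_index S, MulAction.index_stabilizer, ← Nat.card_congr E.toEquiv, hPm.2,
      show MulAction.orbit φ.range a = Set.univ from Set.eq_univ_of_forall fun w => by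
        obtain ⟨g, hg, e⟩ := htrans w; exact ⟨⟨g, hg⟩, e⟩,
      Set.ncard_univ, Nat.card_eq_fintype_card, hX]
  let F := MonoidHom.ofInjective hinj
  haveI := hsimple
  exact ⟨F.isSimpleGroup, (Nat.card_congr F.toEquiv).trans hcard⟩

end Cfsg.Lib.Leech.Tri
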